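import Cfsg.Agent.LF.SU6
import Cfsg.Agent.TT.LargeF
import Cfsg.Agent.TT.Pair
import Cfsg.Prelude.Def_MonsterType

/-! # Groups of large Fischer type: coordinates on `Q / ⟨z⟩` -/

set_option autoImplicit false

namespace Cfsg.Agent.LF

open Cfsg.Agent.GT Cfsg.Agent.TT Cfsg.Agent.Cl Subgroup

theorem exists_rho {E V1 H : Type*} [Group E] [AddCommGroup V1] [Module (ZMod 2) V1] [Group H] {z : E}
    {π : E → V1} {Q : QuadraticForm (ZMod 2) V1} (h : Orth.XS z π Q) (hB : Orth.BNondeg Q)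
    (f : H →* MulAut E) : ∃ ρ : H →* (V1 ≃ₗ[ZMod 2] V1), (∀ g x, ρ g (π x) = π (f g x)) ∧
      ∀ g v, Q (ρ g v) = Q v := by
  obtain ⟨s, hs⟩ := h.surj.hasRightInverse
  have hind : ∀ (φ : MulAut E) {x y}, π x = π y → π (φ x) = π (φ y) := by
    intro φ x y e
    rcases h.eq_iff.mp e with rfl | rfl
    · rfl
    · rw [map_mul, h.aut_z hB, h.mul, h.πz, add_zero]
  let L : MulAut E → V1 →ₗ[ZMod 2] V1 := fun φ => (AddMonoidHom.mk' (fun v => π (φ (s v)))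
    fun v w => by
      rw [← h.mul, ← map_mul]
      exact hind φ (by rw [h.mul, hs, hs, hs])).toZModLinearMap 2
  have hL : ∀ φ x, L φ (π x) = π (φ x) := fun φ x => hind φ (hs _)
  refine ⟨MonoidHom.mk' (fun g => LinearEquiv.ofLinearMap (L (f g)) (L (f g)⁻¹) (LinearMap.ext fun v => ?_)
    (LinearMap.ext fun v => ?_)) fun a b => LinearEquiv.ext fun v => ?_, fun g x => hL _ x, fun g v => ?_⟩ <;>
    obtain ⟨x, rfl⟩ := h.surj v
  · simp [hL]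
  · simp [hL]
  · simp [hL]
  · change Q (L (f g) (π x)) = _
    rw [hL]
    rcases Orth.zmod2_cases (Q (π x)) with e | e <;> rw [e]
    · rw [← h.sq, ← map_mul, (h.sq x).mpr e, map_one]
    · rw [← h.sq_z, ← map_mul, (h.sq_z x).mpr e, h.aut_z hB]

/-- Coordinates `π` on `Q / ⟨z⟩` and the action `r` of the centraliser of `z`. -/
structure LB {G : Type*} [Group G] (Q : Subgroup G) (z : G) (π : G → V) (r : G → Γ) : Prop
    extends LQ Q z where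
  mul : ∀ x ∈ Q, ∀ y ∈ Q, π (x * y) = π x + π y
  surj : ∀ v, ∃ x ∈ Q, π x = v
  ker : ∀ x ∈ Q, π x = 0 ↔ x = 1 ∨ x = z
  sq' : ∀ x ∈ Q, x * x = 1 ↔ Q0 (π x) = 0
  comm : ∀ x ∈ Q, ∀ y ∈ Q, y * x = x * y ↔ Orth.B Q0 (π x) (π y) = 0
  rmul : ∀ a ∈ C1[z], ∀ b ∈ C1[z], r (a * b) = r a * r b
  act : ∀ h ∈ C1[z], ∀ x ∈ Q, π (h * x * h⁻¹) = r h (π x)
  exK : ∀ k ∈ K0, ∃ h ∈ C1[z], r h = k
  memN : ∀ h ∈ C1[z], r h ∈ N0
  cardQ : Nat.card Q = 2 ^ 13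
  cardH : Nat.card C1[z] = 2 ^ 13 * (2 * 9797760)
  wc : ∃ g, g * z * g⁻¹ ∈ Q ∧ g * z * g⁻¹ ≠ z

theorem exists_LB {G : Type*} [Group G] [Finite G] {z : G} {Q : Subgroup C1[z]} [Q.Normal]
    (hF : IsOfLargeFischerTypeAt z Q) : ∃ π r, LB (Q.map C1[z].subtype) z π r := by
  classical
  obtain ⟨⟨h1, h2, h3, h4, g, ⟨hg, hgQ⟩, hgz⟩, N, M, _, _, hQN, hNM, hN, ⟨F, _, _, hF, ⟨e⟩⟩, hM⟩ := hF
  have hL : LQ (Q.map C1[z].subtype) z := by
    obtain ⟨w, hw⟩ := ES.of_isExtraspecial h3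
    exact LQ.of_fstar h1 (by rw [← map_subtype_fstar, h2])
      (hw.map C1[z].subtype fun x _ h => Subtype.ext h).isExtraspecial
  obtain ⟨⟨z0, hz0⟩, hzQ, rfl : z0 = z⟩ := hL.mem
  let Q' := Q.map C1[z0].subtype
  let ε : Q ≃* Q' := Q.equivMapOfInjective _ C1[z0].subtype_injective
  have hE : ES (⊤ : Subgroup Q') ⟨z0, hL.mem⟩ := subgroupOf_self Q' ▸ hL.toES.subgroupOf le_rfl
  obtain ⟨_, Q1, π1, X, hB⟩ := Orth.exists_xs_of_es hE
  obtain ⟨ρ, ρ1, ρ2⟩ := exists_rho X hB ((normalizerMonoidHom Q').comp (inclusion hL.nQ))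
  have cQ : Nat.card Q' = 2 ^ 13 := (Nat.card_congr ε.toEquiv).symm.trans h4
  have cV : Nat.card (Additive (Abelianization Q')) = 4096 := by
    have := X.card_eq
    omega
  have kρ : ρ.ker = Q := by
    ext h
    refine ⟨fun hh => ?_, fun hh => LinearEquiv.ext fun v => ?_⟩
    · obtain ⟨k, a, b⟩ := hL.toES.mem_of_trivial hL.cQ (g := h) fun y hy => by
        have := ρ1 h ⟨y, hy⟩
        rw [MonoidHom.mem_ker.1 hh] at this
        exact (X.eq_iff.1 this).imp (congrArg Subtype.val) (congrArg Subtype.val)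
      exact Subtype.ext b ▸ a
    · obtain ⟨x, rfl⟩ := X.surj v
      rw [ρ1]
      change π1 (⟨h, h, hh, rfl⟩ * x * (⟨h, h, hh, rfl⟩ : Q')⁻¹) = π1 x
      rw [X.mul, X.mul, X.inv, add_comm (π1 _) (π1 x), add_assoc, Orth.XS.add_self, add_zero]
  have card : ∀ S : Subgroup C1[z0], Q ≤ S → Nat.card S = 2 ^ 13 * Nat.card (S.map ρ) := fun S hS => by
    have := (ρ.domRestrict S).ker.card_mul_index
    rwa [index_ker, MonoidHom.ker_domRestrict, kρ, Nat.card_congr (subgroupOfEquivOfLe hS).toEquiv, h4,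
      MonoidHom.domRestrict_range, eq_comm] at this
  obtain ⟨θ, E0⟩ := exists_ext0 F hF
  let ψ : M →* PSU 4 F 3 := e.toMonoidHom.comp (QuotientGroup.mk' _)
  have kψ : ∀ m : M, ψ m = 1 ↔ m.1 ∈ N := fun m =>
    (map_eq_one_iff e e.injective).trans (QuotientGroup.eq_one_iff m)
  let μ : M →* M.map ρ := ρ.subgroupMap M
  have sμ : Function.Surjective μ := ρ.subgroupMap_surjective M
  let φ := μ.liftOfRightInverse _ (Function.rightInverse_surjInv sμ) ⟨ψ, fun m hm =>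
    (kψ m).2 (hQN (kρ.le (congrArg Subtype.val hm :)))⟩
  have hφ : ∀ m, φ (μ m) = ψ m := fun m => MonoidHom.liftOfRightInverse_comp_apply _ _ _ _ _
  have cN : Nat.card (N.map ρ) = 3 := by have := card N hQN; omega
  have : Finite (N.map ρ) := Nat.finite_of_card_ne_zero (by omega)
  have : Nontrivial (N.map ρ) := Finite.one_lt_card_iff_nontrivial.1 (by omega)
  obtain ⟨⟨_, n, hn, rfl⟩, hx⟩ := exists_ne (1 : N.map ρ)
  have ox : orderOf (ρ n) = 3 := by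
    have := Fact.mk Nat.prime_three
    rw [← Subgroup.orderOf_mk _ (mem_map_of_mem ρ hn)]
    exact orderOf_eq_prime (by rw [← cN]; exact pow_card_eq_one') hx
  have zx : zpowers (ρ n) = N.map ρ := eq_of_le_of_card_ge (zpowers_le.2 ⟨n, hn, rfl⟩)
    (by rw [cN, Nat.card_zpowers, ox])
  have E : Ext3 φ θ (μ ⟨n, hNM hn⟩) := ⟨E0.simple, fun u => by
      obtain ⟨m, rfl⟩ := (e.surjective.comp (QuotientGroup.mk'_surjective _)) u
      exact ⟨μ m, hφ m⟩, E0.sθ, fun k => by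
      obtain ⟨m, rfl⟩ := sμ k
      rw [hφ, kψ, ← comap_map_eq_self (f := ρ) (H := N) (kρ.le.trans hQN), ← zx]
      exact ⟨fun ⟨i, h⟩ => ⟨i, Subtype.ext h⟩, fun ⟨i, h⟩ => ⟨i, congrArg Subtype.val h⟩⟩, E0.kθ,
    (Subgroup.orderOf_mk _ _).trans ox⟩
  obtain ⟨f, f1, -, f2⟩ := E.uniq cV (ρ := (M.map ρ).subtype) (subtype_injective _) hB fun ⟨_, k, _, e⟩ v => by
    subst e; exact ρ2 k v
  let τ := (trG f).toMonoidHom.comp ρ
  have hK : M.map τ = K0 := by rw [← f2, MonoidHom.range_comp, range_subtype, map_map]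
  refine ⟨fun x => if h : x ∈ Q' then f (π1 ⟨x, h⟩) else 0, fun h => if hh : h ∈ C1[z0] then τ ⟨h, hh⟩ else 1,
    hL, fun x hx y hy => ?_, fun v => ?_, fun x hx => ?_, fun x hx => ?_, fun x hx y hy => ?_,
    fun a ha b hb => ?_, fun h hh x hx => ?_, fun k hk => ?_, fun h hh => ?_, cQ, ?_,
    g, ⟨_, hgQ, rfl⟩, hgz⟩
  · rw [dif_pos hx, dif_pos hy, dif_pos (mul_mem hx hy), ← map_add, ← X.mul]; rfl
  · obtain ⟨x, hx⟩ := X.surj (f.symm v)
    exact ⟨x, x.2, by rw [dif_pos x.2, hx]; simp⟩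
  · rw [dif_pos hx, f.map_eq_zero_iff, X.ker, Subtype.ext_iff, Subtype.ext_iff]; rfl
  · rw [dif_pos hx, f1, ← X.sq, Subtype.ext_iff]; rfl
  · rw [dif_pos hx, dif_pos hy, B_eq, ← f.map_add, f1, f1, f1, ← B_eq, ← X.comm_iff, Subtype.ext_iff]; rfl
  · rw [dif_pos ha, dif_pos hb, dif_pos (mul_mem ha hb), ← map_mul]; rfl
  · rw [dif_pos hx, dif_pos hh, dif_pos ((mem_normalizer_iff.1 (hL.nQ hh) x).1 hx)]
    exact ((trG_apply f _ _).trans (congrArg f (ρ1 ⟨h, hh⟩ ⟨x, hx⟩))).symm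
  · obtain ⟨m, -, rfl⟩ := hK.ge hk
    exact ⟨m, m.2, dif_pos m.2⟩
  · rw [dif_pos hh]
    refine norm_le_N0 (fun v => ?_) ?_
    · obtain ⟨v, rfl⟩ := f.surjective v
      exact (congrArg Q0 (trG_apply f _ v)).trans (by rw [f1, f1, ρ2])
    · rw [← hK, map_map, show (MulAut.conj (τ ⟨h, hh⟩)).toMonoidHom.comp τ =
        τ.comp (MulAut.conj ⟨h, hh⟩).toMonoidHom from MonoidHom.ext fun x => by simp, ← map_map]
      exact congrArg _ (Normal.map_conj_eq M _)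
  · rw [← M.card_mul_index, hM, card M (hQN.trans hNM), E.cardK]; rfl

theorem card_sing_le (U : AddSubgroup V) (h : ∀ u ∈ U, Q0 u = 0) : Nat.card U ≤ 64 := by
  let U' := AddSubgroup.toZModSubmodule 2 U
  have hV : Module.finrank (ZMod 2) V = 12 := by
    have := Module.natCard_eq_pow_finrank (K := ZMod 2) (V := V)
    rw [card_V, Nat.card_zmod] at this
    exact Nat.pow_right_injective le_rfl this.symm
  have a := LinearMap.BilinForm.finrank_orthogonal (B := Orth.B Q0)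
    ⟨fun u hu => bnondeg_Q0 u fun v => (Orth.B_comm _ _ _).trans (hu v), bnondeg_Q0⟩ U'
  have b := Submodule.finrank_mono (show U' ≤ LinearMap.BilinForm.orthogonal (Orth.B Q0) U' from
    fun u hu v hv => by
      change Orth.B Q0 v u = 0
      rw [B_eq, h _ (U.add_mem hv hu), h v hv, h u hu]; rfl)
  have c := Module.natCard_eq_pow_finrank (K := ZMod 2) (V := U')
  rw [Nat.card_zmod] at c
  exact c.trans_le (Nat.pow_le_pow_right (by omega) (show _ ≤ 6 by omega))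

namespace LB

variable {G : Type*} [Group G] {Q : Subgroup G} {z : G} {π : G → V} {r : G → Γ} (S : LB Q z π r)
  {a b h x y : G}
include S

theorem le : Q ≤ C1[z] := S.toES.le_cent1

theorem π_one : π 1 = 0 := (S.ker 1 (one_mem _)).2 (.inl rfl)

theorem π_z : π z = 0 := (S.ker z S.mem).2 (.inr rfl)

theorem π_inv (hx : x ∈ Q) : π x⁻¹ = π x :=
  V_add_eq_zero.1 (by rw [← S.mul _ (inv_mem hx) _ hx, inv_mul_cancel, S.π_one])

theorem π_mul_z (hx : x ∈ Q) : π (x * z) = π x := by rw [S.mul _ hx _ S.mem, S.π_z, add_zero]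

theorem π_eq_iff (hx : x ∈ Q) (hy : y ∈ Q) : π x = π y ↔ y = x ∨ y = x * z := by
  rw [← V_add_eq_zero, ← S.π_inv hx, ← S.mul _ (inv_mem hx) _ hy, S.ker _ (mul_mem (inv_mem hx) hy),
    inv_mul_eq_one, inv_mul_eq_iff_eq_mul, eq_comm]

theorem conj_mem (hh : h ∈ C1[z]) (hx : x ∈ Q) : h * x * h⁻¹ ∈ Q := (mem_normalizer_iff.1 (S.nQ hh) x).1 hx

/-- The action of the centraliser as a homomorphism. -/
def ρ : C1[z] →* Γ := MonoidHom.mk' (fun h => r h) fun a b => S.rmul a a.2 b b.2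

theorem r_one : r 1 = 1 := map_one S.ρ

theorem r_inv (hh : h ∈ C1[z]) : r h⁻¹ = (r h)⁻¹ := map_inv S.ρ ⟨h, hh⟩

theorem r_pow (hh : h ∈ C1[z]) (n : ℕ) : r (h ^ n) = r h ^ n := map_pow S.ρ ⟨h, hh⟩ n

theorem r_conj (ha : a ∈ C1[z]) (hb : b ∈ C1[z]) : r (a * b * a⁻¹) = r a * r b * (r a)⁻¹ := by
  rw [S.rmul _ (mul_mem ha hb) _ (inv_mem ha), S.rmul _ ha _ hb, S.r_inv ha]

theorem r_Q (hx : x ∈ Q) : r x = 1 := LinearEquiv.ext fun v => by
  obtain ⟨y, hy, rfl⟩ := S.surj v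
  rw [← S.act _ (S.le hx) _ hy, S.mul _ (mul_mem hx hy) _ (inv_mem hx), S.mul _ hx _ hy, S.π_inv hx,
    add_comm (π x), add_assoc, V_add_self, add_zero]; rfl

theorem r_eq_one [Finite G] (hh : h ∈ C1[z]) : r h = 1 ↔ h ∈ Q :=
  ⟨fun e => S.toES.mem_of_trivial S.cQ fun y hy => (S.π_eq_iff hy (S.conj_mem hh hy)).1
    (by rw [S.act _ hh _ hy, e]; rfl), S.r_Q⟩

theorem r_eq [Finite G] (ha : a ∈ C1[z]) (hb : b ∈ C1[z]) : r a = r b ↔ a⁻¹ * b ∈ Q := by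
  rw [← S.r_eq_one (mul_mem (inv_mem ha) hb), S.rmul _ (inv_mem ha) _ hb, S.r_inv ha, inv_mul_eq_one]

theorem r_Q0 (hh : h ∈ C1[z]) (v : V) : Q0 (r h v) = Q0 v := N0_Q0 (S.memN h hh) v

theorem z_comm (hh : h ∈ C1[z]) : h * z = z * h := mem_centralizer_singleton_iff.1 hh

theorem mul_z_ne : x * z ≠ x := by simpa using S.ne

theorem exists_conj_z (hx : x ∈ Q) (h0 : π x ≠ 0) : ∃ q ∈ Q, q * x * q⁻¹ = x * z := by
  rw [Ne, S.ker x hx, not_or] at h0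
  obtain ⟨q, a, b⟩ := S.toES.exists_not_commute hx h0.1 h0.2
  exact ⟨q, a, S.toES.conj_of_not a hx b⟩

theorem exists_conj (hh : h ∈ C1[z]) (hx : x ∈ Q) (hy : y ∈ Q) (h0 : π y ≠ 0) (e : r h (π x) = π y) :
    ∃ k ∈ C1[z], r k = r h ∧ k * x * k⁻¹ = y := by
  rcases (S.π_eq_iff hy (S.conj_mem hh hx)).1 (by rw [S.act _ hh _ hx, e]) with c | c
  · exact ⟨h, hh, rfl, c⟩
  · obtain ⟨q, a, b⟩ := S.exists_conj_z hy h0
    refine ⟨q⁻¹ * h, mul_mem (inv_mem (S.le a)) hh, ?_, ?_⟩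
    · rw [S.rmul _ (inv_mem (S.le a)) _ hh, S.r_Q (inv_mem a), one_mul]
    · calc _ = q⁻¹ * (h * x * h⁻¹) * q := by group
        _ = _ := by rw [c, ← b]; group

/-- Image in `Γ`. -/
def im (T : Subgroup G) : Subgroup Γ := (T.subgroupOf C1[z]).map S.ρ

theorem mem_im {T : Subgroup G} {g : Γ} : g ∈ S.im T ↔ ∃ h ∈ T, h ∈ C1[z] ∧ r h = g :=
  ⟨fun ⟨h, a, b⟩ => ⟨h, a, h.2, b⟩, fun ⟨h, a, b, c⟩ => ⟨⟨h, b⟩, a, c⟩⟩

theorem card_im [Finite G] {T : Subgroup G} (hT : T ≤ C1[z]) :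
    Nat.card T = Nat.card ↥(T ⊓ Q) * Nat.card (S.im T) := by
  have := (S.ρ.comp (inclusion hT)).ker.card_mul_index
  rw [index_ker, show (S.ρ.comp (inclusion hT)).ker = (T ⊓ Q).subgroupOf T from Subgroup.ext fun x =>
    (S.r_eq_one (hT x.2)).trans ⟨fun h => ⟨x.2, h⟩, fun h => h.2⟩,
    Nat.card_congr (subgroupOfEquivOfLe inf_le_left).toEquiv, MonoidHom.range_comp, inclusion_range] at this
  exact this.symm

/-- Preimage of a subgroup of `Γ`. -/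
def pb (Y : Subgroup Γ) : Subgroup G := (Y.comap S.ρ).map C1[z].subtype

theorem mem_pb {Y : Subgroup Γ} : h ∈ S.pb Y ↔ h ∈ C1[z] ∧ r h ∈ Y :=
  ⟨fun ⟨k, a, b⟩ => b ▸ ⟨k.2, a⟩, fun ⟨a, b⟩ => ⟨⟨h, a⟩, b, rfl⟩⟩

theorem pb_le {Y : Subgroup Γ} : S.pb Y ≤ C1[z] := fun _ h => (S.mem_pb.1 h).1

theorem le_pb {Y : Subgroup Γ} : Q ≤ S.pb Y := fun _ h => S.mem_pb.2 ⟨S.le h, S.r_Q h ▸ one_mem _⟩

theorem im_pb {Y : Subgroup Γ} (hY : Y ≤ S.ρ.range) : S.im (S.pb Y) = Y := by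
  rw [im, pb, subgroupOf, comap_map_eq_self_of_injective (subtype_injective _), map_comap_eq_self hY]

theorem card_pb [Finite G] {Y : Subgroup Γ} (hY : Y ≤ S.ρ.range) :
    Nat.card (S.pb Y) = 2 ^ 13 * Nat.card Y := by
  rw [S.card_im S.pb_le, inf_eq_right.2 S.le_pb, S.cardQ, S.im_pb hY]

theorem card_range [Finite G] : Nat.card S.ρ.range = 2 * 9797760 := by
  have := S.card_im (le_refl C1[z])
  rw [inf_eq_right.2 S.le, S.cardQ, S.cardH, im, subgroupOf_self, ← MonoidHom.range_eq_map] at this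
  omega

theorem K0_le : K0 ≤ S.ρ.range := fun k hk => let ⟨h, a, b⟩ := S.exK k hk; ⟨⟨h, a⟩, b⟩

theorem range_le : S.ρ.range ≤ N0 := by rintro _ ⟨h, rfl⟩; exact S.memN h h.2

/-- The coordinate map as a homomorphism. -/
def πh : Q →* Multiplicative V :=
  MonoidHom.mk' (fun x => Multiplicative.ofAdd (π x)) fun a b => congrArg _ (S.mul a a.2 b b.2)

/-- Image in `V`. -/
def wq (E : Subgroup G) : AddSubgroup V := toAddSubgroup' ((E.subgroupOf Q).map S.πh)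

theorem mem_wq {E : Subgroup G} {v : V} : v ∈ S.wq E ↔ ∃ x ∈ E, x ∈ Q ∧ π x = v :=
  ⟨fun ⟨h, a, b⟩ => ⟨h, a, h.2, b⟩, fun ⟨h, a, b, c⟩ => ⟨⟨h, b⟩, a, c⟩⟩

theorem card_wq (E : Subgroup G) :
    Nat.card ↥(E ⊓ Q) = Nat.card ↥(E ⊓ zpowers z) * Nat.card (S.wq E) := by
  have := (S.πh.comp (inclusion (inf_le_right : E ⊓ Q ≤ Q))).ker.card_mul_index
  rw [index_ker, show (S.πh.comp (inclusion (inf_le_right : E ⊓ Q ≤ Q))).ker =
    (E ⊓ zpowers z).subgroupOf (E ⊓ Q) from Subgroup.ext fun x => ((S.ker _ x.2.2).trans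
      S.toES.mem_zp.symm).trans ⟨fun h => ⟨x.2.1, h⟩, fun h => h.2⟩,
    Nat.card_congr (subgroupOfEquivOfLe (inf_le_inf_left _ S.toES.zp_le)).toEquiv, MonoidHom.range_comp,
    inclusion_range, inf_subgroupOf_right] at this
  exact this.symm

theorem card_zp : Nat.card (zpowers z) = 2 := card_zpowers_two S.zz S.ne

theorem card_wq_of_mem {E : Subgroup G} (hz : z ∈ E) : Nat.card ↥(E ⊓ Q) = 2 * Nat.card (S.wq E) := by
  rw [S.card_wq, inf_eq_right.2 (zpowers_le.2 hz), S.card_zp]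

theorem card_wq_le [Finite G] (E : Subgroup G) : Nat.card ↥(E ⊓ Q) ≤ 2 * Nat.card (S.wq E) := by
  rw [S.card_wq]
  exact Nat.mul_le_mul_right _ ((card_le_of_le inf_le_right).trans S.card_zp.le)

theorem wq_sing {E : Subgroup G} (hE : ∀ x ∈ E, x ∈ Q → x * x = 1) : ∀ v ∈ S.wq E, Q0 v = 0 := fun v hv => by
  obtain ⟨x, a, b, rfl⟩ := S.mem_wq.1 hv
  exact (S.sq' x b).1 (hE x a b)

theorem twist {k : Γ} (hk : k ∈ K0) : LB Q z (fun x => k (π x)) fun h => k * r h * k⁻¹ where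
  toLQ := S.toLQ
  mul x hx y hy := by rw [S.mul x hx y hy, map_add]
  surj v := let ⟨x, a, b⟩ := S.surj (k⁻¹ v); ⟨x, a, by rw [b]; simp⟩
  ker x hx := k.map_eq_zero_iff.trans (S.ker x hx)
  sq' x hx := by rw [N0_Q0 (K0_le_N0 hk), S.sq' x hx]
  comm x hx y hy := by rw [N0_B (K0_le_N0 hk), S.comm x hx y hy]
  rmul a ha b hb := by rw [S.rmul a ha b hb]; group
  act h hh x hx := by rw [S.act h hh x hx]; simp
  exK j hj := let ⟨h, a, b⟩ := S.exK _ (mul_mem (mul_mem (inv_mem hk) hj) hk); ⟨h, a, by rw [b]; group⟩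
  memN h hh := mul_mem (mul_mem (K0_le_N0 hk) (S.memN h hh)) (inv_mem (K0_le_N0 hk))
  cardQ := S.cardQ
  cardH := S.cardH
  wc := S.wc

theorem exists_twist {n : ℕ} (hn : n < 4096) (h : ty (cd (π x)) = ty n) :
    ∃ π' r', LB Q z π' r' ∧ π' x = dc n :=
  let ⟨_, a, b⟩ := K0_trans (u := π x) (v := dc n) (by rw [cd_dc hn, h]); ⟨_, _, S.twist a, b⟩

theorem ty_cases (hx : x ∈ Q) (h2 : x * x = 1) (h1 : x ≠ 1) (hz : x ≠ z) :
    ty (cd (π x)) = 1 ∨ ty (cd (π x)) = 2 := by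
  have a := Q0_eq_zero.1 ((S.sq' x hx).1 h2)
  have b : ty (cd (π x)) ≠ 0 := fun e => ((S.ker x hx).1 (ty_eq_zero.1 e)).elim h1 hz
  have := ty_lt (cd (π x))
  omega

theorem conj_of_ty (hx : x ∈ Q) (hy : y ∈ Q) (h0 : π y ≠ 0) (e : ty (cd (π x)) = ty (cd (π y))) :
    ∃ k ∈ C1[z], k * x * k⁻¹ = y := by
  obtain ⟨g, a, b⟩ := K0_trans e
  obtain ⟨h, c, rfl⟩ := S.exK g a
  exact let ⟨k, d, _, f⟩ := S.exists_conj c hx hy h0 b; ⟨k, d, f⟩

theorem ty_conj (hh : h ∈ C1[z]) (hx : x ∈ Q) : ty (cd (π (h * x * h⁻¹))) = ty (cd (π x)) := by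
  rw [S.act h hh x hx, mem_N0.1 (S.memN h hh)]

end LB

end Cfsg.Agent.LF
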