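import Cfsg.Agent.LF.Cx

/-! # Groups of large Fischer type: the centraliser `6 · U4(3)` -/

set_option autoImplicit false

namespace Cfsg.Agent.LF

open Cfsg.Agent.M24 Cfsg.Agent.GT Cfsg.Agent.TT Cfsg.Agent.TT2 Cfsg.Agent.Cl Subgroup

theorem mem_K0_of_comm {g : Γ} (h : g ∈ H0) (e : g * W = W * g) : g ∈ K0 := h.elim id fun a => by
  have := K0_W a
  rw [mul_assoc, ← mul_assoc W, ← e, mul_assoc, mul_right_inj] at this
  exact absurd (congrArg code this) (by rw [gc.code_mul, gc.code_mul, code_W, code_uu]; decide +kernel)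

theorem sq_mem_K0 {g : Γ} (h : g ∈ H0) : g * g ∈ K0 := h.elim (fun a => mul_mem a a) fun a => by
  have := mul_mem a (N0_norm uu_mem a)
  rwa [← mul_assoc uu, mul_inv_cancel_right, ← mul_assoc, mul_assoc g, uu_uu, mul_one] at this

theorem perfect_K0 : commutator K0 = ⊤ := by
  obtain ⟨θ, E⟩ := exists_ext0 _ Leech.U43.card_K9
  have k : ∀ p, isC p = true → sift mul one mm cK p = true → ∃ g : K0, code g = p := fun p a b =>
    let ⟨g, e⟩ := exists_code a; ⟨⟨g, mem_K0.2 (e ▸ b)⟩, e⟩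
  obtain ⟨a, a1⟩ := k (nat_lit 0xc0080010030008004003002000400c002001400c0030020008004001003000c008002001)
    (by decide +kernel) (by decide +kernel)
  obtain ⟨b, b1⟩ := k (nat_lit 0x200100080040800400008004002001020010080040800400200100002001020010008004)
    (by decide +kernel) (by decide +kernel)
  obtain ⟨c, c1⟩ := k (nat_lit 0x800400200100020010080040002001008004800400200100020010080040002001008004)
    (by decide +kernel) (by decide +kernel)
  have m : ∀ a b : K0, a * b * a⁻¹ * b⁻¹ ∈ commutator K0 := fun a b =>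
    commutator_mem_commutator (mem_top a) (mem_top b)
  have h : θ.ker ≤ commutator K0 := by
    rw [E.ker_eq, zpowers_le, show (⟨W, W_mem⟩ : K0) = a * b * a⁻¹ * b⁻¹ from Subtype.ext (gc.inj (by
      simp only [coe_mul, coe_inv, gc.code_mul, gc.code_inv, a1, b1, code_W]; decide +kernel))]
    exact m a b
  have := E.simple
  rcases ((inferInstance : (commutator K0).Normal).map θ E.sφ).eq_bot_or_eq_top with e | e
  · have := congrArg (fun g : K0 => code g) (E.z_comm (E.ker_eq.le ((Subgroup.map_eq_bot_iff _).1 e (m b c))) b)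
    simp only [coe_mul, coe_inv, gc.code_mul, gc.code_inv, b1, c1] at this
    exact absurd this (by decide +kernel)
  · rw [← comap_map_eq_self h, e, comap_top]

theorem mem_zW_of_normal {k : Γ} (hk : k ∈ H0) (h3 : k ^ 3 = 1) (h : ∀ j ∈ K0, j * k * j⁻¹ ∈ zpowers k) :
    k ∈ zpowers W := by
  obtain ⟨θ, E⟩ := exists_ext0 _ Leech.U43.card_K9
  have a : k ∈ K0 := by
    have := sq_mem_K0 (mul_mem hk hk)
    rwa [← mul_assoc, ← pow_three', h3, one_mul] at this
  have n : (zpowers (⟨k, a⟩ : K0)).Normal := ⟨by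
    rintro _ ⟨i, rfl⟩ j
    obtain ⟨l, e⟩ := h j j.2
    rw [← conj_zpow]
    exact zpow_mem (show _ ∈ zpowers _ from ⟨l, Subtype.ext e⟩) i⟩
  have := E.simple
  rcases (n.map θ E.sφ).eq_bot_or_eq_top with e | e
  · exact (E.kθ _).1 ((Subgroup.map_eq_bot_iff _).1 e (mem_zpowers _))
  · have := card_dvd_of_surjective _ (θ.subgroupMap_surjective (zpowers ⟨k, a⟩))
    rw [e, card_top, E.cardU, Nat.card_zpowers] at this
    exact absurd (this.trans (orderOf_dvd_of_pow_eq_one (n := 3) (Subtype.ext h3))) (by decide)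

namespace LB

variable {G : Type*} [Group G] [Finite G] {Q : Subgroup G} {z : G} {π : G → V} {r : G → Γ} (S : LB Q z π r)
  {x y : G} (X : LX z r x)
include S X

omit [Finite G] in
theorem eq_of_comm_x (hy : y ∈ Q) (h : y * x = x * y) : y = 1 ∨ y = z := (S.ker y hy).1 (eq_zero_of_om (by
  rw [← S.π_x X hy, ← h, mul_inv_cancel_right]))

theorem z_mem_of_normal {D : Subgroup G} (hn : C1[z] ⊓ C1[x] ≤ N[D])
    (h : ∀ a ∈ C1[z] ⊓ C1[x], a ∈ D ∨ a * z ∈ D) : z ∈ D := by
  obtain ⟨T, μ, C, F⟩ := S.exists_FS X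
  have k : ∀ c < 16, c ≠ 0 → ∃ b, dq (64 * c ^^^ zb b) = true ∧ (T 64 ∈ D ↔ T (64 * c ^^^ zb b) ∈ D) :=
    fun c c1 c0 => by
    obtain ⟨y, a, b⟩ := exists_yc c1 c0
    obtain ⟨h, d, rfl, e⟩ := S.cent_lift X a.2
    obtain ⟨m, f, g⟩ := C.co.surj _ (conj_mem_of_mem_norm (S.norm_A d a.1) (C.mem 64))
    have i := C.Tc 1 (by omega)
    have l := (dec11 f).1
    rw [C.mod_eq_zero f (by rw [g, ← mul_inv_eq_iff_eq_mul.2 e, conj_mul, conj_mul, i.2]), Nat.zero_xor,
      ag_inj (dec11 f).2.2 c1 (by rw [← C.rT f, g, S.r_conj d (S.A_le (C.mem _)), i.1, b])] at l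
    refine ⟨_, l ▸ (F.cls m f (by rintro rfl; exact c0 (by simpa [zb, tbit] using l))).1 fun j => ?_,
      l ▸ g ▸ mem_normalizer_iff.1 (hn ⟨d, mem_cent1.2 e⟩) _⟩
    exact (F.cls 64 (by omega) (by omega)).2 (by decide +kernel) (j.trans (isConj_iff.2 ⟨h, g.symm⟩).symm)
  have d : ∀ c ∈ [2, 3, 4, 5], ∀ b, dq (64 * c ^^^ zb b) = true → b = (c == 5) := by decide +kernel
  have e : ∀ c ∈ [2, 3, 4, 5], T 64 ∈ D ↔ T (64 * c ^^^ zb (c == 5)) ∈ D := fun c hc => by
    obtain ⟨b, f, g⟩ := k c (by revert c; decide) (by revert c; decide)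
    rwa [← d c hc b f]
  have e2 : _ ↔ T 128 ∈ D := e 2 (by simp)
  have e3 : _ ↔ T (64 ^^^ 128) ∈ D := e 3 (by simp)
  have e4 : _ ↔ T 256 ∈ D := e 4 (by simp)
  have e5 : _ ↔ T (64 ^^^ 256 ^^^ 1024) ∈ D := e 5 (by simp)
  have m : ∀ c < 16, T (64 * c) ∈ C1[z] ⊓ C1[x] := fun c hc => ⟨S.A_le (C.mem _), mem_cent1.2 (C.Tc c hc).2.symm⟩
  have f : T 64 ∈ D := by_contra fun f => f (e3.2 (by
    have := mul_mem ((h _ (m 1 (by omega))).resolve_left f) ((h _ (m 2 (by omega))).resolve_left (mt e2.2 f))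
    rwa [mul_assoc, ← mul_assoc z, ← S.z_comm (S.A_le (C.mem _)), mul_assoc _ z, S.zz, mul_one (T _), ← C.mul] at this))
  rw [C.mul, C.mul, C.Tz] at e5
  exact (mul_mem_cancel_left (mul_mem f (e4.1 f))).1 (e5.1 f)

theorem cent_x {L : Type*} [Group L] (ι : L →* G) (hι : Function.Injective ι) (hr : ι.range = C1[z] ⊓ C1[x])
    (F : Type) [Field F] [Fintype F] (hF : Fintype.card F = 9) : Group.IsPerfect L ∧ IsCyclic (center L) ∧
      Nat.card (center L) = 6 ∧ Nonempty (L ⧸ center L ≃* PSU 4 F 3) := by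
  obtain ⟨θ, E⟩ := exists_ext0 F hF
  have m : ∀ l, ι l ∈ C1[z] ⊓ C1[x] := fun l => hr.le ⟨l, rfl⟩
  let ρ : L →* K0 := MonoidHom.mk' (fun l => ⟨r (ι l), mem_K0_of_comm (S.memH (m l).1) (by
    rw [← X.rx, ← S.rmul _ (m l).1 _ X.xH, mem_cent1.1 (m l).2, S.rmul _ X.xH _ (m l).1])⟩)
    fun a b => Subtype.ext ((congrArg r (map_mul ι a b)).trans (S.rmul _ (m a).1 _ (m b).1))
  have s : Function.Surjective ρ := fun k => by
    obtain ⟨h, a, b, c⟩ := S.cent_lift X k.2
    obtain ⟨l, rfl⟩ := hr.ge ⟨a, mem_cent1.2 c⟩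
    exact ⟨l, Subtype.ext b⟩
  have k : ∀ a b, ρ a = ρ b → ι b = ι a ∨ ι b = ι a * z := fun a b e => by
    simpa only [inv_mul_eq_iff_eq_mul, mul_one] using S.eq_of_comm_x X ((S.r_eq (m a).1 (m b).1).1
      (congrArg Subtype.val e)) (mem_cent1.1 (mul_mem (inv_mem (m a).2) (m b).2))
  obtain ⟨x', rfl⟩ := hr.ge ⟨X.xH, self_mem_cent1 x⟩
  obtain ⟨z', rfl⟩ := hr.ge ⟨self_mem_cent1 z, mem_cent1_comm.1 X.xH⟩
  have x1 : x' ∈ center L := mem_center_iff.2 fun l => hι (by simpa using mem_cent1.1 (m l).2)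
  have z1 : z' ∈ center L := mem_center_iff.2 fun l => hι (by simpa using mem_cent1.1 (m l).1)
  have o : orderOf (x' * z') = 6 := by
    have a : orderOf x' = 3 := orderOf_eq_prime (hι (by simpa [pow_three'] using X.x3)) (by
      rintro rfl; have := orderOf_W; rw [← X.rx, map_one, S.r_one, orderOf_one] at this; omega)
    have b : orderOf z' = 2 := orderOf_eq_prime (hι (by simpa [pow_two] using S.zz)) (by
      rintro rfl; exact S.ne (map_one ι))
    rw [Commute.orderOf_mul_eq_mul_orderOf_of_coprime (mem_center_iff.1 z1 x') (by rw [a, b]; decide), a, b]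
  have c : Nat.card (θ.comp ρ).ker ≤ 6 := by
    have a := S.card_im (T := C1[ι z'] ⊓ C1[ι x']) inf_le_left
    have b := (θ.comp ρ).ker.card_mul_index
    have c := card_le_of_le (show C1[ι z'] ⊓ C1[ι x'] ⊓ Q ≤ zpowers (ι z') from fun y hy =>
      S.toES.mem_zp.2 (S.eq_of_comm_x X hy.2 (mem_cent1.1 hy.1.2)))
    have d := card_le_of_le (show S.im (C1[ι z'] ⊓ C1[ι x']) ≤ K0 from fun g hg => by
      obtain ⟨y, a, -, rfl⟩ := S.mem_im.1 hg
      obtain ⟨l, rfl⟩ := hr.ge a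
      exact (ρ l).2)
    rw [index_ker, (θ.comp ρ).range_eq_top.2 (E.sθ.comp s), card_top, E.cardU,
      Nat.card_congr (MonoidHom.ofInjective hι).toEquiv, hr, a] at b
    rw [S.card_zp] at c
    rw [card_K0] at d
    nlinarith
  have d : center L ≤ (θ.comp ρ).ker := fun l hl => E.center_eq.le (mem_center_iff.2 fun j => by
    obtain ⟨j, rfl⟩ := s j
    rw [← map_mul, mem_center_iff.1 hl, map_mul])
  have e := zpowers_le.2 (mul_mem x1 z1)
  have := Finite.of_injective _ hι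
  have f := eq_of_le_of_card_ge (e.trans d) (by rwa [Nat.card_zpowers, o])
  have g := le_antisymm e (d.trans f.ge)
  refine ⟨⟨eq_top_iff.2 fun l _ => ?_⟩, g ▸ inferInstance, by rw [← g, Nat.card_zpowers, o],
    ⟨(QuotientGroup.quotientMulEquivOfEq (g.symm.trans f)).trans
      (QuotientGroup.quotientKerEquivOfSurjective _ (E.sθ.comp s))⟩⟩
  have i : ∀ l, ι l ∈ (commutator L).map ι ∨ ι l * ι z' ∈ (commutator L).map ι := fun l => by
    obtain ⟨a, b, c⟩ : ρ l ∈ (commutator L).map ρ := by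
      rw [map_commutator_eq, MonoidHom.range_eq_top.2 s, ← _root_.commutator_def, perfect_K0]; trivial
    exact (k l a c.symm).imp (fun e => ⟨a, b, e⟩) fun e => ⟨a, b, e⟩
  have j := S.z_mem_of_normal X (D := (commutator L).map ι) (by
    rw [← hr, MonoidHom.range_eq_map]
    exact (map_mono (normalizer_eq_top _).ge).trans (le_normalizer_map _)) fun a ha => by
      obtain ⟨l, rfl⟩ := hr.ge ha; exact i l
  exact (mem_map_iff_mem hι).1 ((i l).elim id (mul_mem_cancel_right j).1)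

end LB

end Cfsg.Agent.LF
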