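import Cfsg.Agent.LF.Th
import Cfsg.Agent.LF.Dat6

/-! # Groups of large Fischer type: the subgroup `2¹¹ · M₂₄` -/

set_option autoImplicit false

namespace Cfsg.Agent.LF

open Cfsg.Agent.M24 Cfsg.Agent.GT Cfsg.Agent.TT Cfsg.Agent.TT2 Cfsg.Agent.Cl Subgroup

/-- The norm for an element of order three. -/
def N3 {G : Type*} [Group G] (x a : G) : G := a * (x * a * x⁻¹) * (x * (x * a * x⁻¹) * x⁻¹)

theorem N3_of_comm {G : Type*} [Group G] {x a : G} (h : x * a = a * x) : N3 x a = a * a * a := by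
  rw [N3, h, mul_inv_cancel_right, h, mul_inv_cancel_right]

theorem zb_cases (b : Bool) : zb b = 0 ∨ zb b = 1024 := by cases b <;> simp [zb]

theorem zb_xor3 : ∀ a b c, zb a ^^^ zb b ^^^ zb c = 0 ∨ zb a ^^^ zb b ^^^ zb c = 1024 := by decide +kernel

theorem cocycle3 {G : Type*} [Group G] {q0 q1 q2 a u0 u1 u2 e1 e2 e3 : G} (h0 : q0 * a * q0⁻¹ = u0 * a)
    (h1 : q1 * a * q1⁻¹ = u1 * a) (h2 : q2 * a * q2⁻¹ = u2 * a) (k1 : q0 * u1 * q0⁻¹ = u1 * e1)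
    (k2 : q0 * u2 * q0⁻¹ = u2 * e2) (k3 : q1 * u2 * q1⁻¹ = u2 * e3) (k4 : q0 * e3 * q0⁻¹ = e3)
    (t : q0 * q1 * q2 * a * (q0 * q1 * q2)⁻¹ = a) : u2 * e2 * e3 * (u1 * e1) * u0 = 1 := by
  rw [← mul_eq_right (b := a), mul_assoc _ u0, ← h0, ← k1, ← k2, ← k4, conj_mul, conj_mul, conj_mul, mul_assoc _ u1,
    ← h1, ← k3, conj_mul, ← h2]
  conv_rhs => rw [← t]
  group

theorem mm_cW (v : V) : mm cW (cd v) = cd (om • v) := (congrArg (mm · _) code_W.symm).trans (mm_code W v)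

/-- A lift of order three of the scalar. -/
structure LX {G : Type*} [Group G] (z : G) (r : G → Γ) (x : G) : Prop where
  xH : x ∈ C1[z]
  rx : r x = W
  x3 : x * x * x = 1

namespace LB

variable {G : Type*} [Group G] [Finite G] {Q : Subgroup G} {z : G} {π : G → V} {r : G → Γ} (S : LB Q z π r)
  {a b g h x y : G}
include S

theorem exists_x : ∃ x, LX z r x := by
  obtain ⟨h, a, b⟩ := S.exK W W_mem
  have c : W ^ 3 = 1 := orderOf_W ▸ pow_orderOf_eq_one W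
  refine ⟨h ^ 4, pow_mem a _, by rw [S.r_pow a, b, pow_succ, c, one_mul], ?_⟩
  rw [← S.toES.pow_four ((S.r_eq_one (pow_mem a 3)).1 (by rw [S.r_pow a, b, c]))]
  group

variable (X : LX z r x)
include X

omit [Finite G] in
theorem π_x (hy : y ∈ Q) : π (x * y * x⁻¹) = om • π y := by rw [S.act x X.xH y hy, X.rx, W_apply]

theorem exists_conj_x (Y : LX z r y) : ∃ q ∈ Q, q * x * q⁻¹ = y := by
  have a : y * x⁻¹ ∈ Q := (S.r_eq_one (mul_mem Y.xH (inv_mem X.xH))).1 (by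
    rw [S.rmul _ Y.xH _ (inv_mem X.xH), S.r_inv X.xH, X.rx, Y.rx, mul_inv_cancel])
  obtain ⟨q, b, c⟩ := S.surj (om • π (y * x⁻¹))
  have d := S.conj_mem X.xH (inv_mem b)
  have e := (S.π_eq_iff a (mul_mem b d)).1 (by
    rw [S.mul _ b _ d, S.π_x X (inv_mem b), S.π_inv b, c, ← V_add_eq_zero, ← add_assoc, om_om])
  refine ⟨q, b, e.elim (fun e => mul_right_cancel (b := x⁻¹) (by rw [← e]; group)) fun e => absurd ?_ S.ne⟩
  have c : Commute y z := S.z_comm Y.xH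
  have f : q * x * q⁻¹ = y * z := mul_right_cancel (b := x⁻¹) (by
    rw [mul_assoc y, ← S.z_comm (inv_mem X.xH), ← mul_assoc, ← e]; group)
  have g := c.mul_pow 3
  rw [← f, conj_pow, pow_three', pow_three', pow_three', X.x3, Y.x3, S.zz] at g
  simpa using g.symm

theorem cent_lift {k : Γ} (hk : k ∈ K0) : ∃ h ∈ C1[z], r h = k ∧ h * x = x * h := by
  obtain ⟨h, a, rfl⟩ := S.exK k hk
  obtain ⟨q, b, c⟩ := S.exists_conj_x X (y := h * x * h⁻¹) ⟨mul_mem (mul_mem a X.xH) (inv_mem a),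
    by rw [S.r_conj a X.xH, X.rx, K0_W hk, mul_inv_cancel_right], by rw [conj_mul, conj_mul, X.x3]; simp⟩
  refine ⟨q⁻¹ * h, mul_mem (inv_mem (S.le b)) a, by
    rw [S.rmul _ (inv_mem (S.le b)) _ a, S.r_Q (inv_mem b), one_mul], ?_⟩
  calc _ = q⁻¹ * (h * x * h⁻¹) * h := by group
    _ = _ := by rw [← c]; group

omit [Finite G] in
theorem x_A (ha : a ∈ S.A) : x * a * x⁻¹ ∈ S.A := conj_mem_of_mem_norm (S.norm_A X.xH (X.rx ▸ W_Y0)) ha

omit [Finite G] in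
theorem N3_mem (ha : a ∈ S.A) : N3 x a ∈ S.A := mul_mem (mul_mem ha (S.x_A X ha)) (S.x_A X (S.x_A X ha))

theorem N3_mul (ha : a ∈ S.A) (hb : b ∈ S.A) : N3 x (a * b) = N3 x a * N3 x b := by
  rw [N3, N3, N3, ← conj_mul (a := a), ← conj_mul (a := x * a * x⁻¹), (commute_of_elem S.A_sq hb (S.x_A X ha)).mul_mul_mul_comm, (commute_of_elem S.A_sq (mul_mem hb (S.x_A X hb))
    (S.x_A X (S.x_A X ha))).mul_mul_mul_comm]

theorem N3_comm (ha : a ∈ S.A) : x * N3 x a = N3 x a * x := by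
  rw [← mul_inv_eq_iff_eq_mul]
  calc _ = x * a * x⁻¹ * (x * (x * a * x⁻¹) * x⁻¹) * (x * x * x * a * (x * x * x)⁻¹) := by rw [N3]; group
    _ = _ := by
      rw [X.x3, one_mul, inv_one, mul_one, N3, mul_assoc a,
        (commute_of_elem S.A_sq ha (mul_mem (S.x_A X ha) (S.x_A X (S.x_A X ha)))).eq]

theorem exists_liftA {k : Γ} (hk : k ∈ A0) : ∃ a ∈ S.A, r a = k ∧ x * a = a * x := by
  obtain ⟨a, b, rfl⟩ := S.exA hk
  have c : ∀ a ∈ S.A, r (x * a * x⁻¹) = r a := fun a b => by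
    rw [S.r_conj X.xH (S.A_le b), X.rx, ← K0_W (A0_le_K0 (S.r_A b)), mul_inv_cancel_right]
  have d := S.x_A X b
  refine ⟨_, S.N3_mem X b, ?_, S.N3_comm X b⟩
  rw [N3, S.rmul _ (S.A_le (mul_mem b d)) _ (S.A_le (S.x_A X d)), S.rmul _ (S.A_le b) _ (S.A_le d), c _ d, c _ b,
    ← S.rmul _ (S.A_le b) _ (S.A_le b), S.A_sq a b, S.r_one, one_mul]

theorem exists_liftP {v : V} (hv : v ∈ P0) : ∃ p ∈ S.pq P0, π p = v ∧ N3 x p = 1 := by
  obtain ⟨q, a, rfl⟩ := S.surj v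
  have b := S.Ph_le ⟨a, hv⟩
  have c := S.conj_mem X.xH a
  have d : N3 x q ∈ Q := mul_mem (mul_mem a c) (S.conj_mem X.xH c)
  have e : π (q * N3 x q) = π q := by
    rw [S.mul _ a _ d, N3, S.mul _ (mul_mem a c) _ (S.conj_mem X.xH c), S.mul _ a _ c, S.π_x X c, S.π_x X a, om_om,
      add_zero]
  refine ⟨_, ⟨mul_mem a d, e ▸ hv⟩, e, ?_⟩
  rw [S.N3_mul X b (S.N3_mem X b), N3_of_comm (S.N3_comm X b), S.A_sq _ (S.N3_mem X b), one_mul,
    S.A_sq _ (S.N3_mem X b)]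

end LB

/-- Coordinates on the subgroup `2¹¹`. -/
structure CA {G : Type*} [Group G] {Q : Subgroup G} {z : G} {π : G → V} {r : G → Γ} (S : LB Q z π r) (x : G)
    (T : ℕ → G) : Prop extends LX z r x where
  mul : ∀ a b, T (a ^^^ b) = T a * T b
  mem : ∀ a, T a ∈ S.A
  Tz : T 1024 = z
  Tp : ∀ p < 64, T p ∈ Q ∧ π (T p) = dc (pl p) ∧ N3 x (T p) = 1
  Tc : ∀ c < 16, r (T (64 * c)) = ag c ∧ x * T (64 * c) = T (64 * c) * x

theorem LB.exists_CA {G : Type*} [Group G] [Finite G] {Q : Subgroup G} {z : G} {π : G → V} {r : G → Γ}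
    (S : LB Q z π r) {x : G} (X : LX z r x) {b : ℕ → G}
    (hb : ∀ i < 4, b i ∈ S.A ∧ r (b i) = ag (2 ^ i) ∧ x * b i = b i * x) :
    ∃ T, CA S x T ∧ ∀ i < 4, T (64 * 2 ^ i) = b i := by
  choose! p p1 p2 p3 using fun i (hi : i < 6) =>
    S.exists_liftP X (pl_mem (Nat.pow_lt_pow_right (a := 2) (by norm_num) hi))
  let bs := fun i => if i < 6 then p i else if i < 10 then b (i - 6) else z
  have m : ∀ i < 11, bs i ∈ S.A := fun i _ => by
    simp only [bs]; split_ifs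
    exacts [S.Ph_le (p1 i ‹_›), (hb _ (by omega)).1, S.z_A]
  have e : ∀ i < 4, vc bs 11 (64 * 2 ^ i) = b i := fun i hi => by
    rw [show 64 * 2 ^ i = 2 ^ (6 + i) by rw [pow_add]; rfl, vc_pow, if_pos (by omega)]
    simp [bs, show 6 + i < 10 by omega]
  refine ⟨vc bs 11, ⟨X, vc_xor S.A_sq m, vc_mem m, vc_pow 10, bits_induction (n := 6) ?_ (fun i hi => ?_)
    fun a _ c _ d f => ?_, bits_induction (n := 4) ?_ (fun i hi => by rw [e i hi]; exact (hb i hi).2)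
    fun a a1 c c1 d f => ?_⟩, e⟩
  · rw [vc_zero]; exact ⟨one_mem _, S.π_one.trans (by decide +kernel), by simp [N3]⟩
  · rw [vc_pow, if_pos (by omega), show bs i = p i from if_pos hi]; exact ⟨(p1 i hi).1, p2 i hi, p3 i hi⟩
  · rw [vc_xor S.A_sq m, S.mul _ d.1 _ f.1, S.N3_mul X (vc_mem m _) (vc_mem m _), d.2.1, d.2.2, f.2.1, f.2.2,
      pl_xor, dc_xor]
    exact ⟨mul_mem d.1 f.1, rfl, mul_one _⟩
  · rw [mul_zero, vc_zero, ag_zero]; exact ⟨S.r_one, by simp⟩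
  · rw [mul64_xor a a1 c c1, vc_xor S.A_sq m, S.rmul _ (S.A_le (vc_mem m _)) _ (S.A_le (vc_mem m _)), d.1, f.1,
      ag_xor a1 c1, ← mul_assoc, d.2, mul_assoc, f.2, mul_assoc]
    exact ⟨rfl, rfl⟩

namespace CA

variable {G : Type*} [Group G] {Q : Subgroup G} {z : G} {π : G → V} {r : G → Γ} {S : LB Q z π r}
  {q x y : G} {T : ℕ → G} {n : ℕ} (C : CA S x T)
include C

theorem zero : T 0 = 1 := by simpa using C.mul 0 0

theorem Tzb (b : Bool) : T (zb b) = 1 ∨ T (zb b) = z := by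
  rcases zb_cases b with e | e <;> simp [e, C.zero, C.Tz]

theorem zbQ (b : Bool) : T (zb b) ∈ Q ∧ π (T (zb b)) = 0 := by
  rcases C.Tzb b with e | e <;> rw [e]
  exacts [⟨one_mem _, S.π_one⟩, ⟨S.mem, S.π_z⟩]

theorem dec (h : n < 2048) : T n = T (n % 64) * T (64 * cn n) * T (zb (tbit n 10)) := by
  rw [← C.mul, ← C.mul, ← (dec11 h).1]

theorem rT (h : n < 2048) : r (T n) = ag (cn n) := by
  rw [C.dec h, S.rmul _ (S.A_le (mul_mem (C.mem _) (C.mem _))) _ (S.A_le (C.mem _)),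
    S.rmul _ (S.A_le (C.mem _)) _ (S.A_le (C.mem _)), S.r_Q (C.zbQ _).1, S.r_Q (C.Tp _ (Nat.mod_lt _ (by omega))).1,
    (C.Tc _ (dec11 h).2.2).1, one_mul, mul_one]

theorem πT (h : n < 2048) (h0 : cn n = 0) : T n ∈ Q ∧ π (T n) = dc (pl n) := by
  have a := C.Tp _ (Nat.mod_lt n (show 0 < 64 by omega))
  rw [C.dec h, h0, mul_zero, C.zero, mul_one, S.mul _ a.1 _ (C.zbQ _).1, a.2.1, (C.zbQ _).2, add_zero,
    (dec11 h).2.1]
  exact ⟨mul_mem a.1 (C.zbQ _).1, rfl⟩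

theorem conj_b (hq : q ∈ Q) (hy : y ∈ Q) : q * y * q⁻¹ = y * T (zb (bc (cd (π q)) (cd (π y)))) := by
  have := (S.comm q hq y hy).trans B_eq_zero
  cases h : bc (cd (π q)) (cd (π y))
  · rw [← this.2 h, mul_inv_cancel_right]; exact (mul_eq_left.2 C.zero).symm
  · rw [S.toES.conj_of_not hq hy fun e => by simpa [h] using this.1 e.eq.symm]; exact congrArg _ C.Tz.symm

theorem conj_zb (hq : q ∈ Q) (b : Bool) : q * T (zb b) * q⁻¹ = T (zb b) := by
  rcases C.Tzb b with e | e <;> rw [e]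
  exacts [by simp, mul_inv_eq_iff_eq_mul.2 (S.zc q hq).eq.symm]

variable [Finite G]

theorem co : Co S.A 11 T := co_of_inj (by omega) C.mul C.mem (fun n h e => by
  have a : cn n = 0 := ag_inj (dec11 h).2.2 (by omega) (by rw [← C.rT h, e, S.r_one, ag_zero])
  have b := congrArg cd (C.πT h a).2
  rw [e, S.π_one, cd_pl] at b
  have := ball_zero (show ball (fun n => decide (cn n = 0 → 0 = pl n → n = 0 ∨ n = 1024)) 11 0 = true by
    decide +kernel) n h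
  exact (of_decide_eq_true this a b).resolve_right fun f => S.ne (by rw [← C.Tz, ← f, e])) S.card_A

theorem eq_T {E : ℕ} (hy : y ∈ S.pq P0) (hE : E = 0 ∨ E = 1024) (h : N3 x y = T E) :
    y = T (pcd (cd (π y)) ^^^ E) := by
  obtain ⟨a, b, -⟩ := P0_facts hy.2
  obtain ⟨c, d, e⟩ := C.Tp _ a
  have f : N3 x z = z := by rw [N3_of_comm (S.z_comm C.xH), S.zz, one_mul]
  rw [C.mul, ← h]
  rcases (S.π_eq_iff c hy.1).1 (d.trans b) with g | g
  · rw [← g] at e ⊢; rw [e, mul_one]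
  · conv_rhs => rw [g, S.N3_mul C.toLX (C.mem _) S.z_A, e, f, one_mul]
    rwa [← g]

theorem conj_Q (hq : q ∈ Q) (h : n < 2048) : q * T n * q⁻¹ = T (actv (cd (π q)) n) := by
  obtain ⟨a1, a2⟩ := C.Tc _ (dec11 h).2.2
  have a3 := C.mem (64 * cn n)
  have u : ∀ q ∈ Q, ∃ u ∈ S.pq P0, q * T (64 * cn n) * q⁻¹ = u * T (64 * cn n) ∧
      π u = π q + ag (cn n) (π q) := fun q hq => by
    have b := S.conj_mem (S.A_le a3) (inv_mem hq)
    refine ⟨q * (T _ * q⁻¹ * (T _)⁻¹), S.A_inf.le ⟨?_, mul_mem hq b⟩, by group, by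
      rw [S.mul _ hq _ b, S.act _ (S.A_le a3) _ (inv_mem hq), a1, S.π_inv hq]⟩
    rw [← mul_assoc, ← mul_assoc]
    exact S.A.mul_mem (conj_mem_of_mem_norm (S.norm_A (S.le hq) (S.r_Q hq ▸ one_mem _)) a3) (inv_mem a3)
  obtain ⟨u, u1, u2, u3⟩ := u q hq
  have k : ∀ q u, q * T (64 * cn n) * q⁻¹ = u * T (64 * cn n) →
      x * q * x⁻¹ * T (64 * cn n) * (x * q * x⁻¹)⁻¹ = x * u * x⁻¹ * T (64 * cn n) := fun q u e => by
    rw [← mul_inv_eq_iff_eq_mul.2 a2, conj_mul, conj_mul, ← e]; group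
  have q1 := S.conj_mem C.xH hq
  have q2 := S.conj_mem C.xH q1
  have v1 := S.conj_mem C.xH u1.1
  have v2 := S.conj_mem C.xH v1
  have t : q * (x * q * x⁻¹) * (x * (x * q * x⁻¹) * x⁻¹) ∈ C1[T (64 * cn n)] := by
    rcases (S.ker _ (mul_mem (mul_mem hq q1) q2)).1 (by
      rw [S.mul _ (mul_mem hq q1) _ q2, S.mul _ hq _ q1, S.π_x C.toLX q1, S.π_x C.toLX hq, om_om]) with e | e <;>
      rw [e]
    exacts [one_mem _, mem_cent1_comm.1 (S.A_le a3)]
  have e := cocycle3 u2 (k _ _ u2) (k _ _ (k _ _ u2)) (C.conj_b hq v1) (C.conj_b hq v2) (C.conj_b q1 v2)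
    (C.conj_zb hq _) (mul_inv_eq_iff_eq_mul.2 (mem_cent1.1 t))
  obtain ⟨n0, -, e0⟩ := C.co.surj _ (S.Ph_le u1)
  obtain ⟨n1, -, e1⟩ := C.co.surj _ (S.x_A C.toLX (S.Ph_le u1))
  obtain ⟨n2, -, e2⟩ := C.co.surj _ (S.x_A C.toLX (S.x_A C.toLX (S.Ph_le u1)))
  rw [S.π_x C.toLX v1, S.π_x C.toLX u1.1, S.π_x C.toLX hq, ← e2, ← e1] at e
  have f := C.eq_T (E := zb (bc (cd (π q)) (cd (om • π u))) ^^^ zb (bc (cd (π q)) (cd (om • om • π u))) ^^^
    zb (bc (cd (om • π q)) (cd (om • om • π u)))) u1 (zb_xor3 _ _ _) (by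
      rw [N3, ← e2, ← e1, ← inv_eq_of_mul_eq_one_right (C.co.sq (_ ^^^ _)), eq_inv_iff_mul_eq_one, ← e]
      generalize π u = w
      rw [← e0]
      simp only [← C.mul]
      congr 1; ac_rfl)
  obtain ⟨p1, p2, -⟩ := C.Tp _ (Nat.mod_lt n (show 0 < 64 by omega))
  rw [C.dec h, ← conj_mul, ← conj_mul, C.conj_zb hq, u2, C.conj_b hq p1, p2, cd_pl, ← (dec11 h).2.1, f]
  simp only [actv, force_eq, ← code_ag (dec11 h).2.2, mm_code, Nat.xor_eq, ← cd_add, mm_cW, ← u3, ← C.mul]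
  conv_rhs => enter [1, 1, 1]; rw [(dec11 h).1]
  congr 1; ac_rfl

theorem conj_cls (h : n < 2048) (h0 : cn n ≠ 0) : IsConj z (T n) ↔ IsConj z (T (rep (cn n) (cls n))) := by
  obtain ⟨-, a, b⟩ := wit_chk h h0
  obtain ⟨q, c, d⟩ := S.surj (dc (wit n))
  have e := C.conj_Q c a
  rw [d, cd_dc (n := wit n) (apw_lt (w := 12) (mk := 4095) rfl _ _), b] at e
  have := isConj_iff.2 ⟨q, e⟩
  exact ⟨fun h => h.trans this.symm, fun h => h.trans this⟩

theorem cnt_c {c β : ℕ} (h : c < 16) (h0 : c ≠ 0) (hb : β < 32)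
    (e : ∀ j < 5, tbit β j = true ↔ IsConj z (T (rep c j))) :
    {a | a ∈ S.A ∧ r a = ag c ∧ IsConj z a}.ncard = msz β := by
  rw [← cnt_chk h h0 hb]
  refine C.co.ncard fun n hn => ?_
  rw [band_eq, Bool.and_eq_true, Nat.beq_eq, C.rT hn]
  refine ⟨fun ⟨a, b⟩ => ?_, fun ⟨a, b⟩ => ?_⟩
  · obtain rfl := ag_inj (dec11 hn).2.2 h a
    exact ⟨rfl, (e _ (wit_chk hn h0).1).2 ((C.conj_cls hn h0).1 b)⟩
  · subst a
    exact ⟨rfl, (C.conj_cls hn h0).2 ((e _ (wit_chk hn h0).1).1 b)⟩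

theorem conj_zero (h : n < 2048) (h0 : cn n = 0) : IsConj z (T n) ↔ n = 1024 ∨ ty (pl n) = 2 := by
  by_cases a : n = 1024
  · rw [a, C.Tz]; exact iff_of_true (IsConj.refl z) (.inl rfl)
  rw [S.conj_iff (C.πT h h0).1 fun e => a (C.co.eq h (by omega) (e.trans C.Tz.symm)), (C.πT h h0).2, cd_pl]
  simp [a]

theorem cnt_one {c : ℕ} (h : c < 16) (h0 : c ≠ 0) : {a | a ∈ S.A ∧ r a = ag c ∧ IsConj z a}.ncard =
    {a | a ∈ S.A ∧ r a = ag 1 ∧ IsConj z a}.ncard := by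
  obtain ⟨y, a, b⟩ := exists_yc h h0
  obtain ⟨k, d, rfl⟩ := S.exK y a.2
  have e := S.norm_A d a.1
  symm
  refine Set.ncard_congr (fun t _ => k * t * k⁻¹) (fun t ⟨f, g, i⟩ => ⟨conj_mem_of_mem_norm e f, by
    rw [S.r_conj d (S.A_le f), g, b], i.trans (isConj_iff.2 ⟨k, rfl⟩)⟩) (fun _ _ _ _ => by simp)
    fun t ⟨f, g, i⟩ => ⟨k⁻¹ * t * k⁻¹⁻¹, ⟨conj_mem_of_mem_norm (inv_mem e) f, ?_,
      i.trans (isConj_iff.2 ⟨k⁻¹, rfl⟩)⟩, by group⟩
  rw [S.r_conj (inv_mem d) (S.A_le f), g, ← b, S.r_inv d]; group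

theorem cnt_all : {a | a ∈ S.A ∧ IsConj z a}.ncard = 91 + 15 * {a | a ∈ S.A ∧ r a = ag 1 ∧ IsConj z a}.ncard := by
  classical
  have a : ∀ c < 16, {a | a ∈ S.A ∧ r a = ag c ∧ IsConj z a}.ncard =
      ∑ n ∈ Finset.range (2 ^ 11), if cn n = c then b2n (decide (IsConj z (T n))) else 0 := fun c hc => by
    rw [C.co.ncard (F := fun n => decide (cn n = c ∧ IsConj z (T n))) fun n hn => by
      rw [decide_eq_true_iff, C.rT hn]
      exact and_congr_left' ⟨ag_inj (dec11 hn).2.2 hc, congrArg ag⟩, bsum_zero]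
    exact Finset.sum_congr rfl fun n _ => by by_cases cn n = c <;> simp [*]
  have b := Finset.sum_congr rfl fun c hc => a c (Finset.mem_range.1 hc)
  have d : ∀ n ∈ Finset.range (2 ^ 11), (∑ c ∈ Finset.range 16, if cn n = c then
      b2n (decide (IsConj z (T n))) else 0) = b2n (decide (IsConj z (T n))) := fun n hn =>
    Finset.sum_ite_eq_of_mem _ _ _ (Finset.mem_range.2 (dec11 (Finset.mem_range.1 hn)).2.2)
  rw [Finset.sum_comm, Finset.sum_congr rfl d, ← bsum_zero,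
    ← C.co.ncard (P := IsConj z) fun n _ => decide_eq_true_iff.symm, Finset.sum_range_succ',
    Finset.sum_congr rfl fun c hc => C.cnt_one (by have := Finset.mem_range.1 hc; omega) (by omega),
    C.co.ncard (P := fun a => r a = ag 0 ∧ IsConj z a) (F := fun n => band (Nat.beq (cn n) 0)
      (bor (Nat.beq n 1024) (Nat.beq (ty (pl n)) 2))) fun n hn => by
      simp only [band_eq, bor_eq, Bool.and_eq_true, Bool.or_eq_true, Nat.beq_eq, C.rT hn]
      exact ⟨fun ⟨a, b⟩ => have := ag_inj (dec11 hn).2.2 (by omega) a; ⟨this, (C.conj_zero hn this).1 b⟩,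
        fun ⟨a, b⟩ => ⟨congrArg ag a, (C.conj_zero hn a).2 b⟩⟩,
    show bsum _ 11 0 = 91 by decide +kernel] at b
  rw [← b, Finset.sum_const, Finset.card_range, smul_eq_mul, add_comm]

omit C in
theorem _root_.Cfsg.Agent.LF.LB.card_M (S : LB Q z π r) :
    Nat.card ↥(N[S.A] ⊓ C1[z]) * {a | a ∈ S.A ∧ IsConj z a}.ncard = Nat.card N[S.A] := by
  refine Eq.trans (congrArg _ (congrArg _ (Set.ext fun a => ?_))) (ncard_conj_orbit _ z)
  refine ⟨fun ⟨b, c⟩ => ?_, fun ⟨n, b, c⟩ => ⟨c ▸ conj_mem_of_mem_norm b S.z_A, isConj_iff.2 ⟨n, c⟩⟩⟩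
  obtain ⟨g, rfl⟩ := isConj_iff.1 c
  exact S.fusion S.z_A b

omit C in
theorem _root_.Cfsg.Agent.LF.LB.prime_M (S : LB Q z π r) {p : ℕ} (hp : p.Prime) (h : p ∣ Nat.card N[S.A]) :
    p = 2 ∨ ∃ j < 11, 2 ^ 11 ≡ 2 ^ j [MOD p] := by
  have := Fact.mk hp
  obtain ⟨g, a⟩ := exists_prime_orderOf_dvd_card' p h
  rw [← Subgroup.orderOf_coe] at a
  have b := ncard_modEq_fix (p := p) (g := g.1) (S := S.A) (a ▸ pow_orderOf_eq_one _)
    fun s => conj_mem_of_mem_norm g.2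
  obtain ⟨j, c, d⟩ := (Nat.dvd_prime_pow Nat.prime_two).1
    (S.card_A ▸ card_dvd_of_le (inf_le_left : S.A ⊓ C1[g.1] ≤ _))
  rw [show {s | s ∈ (S.A : Set G) ∧ g.1 * s = s * g.1} = (S.A ⊓ C1[g.1] :) from
    Set.ext fun s => and_congr_right' (eq_comm.trans mem_cent1.symm)] at b
  refine (c.eq_or_lt).imp (fun e => ?_) fun e => ⟨j, e, S.card_A ▸ d ▸ b⟩
  have f := eq_of_le_of_card_ge (inf_le_left : S.A ⊓ C1[g.1] ≤ _) (by rw [d, e, S.card_A])
  exact (Nat.prime_dvd_prime_iff_eq hp Nat.prime_two).1 (a ▸ orderOf_dvd_of_pow_eq_one (by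
    rw [pow_two, S.A_sq _ (S.cent_A.le fun s hs => mem_cent1.1 (f.ge hs).2)]))

theorem cls_aux {c : ℕ} (h : c < 16) (h0 : c ≠ 0) : ∃ β, (∀ j < 5, tbit β j = true ↔ IsConj z (T (rep c j))) ∧
    (∀ j < 5, ∀ b : Bool, tbit β 0 = b → (tbit β j = false ↔ j = b2n b)) ∧ tbit β 1 = !tbit β 0 := by
  obtain ⟨β, a, b⟩ := exists_bits 5 fun j => IsConj z (T (rep c j))
  refine ⟨β, b, (msz_cases β a).resolve_right fun ⟨p, d, e⟩ => ?_⟩
  rw [← C.cnt_c h h0 a b, C.cnt_one h h0, ← C.cnt_all] at e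
  obtain ⟨f, g⟩ := (show ∀ p ∈ [13, 331, 571, 811, 1051, 1291, 1531, 2011], p.Prime ∧
    ¬(p = 2 ∨ ∃ j < 11, 2 ^ 11 ≡ 2 ^ j [MOD p]) by decide +kernel) p d
  exact g (S.prime_M f (e.trans (Dvd.intro_left _ S.card_M)))

theorem flip {c : ℕ} (h : c < 16) (h0 : c ≠ 0) : IsConj z (T (64 * c) * z) ↔ ¬IsConj z (T (64 * c)) := by
  obtain ⟨β, a, -, b⟩ := C.cls_aux h h0
  have d := a 0 (by omega)
  have e := a 1 (by omega)
  rw [(rep_chk c h h0).1] at d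
  rw [(rep_chk c h h0).2.1, C.mul, C.Tz] at e
  rw [← d, ← e, b]; simp

theorem Df_iff {f : ℕ} (hf : ∀ c < 16, tbit f c = true ↔ c ≠ 0 ∧ IsConj z (T (64 * c))) (h : n < 2048)
    (h0 : n ≠ 0) : ¬IsConj z (T n) ↔ Df f n = true := by
  by_cases e : cn n = 0
  · rw [C.conj_zero h e]
    exact of_decide_eq_true (ball_zero (show ball (fun n => decide (cn n = 0 → n ≠ 0 →
      (¬(n = 1024 ∨ ty (pl n) = 2) ↔ ty (pl n) = 1))) 11 0 = true by decide +kernel) n h) e h0 |>.trans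
      (by simp [Df, e])
  obtain ⟨β, a, b, -⟩ := C.cls_aux (dec11 h).2.2 e
  rw [C.conj_cls h e, ← a _ (wit_chk h e).1, Bool.not_eq_true, b _ (wit_chk h e).1 (tbit f (cn n)) (by
    rw [Bool.eq_iff_iff, a 0 (by omega), hf _ (dec11 h).2.2, (rep_chk _ (dec11 h).2.2 e).1]; simp [e])]
  simp only [Df, bif'_eq, Nat.beq_eq, e, if_false]

theorem Df_act {f k : ℕ} (hf : ∀ c < 16, tbit f c = true ↔ c ≠ 0 ∧ IsConj z (T (64 * c))) (hk : Act 11 T y k) :
    ∀ n < 2 ^ 11, Df f (J4.lin k n) = Df f n := fun n h => by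
  by_cases e : n = 0
  · rw [e, J4.lin_zero]
  have := isConj_iff.2 ⟨y, (hk n h).1⟩
  rw [Bool.eq_iff_iff, ← C.Df_iff hf h e, ← C.Df_iff hf (hk n h).2 fun a => e (C.co.act_inj hk h (by omega)
    (by rw [a, J4.lin_zero]))]
  exact not_congr ⟨fun h => h.trans this.symm, fun h => h.trans this⟩

theorem mod_eq_zero (h : n < 2048) (e : x * T n = T n * x) : n % 64 = 0 := by
  obtain ⟨a, b, -⟩ := C.Tp _ (Nat.mod_lt n (show 0 < 64 by omega))
  have c : Commute x (T (zb (tbit n 10))) := by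
    rcases C.Tzb (tbit n 10) with e | e <;> rw [e]
    exacts [Commute.one_right _, S.z_comm C.xH]
  have d := S.π_x C.toLX a
  rw [C.dec h, mul_assoc (T _), mul_assoc (T _), ← (Commute.mul_right (C.Tc _ (dec11 h).2.2).2 c).eq, ← mul_assoc,
    ← mul_assoc (T _), mul_left_inj] at e
  rw [e, mul_inv_cancel_right, b] at d
  have := congrArg (fun v => pcd (cd v)) (eq_zero_of_om d.symm)
  simp only [cd_pl, (pl_facts _ (Nat.mod_lt n (show 0 < 64 by omega))).2] at this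
  exact this.trans (by decide +kernel)

theorem lint_of {f t : ℕ} (hf : ∀ c < 16, tbit f c = true ↔ c ≠ 0 ∧ IsConj z (T (64 * c)))
    (ht : t ∈ [0x824e1bd7f5396ca0, 0xe95261da43f8cb70]) : lint t f = true := by
  obtain ⟨y, a, b⟩ := exists_tau t ht
  obtain ⟨h, c, rfl, d⟩ := S.cent_lift C.toLX a.2
  obtain ⟨k, e⟩ := C.co.exists_act (S.norm_A c a.1)
  have g : ∀ c < 16, xor (tbit f (apw 4 15 t c)) (tbit f c) = tbit (J4.lin k (64 * c)) 10 := fun u hu => by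
    obtain ⟨i, j⟩ := e (64 * u) (by omega)
    obtain ⟨b1, b2, b3⟩ := b u hu
    have l := (dec11 j).1
    rw [C.mod_eq_zero j (by rw [← i, ← mul_inv_eq_iff_eq_mul.2 d, conj_mul, conj_mul, (C.Tc u hu).2]),
      Nat.zero_xor, ag_inj (dec11 j).2.2 b1 (by
        rw [← C.rT j, ← i, S.r_conj c (S.A_le (C.mem _)), (C.Tc u hu).1, b3])] at l
    by_cases o : u = 0
    · rw [b2.2 o, o, mul_zero, J4.lin_zero, Bool.xor_self]; rfl
    have m := C.Df_act hf e (64 * u) (by omega)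
    obtain ⟨-, -, p, q⟩ := rep_chk u hu o
    have s := (q false).2
    have v := (rep_chk _ b1 (mt b2.1 o)).2.2.2 (tbit (J4.lin k (64 * u)) 10)
    rw [← l] at v
    simp only [Df, bif'_eq, Nat.beq_eq, v.1, v.2, p, o, mt b2.1 o, if_false, show cls (64 * u) = 0 by simpa [zb] using s] at m
    revert m
    cases tbit f u <;> cases tbit f (apw 4 15 t u) <;> cases tbit (J4.lin k (64 * u)) 10 <;> decide
  simp only [lint, nall_iff, beq_iff_eq]
  intro u hu i hi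
  have w : 2 ^ i < 16 := Nat.pow_lt_pow_right (n := 4) (by omega) hi
  rw [g u hu, g _ w, g _ (Nat.xor_lt_two_pow (n := 4) hu w), mul64_xor u hu _ w, J4.lin_xor, tbit_eq, tbit_eq,
    tbit_eq, Nat.testBit_xor]

theorem cls_iff (hb : ∀ i < 4, ¬IsConj z (T (64 * 2 ^ i))) (h : n < 2048) (h0 : n ≠ 0) :
    ¬IsConj z (T n) ↔ dq n = true := by
  obtain ⟨f, a, b⟩ := exists_bits 16 fun c => c ≠ 0 ∧ IsConj z (T (64 * c))
  have c := opt_chk a (Nat.eq_of_testBit_eq fun i => by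
    have k : ∀ c < 16, ¬(c ≠ 0 ∧ IsConj z (T (64 * c))) → f.testBit c = false := fun c d e => by
      rw [← tbit_eq, ← Bool.not_eq_true, b c d]; exact e
    rw [Nat.testBit_and, Nat.zero_testBit, Bool.and_eq_false_iff, or_iff_not_imp_right, Bool.not_eq_false]
    intro e
    rcases (show ∀ i < 9, Nat.testBit 0x117 i = true → i = 0 ∨ ∃ j < 4, i = 2 ^ j by decide) i
      (Nat.lt_of_not_le fun g => by simp [Nat.testBit_lt_two_pow (x := 0x117) (i := i)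
        ((by omega : _ < 2 ^ 9).trans_le (Nat.pow_le_pow_right (by omega) g))] at e) e with rfl | ⟨j, g, rfl⟩
    exacts [k 0 (by omega) (by simp), k _ (Nat.pow_lt_pow_right (n := 4) (by omega) g) fun e => hb j g e.2])
    (C.lint_of b (by simp)) (C.lint_of b (by simp))
  rw [← Df_dq h, C.Df_iff b h h0, show f = 57888 from by_contra fun e => ?_]
  obtain ⟨d, g⟩ := wrong_chk f (by simpa [e] using c)
  obtain ⟨u, i⟩ := isConj_iff.1 (not_not.1 (mt (C.Df_iff b (n := 68) (by omega) (by omega)).1 (by simp [d])))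
  obtain ⟨m, j, l⟩ := S.fusion S.z_A (g := u) (i ▸ C.mem _)
  obtain ⟨k, o⟩ := C.co.exists_act j
  have := C.co.cv_act o (C.Df_act b o) (C.Df_act b o) (x := 1024) (by omega)
  rw [C.co.eq (o 1024 (by omega)).2 (b := 68) (by omega) (by rw [← (o 1024 (by omega)).1, C.Tz, l, i])] at this
  exact g this

end CA

theorem LB.exists_FS {G : Type*} [Group G] [Finite G] {Q : Subgroup G} {z : G} {π : G → V} {r : G → Γ}
    (S : LB Q z π r) {x : G} (X : LX z r x) : ∃ T μ, CA S x T ∧ FS z S.A T μ := by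
  classical
  choose! b b1 using fun i (hi : i < 4) =>
    S.exists_liftA X (ag_mem (Nat.pow_lt_pow_right (a := 2) (by norm_num) hi))
  obtain ⟨T, C, e⟩ := S.exists_CA X b1
  obtain ⟨T', C', e'⟩ := S.exists_CA X (b := fun i => if IsConj z (b i) then b i * z else b i) fun i hi => by
    obtain ⟨a, c, d⟩ := b1 i hi
    split_ifs
    · exact ⟨mul_mem a S.z_A, by rw [S.rmul _ (S.A_le a) _ (S.le S.mem), S.r_Q S.mem, mul_one, c],
        Commute.mul_right d (S.z_comm X.xH)⟩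
    · exact ⟨a, c, d⟩
  have k : ∀ n < 2048, n ≠ 0 → (¬IsConj z (T' n) ↔ dq n = true) := fun n => C'.cls_iff fun i hi => by
    rw [e' i hi]
    split_ifs with h
    · rw [← e i hi] at h ⊢
      exact fun g => (C.flip (Nat.pow_lt_pow_right (n := 4) (by omega) hi) (by positivity)).1 g h
    · exact h
  obtain ⟨μ, F⟩ := C'.co.exists_FS k S.cent_A (by
    have a := card_le_of_le (show S.pb Y0 ≤ N[S.A] ⊓ C1[z] from fun h hh =>
      ⟨S.norm_A (S.mem_pb.1 hh).1 (S.mem_pb.1 hh).2, S.pb_le hh⟩)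
    have c := card_Y0
    rw [S.card_pb (Y := Y0) fun _ h => S.range_eq.ge h.1] at a
    rw [← S.card_M, S.card_A, C'.co.ncard (F := fun n => band (!Nat.beq n 0) (!dq n)) fun n hn => by
      by_cases e : n = 0
      · simp [e, C'.zero, S.ne]
      · simp [e, ← Bool.not_eq_true, ← k n hn e], show bsum _ 11 0 = 1771 by decide +kernel]
    omega)
  exact ⟨T', μ, C', F⟩

end Cfsg.Agent.LF
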