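import Cfsg.Agent.LF.Dat4

/-! # The offender count -/

set_option autoImplicit false

namespace Cfsg.Agent.LF

open Cfsg.Agent.M24 Cfsg.Agent.Cl Cfsg.Agent.Leech Equiv Subgroup

theorem off0 : (nall 30 fun i => force (lget L72 0 (Nat.add 0 i)) off) = true := by decide +kernel
theorem off1 : (nall 14 fun i => force (lget L72 0 (Nat.add 30 i)) off) = true := by decide +kernel
theorem off2 : (nall 14 fun i => force (lget L72 0 (Nat.add 44 i)) off) = true := by decide +kernel
theorem off3 : (nall 14 fun i => force (lget L72 0 (Nat.add 58 i)) off) = true := by decide +kernel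

theorem off_all {i : ℕ} (h : i < 72) : off (lget L72 0 i) = true := by
  have a := (nall_iff _ _).1 off0 i
  have b := (nall_iff _ _).1 off1 (i - 30)
  have c := (nall_iff _ _).1 off2 (i - 44)
  have d := (nall_iff _ _).1 off3 (i - 58)
  simp only [force_eq, Nat.add_eq] at a b c d
  rcases (by omega : i < 30 ∨ (30 ≤ i ∧ i < 44) ∨ (44 ≤ i ∧ i < 58) ∨ 58 ≤ i) with e | e | e | e
  · simpa using a e
  · simpa [e.1] using b (by omega)
  · simpa [e.1] using c (by omega)
  · simpa [e] using d (by omega)

end Cfsg.Agent.LF
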