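import Cfsg.Agent.LF.Dat2

/-! # The stabiliser of a vector of the second singular orbit -/

set_option autoImplicit false

namespace Cfsg.Agent.LF

open Cfsg.Agent.M24 Cfsg.Agent.Cl Cfsg.Agent.Leech Equiv Subgroup

theorem ncard_85 : {v | ty (cd v) = ty 85}.ncard = 1701 := by
  rw [show ty 85 = 2 by decide +kernel, ncard_ty.2]

theorem Z_eq : gen code (gensOf cZ) = St N0 (dc 85) :=
  eq_St K0_le_N0 le_rfl (by omega) chk_Z (gen_le_of_sift chk_N (by decide +kernel)) (by decide +kernel)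
    (by rw [ncard_85, card_N0]; decide +kernel)

theorem X0_eq : gen code (gensOf cX0) = St H0 (dc 85) :=
  eq_St K0_le_H0 H0_le_N0 (by omega) chk_X0 (gen_le_H0 (by decide +kernel)) (by decide +kernel)
    (by rw [ncard_85, card_H0]; decide +kernel)

/-- The largest normal `2`-subgroup of the stabiliser. -/
noncomputable def E0 : Subgroup Γ := gen code (gensOf cE)

theorem card_E0 : Nat.card E0 = 32 := (chk_sound chk_E).2.2.1.trans (by decide +kernel)

theorem mem_E0 {g : Γ} : g ∈ E0 ↔ sift mul one mm cE (code g) = true := (chk_sound chk_E).2.2.2 g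

theorem exists_e0 : ∃ e ∈ E0, e * uu ∈ K0 := by
  obtain ⟨e, he⟩ := exists_code (p := nat_lit 0x300100c004000c004003001000c004003001300100c004000c004003001000c004003001) (by decide +kernel)
  exact ⟨e, by rw [mem_E0, he]; decide +kernel, by rw [mem_K0, gc.code_mul, he, code_uu]; decide +kernel⟩

theorem mem_E0_of {r : Γ} (h1 : r ∈ St N0 (dc 85)) (h2 : r * r = 1)
    (h3 : ∀ y ∈ St K0 (dc 85), r * (y * r * y⁻¹) = y * r * y⁻¹ * r) : r ∈ E0 := by
  have := forall_enum chk_Z enum_Z r (Z_eq.ge h1)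
  rw [bor_eq, Bool.or_eq_true, ← mem_E0] at this
  simp only [← gc.code_mul, ← gc.code_one, bor_eq, force_eq, Bool.or_eq_true,
    Bool.not_eq_true', ← Bool.not_eq_true, beq_code, lany_iff] at this
  refine this.resolve_right fun h => h.elim (· h2) fun ⟨p, a, b⟩ => ?_
  obtain ⟨c, d, e⟩ := (show ∀ p ∈ lK0, isC p = true ∧ sift mul one mm cK p = true ∧ mm p 85 = 85 by
    decide +kernel) p a
  obtain ⟨y, rfl⟩ := exists_code c
  simp only [← gc.code_mul, ← gc.code_inv, beq_code] at b
  exact b (h3 y ⟨mem_K0.2 d, cd_inj (by rw [show y • dc 85 = y (dc 85) from rfl, ← mm_code]; exact e)⟩)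

/-- Data. -/
def lK1 : List ℕ := [nat_lit
  0xb1063008a045f30a20720e1008704e08d04b8704e0450cf020a105c608d020d10b20710e, nat_lit
  0xf1aa35ac558f2f51af8f54aff58af4f52af1625d1f685d4f15f3fac5f8fabf86a4bf26a1, nat_lit
  0x9407c001a035b80640ac058001d03b01703e8a0450c608d0c9087030f20a20710e20d10b, nat_lit
  0xdcfb8acef89ab1a6351ef39ab92671b9867458af45c758ef51af352ef19a592f71598f74, nat_lit
  0x27a1e5f1fa3a4e5c9fa4a5c5a725e1a785e41ea39592a715c7f8ea785e4f9e27919e8794, nat_lit
  0x8504f08b04608e049010a30510730e10d30ba8054003f02ae409c0d80b4002d01b02701e]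

theorem sing_inv {U : AddSubgroup V} (h1 : ∀ u ∈ U, Q0 u = 0) (h2 : ∀ y ∈ St K0 (dc 5), ∀ u ∈ U, y u ∈ U) :
    Nat.card U ≤ 4 := by
  have : (U : Set V) ⊆ {dc 0, dc 5, dc 10, dc 15} := fun u hu => by
    have := forall_V (f := fun n => bor (qc n) (bor (lany [0, 5, 10, 15] (Nat.beq n))
      (lany lK1 fun p => qc (Nat.xor n (mm p n))))) (by decide +kernel) u
    simp only [bor_eq, Bool.or_eq_true, lany_iff, Nat.beq_eq] at this
    have k : ∀ v ∈ U, qc (cd v) ≠ true := fun v hv e => by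
      have := h1 v hv
      rw [Q0_qc, e] at this
      exact absurd this (by decide)
    rcases this with e | ⟨n, a, b⟩ | ⟨p, a, b⟩
    · exact absurd e (k u hu)
    · rw [← dc_cd u, b]
      simp only [List.mem_cons, List.not_mem_nil, or_false] at a
      rcases a with rfl | rfl | rfl | rfl <;> simp
    · obtain ⟨c, d, e⟩ := (show ∀ p ∈ lK1, isC p = true ∧ sift mul one mm cK p = true ∧ mm p 5 = 5 by
        decide +kernel) p a
      obtain ⟨y, rfl⟩ := exists_code c
      rw [mm_code] at b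
      exact absurd (cd_add u (y u) ▸ b) (k _ (U.add_mem hu (h2 y ⟨mem_K0.2 d, cd_inj (by
        rw [show y • dc 5 = y (dc 5) from rfl, ← mm_code]; exact e)⟩ u hu)))
  exact (Set.ncard_le_ncard this).trans ((Set.ncard_insert_le _ _).trans (Nat.succ_le_succ
    ((Set.ncard_insert_le _ _).trans (Nat.succ_le_succ ((Set.ncard_insert_le _ _).trans_eq (by rw [Set.ncard_singleton]))))))

theorem exists_theta0 : ∃ θ : St H0 (dc 85) →* alternatingGroup (Fin 6), Function.Surjective θ ∧
    ∀ g, θ g = 1 ↔ g.1 ∈ E0 := by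
  rw [← X0_eq]
  obtain ⟨θ, h, -⟩ := exists_labT (l := gensOf cX0) (n := 6) (lab := lab0) (rep := lget [11, 35, 44, 257, 513, 769] 0)
    (by decide +kernel)
  have k : ∀ g, θ g = 1 ↔ g.1 ∈ E0 := fun g => by
    rw [labT_one h, mem_E0, beq_iff_eq.1 (forall_enum chk_X0 enum_X0 g g.2)]
  have e : θ.range = alternatingGroup (Fin 6) := Perm.eq_alternatingGroup_of_index_eq_two (by
    have a := θ.ker.card_mul_index
    have b := θ.range.card_mul_index
    rw [index_ker, show θ.ker = E0.subgroupOf _ from Subgroup.ext k, Nat.card_congr (subgroupOfEquivOfLe (H := E0)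
      (gen_le_of_sift chk_X0 (by decide +kernel))).toEquiv, card_E0, (chk_sound chk_X0).2.2.1,
      show chainSize cX0 = 11520 by decide +kernel] at a
    rw [Nat.card_perm, Nat.card_fin, show Nat.factorial 6 = 720 from rfl,
      show Nat.card θ.range = 360 by omega] at b
    omega)
  exact ⟨θ.codRestrict _ fun g => e.le ⟨g, rfl⟩, fun σ => let ⟨g, hg⟩ := e.ge σ.2; ⟨g, Subtype.ext hg⟩,
    fun g => Subtype.ext_iff.trans (k g)⟩

end Cfsg.Agent.LF
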