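import Cfsg.Agent.LF.Base
import Cfsg.Agent.LF.Stab

/-! # Groups of large Fischer type: determination of `C(z) / Q` -/

set_option autoImplicit false

namespace Cfsg.Agent.LF

open Cfsg.Agent.GT Cfsg.Agent.TT Cfsg.Agent.Cl Subgroup

namespace LB

variable {G : Type*} [Group G] [Finite G] {Q : Subgroup G} {z : G} {π : G → V} {r : G → Γ} (S : LB Q z π r)
  {T : Subgroup G} {a b g h s x y : G}
include S

theorem lp (hs : g * z * g⁻¹ ∈ Q) (hne : g * z * g⁻¹ ≠ z) : LP Q z (cj[g] Q) (g * z * g⁻¹) :=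
  LP.of_conj S.toLQ hs hne (by rw [S.cardQ]; norm_num)

omit [Finite G] in
theorem card_cj (g : G) : Nat.card (cj[g] Q) = 2 ^ 13 :=
  (card_map_of_injective (MulAut.conj g).injective).trans S.cardQ

theorem exists_lift (hs : s ∈ Q) (h0 : π s ≠ 0) {y : Γ} (hy : y ∈ St S.ρ.range (π s)) :
    ∃ k ∈ C1[z] ⊓ C1[s], r k = y := by
  obtain ⟨⟨h, rfl⟩, b⟩ := hy
  obtain ⟨k, c, d, e⟩ := S.exists_conj h.2 hs hs h0 b
  exact ⟨k, ⟨c, mem_centralizer_singleton_iff.2 (mul_inv_eq_iff_eq_mul.1 e)⟩, d⟩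

omit [Finite G] in
theorem r_fix (hs : s ∈ Q) (hh : h ∈ C1[z] ⊓ C1[s]) : r h (π s) = π s := by
  rw [← S.act h hh.1 s hs, mem_centralizer_singleton_iff.1 hh.2, mul_inv_cancel_right]

theorem im_cent (hs : s ∈ Q) (h0 : π s ≠ 0) : S.im (C1[z] ⊓ C1[s]) = St S.ρ.range (π s) :=
  Subgroup.ext fun _ => S.mem_im.trans ⟨fun ⟨k, a, b, c⟩ => c ▸ ⟨⟨⟨k, b⟩, rfl⟩, S.r_fix hs a⟩,
    fun h => let ⟨k, a, b⟩ := S.exists_lift hs h0 h; ⟨k, a, a.1, b⟩⟩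

variable (P : LP Q z T s) (hT : Nat.card T = 2 ^ 13)
include P

omit [Finite G] in
theorem π_ne : π s ≠ 0 := fun e => ((S.ker s P.sQ).1 e).elim P.hS.ne P.ne

include hT

theorem card_R : 2 ^ 12 ≤ Nat.card ↥(Q ⊓ T) * Nat.card (S.im (T ⊓ C1[z])) := by
  have a := P.hS.toES.card_le_two_mul P.zS
  rw [S.card_im inf_le_right, inf_assoc, inf_eq_right.2 S.le, inf_comm T, hT] at a
  omega

theorem not_five (h : π s = dc 5) : False := by
  have a := S.card_R P hT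
  have b := S.card_wq_le (Q ⊓ T)
  have c := sing_inv (S.wq_sing (E := Q ⊓ T) fun x hx _ => P.E_sq hx) fun y hy u hu => by
    obtain ⟨x, a, b, rfl⟩ := S.mem_wq.1 hu
    obtain ⟨k, c, rfl⟩ := S.exists_lift P.sQ (S.π_ne P) (y := y) ⟨S.K0_le hy.1, h ▸ hy.2⟩
    have := (mem_normalizer_iff.1 (P.CV_norm_E c) x).1 a
    exact S.mem_wq.2 ⟨_, this, this.1, S.act k c.1 x b⟩
  have d : Nat.card (S.im (T ⊓ C1[z])) ∣ 2 ^ 13 :=
    (Dvd.intro_left _ (S.card_im inf_le_right).symm).trans (hT ▸ card_dvd_of_le inf_le_left)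
  have e := card_dvd_of_le (map_le_range S.ρ ((T ⊓ C1[z]).subgroupOf C1[z]))
  rw [S.card_range] at e
  have f := Nat.le_of_dvd (by decide) (Nat.dvd_gcd d e)
  rw [inf_eq_left.2 inf_le_left] at b
  norm_num at f
  nlinarith

theorem im_R (h : π s = dc 85) : S.im (T ⊓ C1[z]) = E0 ∧ Nat.card ↥(Q ⊓ T) = 2 ^ 7 := by
  have a := S.card_R P hT
  have b := S.card_wq_le (Q ⊓ T)
  have c := card_sing_le _ (S.wq_sing (E := Q ⊓ T) fun x hx _ => P.E_sq hx)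
  rw [inf_eq_left.2 inf_le_left] at b
  have k : ∀ x ∈ zpowers s, r x = 1 := fun x hx => S.r_Q (zpowers_le.2 P.sQ hx)
  have d : S.im (T ⊓ C1[z]) ≤ E0 := fun g hg => by
    obtain ⟨t, a, b, rfl⟩ := S.mem_im.1 hg
    refine mem_E0_of ⟨S.memN t b, h ▸ S.r_fix P.sQ ⟨b, P.hS.toES.le_cent1 a.1⟩⟩ ?_ fun y hy => ?_
    · rw [← S.rmul t b t b]
      exact k _ (P.hS.toES.mem_zp.2 (P.hS.sq t a.1))
    · obtain ⟨j, c, rfl⟩ := S.exists_lift P.sQ (S.π_ne P) (y := y) ⟨S.K0_le hy.1, h ▸ hy.2⟩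
      have e : j * t * j⁻¹ ∈ C1[z] := mul_mem (mul_mem c.1 b) (inv_mem c.1)
      have := k _ (P.hS.toES.commutator_mem a.1 ((mem_normalizer_iff.1 (P.hS.nQ c.2) t).1 a.1))
      rwa [S.rmul _ (mul_mem (mul_mem b e) (inv_mem b)) _ (inv_mem e), S.r_conj b e, S.r_inv e,
        S.r_conj c.1 b, mul_inv_eq_one, mul_inv_eq_iff_eq_mul] at this
  have e := card_le_of_le d
  rw [card_E0] at e
  exact ⟨eq_of_le_of_card_ge d (by rw [card_E0]; nlinarith), by nlinarith⟩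

omit P hT

theorem ty_two (hs : s ∈ Q) (h1 : IsConj z s) (h2 : s ≠ z) : ty (cd (π s)) = 2 := by
  obtain ⟨g, rfl⟩ := isConj_iff.1 h1
  have P := S.lp hs h2
  refine (S.ty_cases hs P.hS.zz P.hS.ne h2).resolve_left fun e => ?_
  obtain ⟨_, _, S', h⟩ := S.exists_twist (n := 5) (by omega) (e.trans (by decide +kernel))
  exact S'.not_five P (S.card_cj g) h

theorem range_eq : S.ρ.range = H0 := by
  obtain ⟨g, hs, hne⟩ := S.wc
  obtain ⟨k, a, b⟩ := K0_trans (u := π (g * z * g⁻¹)) (v := dc 85)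
    ((S.ty_two hs (isConj_iff.2 ⟨g, rfl⟩) hne).trans (by decide +kernel))
  obtain ⟨e, c, d⟩ := exists_e0
  obtain ⟨t, -, f, rfl⟩ := (S.twist a).mem_im.1 (((S.twist a).im_R (S.lp hs hne) (S.card_cj g) b).1.ge c)
  refine (eq_of_le_of_card_ge (H0_le S.K0_le ?_) (by rw [card_H0, S.card_range])).symm
  exact (mul_mem_cancel_left (mul_mem (mul_mem (S.K0_le a) ⟨⟨t, f⟩, rfl⟩) (inv_mem (S.K0_le a)))).1 (S.K0_le d)

theorem memH (hh : h ∈ C1[z]) : r h ∈ H0 := S.range_eq.le ⟨⟨h, hh⟩, rfl⟩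

theorem exH {k : Γ} (hk : k ∈ H0) : ∃ h ∈ C1[z], r h = k := let ⟨h, a⟩ := S.range_eq.ge hk; ⟨h, h.2, a⟩

theorem conj_iff (hx : x ∈ Q) (h2 : x ≠ z) : IsConj z x ↔ ty (cd (π x)) = 2 := by
  refine ⟨fun h => S.ty_two hx h h2, fun h => ?_⟩
  obtain ⟨g, hs, hne⟩ := S.wc
  obtain ⟨k, -, e⟩ := S.conj_of_ty hs hx (fun e => by rw [ty_eq_zero.2 e] at h; omega)
    ((S.ty_two hs (isConj_iff.2 ⟨g, rfl⟩) hne).trans h.symm)
  exact (isConj_iff.2 ⟨g, rfl⟩).trans (isConj_iff.2 ⟨k, e⟩)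

theorem ty_one (hx : x ∈ Q) (h2 : x * x = 1) (h1 : x ≠ 1) (h : ¬IsConj z x) : ty (cd (π x)) = 1 := by
  have hz : x ≠ z := by rintro rfl; exact h (IsConj.refl _)
  exact (S.ty_cases hx h2 h1 hz).resolve_right fun e => h ((S.conj_iff hx hz).2 e)

theorem exists_ty {n : ℕ} (hn : n < 4096) (h0 : ty n ≠ 0) (h3 : ty n ≠ 3) :
    ∃ x ∈ Q, π x = dc n ∧ x * x = 1 ∧ x ≠ 1 ∧ x ≠ z := by
  obtain ⟨x, a, b⟩ := S.surj (dc n)
  have := mt (S.ker x a).2 fun e => h0 (by rw [← cd_dc hn, ← b, ty_eq_zero, e])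
  exact ⟨x, a, b, (S.sq' x a).2 (Q0_eq_zero.2 (by rwa [b, cd_dc hn])), fun e => this (.inl e),
    fun e => this (.inr e)⟩

end LB

theorem LB.exists_j {G : Type*} [Group G] [Finite G] {z : G} {Q : Subgroup C1[z]} [Q.Normal] {π : G → V}
    {r : G → Γ} (S : LB (Q.map C1[z].subtype) z π r) :
    ∃ j : C1[z] ⧸ Q →* Γ, Function.Injective j ∧ j.comp (QuotientGroup.mk' Q) = S.ρ := by
  have k : Q = S.ρ.ker := Subgroup.ext fun h =>
    ((S.r_eq_one h.2).trans (mem_map_iff_mem (subtype_injective _))).symm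
  exact ⟨QuotientGroup.lift Q S.ρ k.le, (QuotientGroup.injective_lift_iff _ _ _).2 k, rfl⟩

end Cfsg.Agent.LF
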