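import Cfsg.Agent.LF.Frame
import Cfsg.Agent.LF.Mono

/-! # Extensions of a group of order three by `U4(3)`: the monomial subgroup -/

set_option autoImplicit false

namespace Cfsg.Agent.LF

open Equiv Subgroup

/-- `K` is an extension of `⟨x⟩` of order three by the quotient `U` of `K0`. -/
structure Ext3 {K U : Type*} [Group K] [Group U] (φ : K →* U) (θ : K0 →* U) (x : K) : Prop where
  simple : IsSimpleGroup U
  sφ : Function.Surjective φ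
  sθ : Function.Surjective θ
  kφ : ∀ k, φ k = 1 ↔ k ∈ zpowers x
  kθ : ∀ g, θ g = 1 ↔ g.1 ∈ zpowers W
  ox : orderOf x = 3

/-- Diagonal entries `ω` and `ω⁻¹`. -/
def dd (i j : Fin 6) (k : Fin 6) : K4ˣ := (if k = i then omu else 1) * if k = j then omu⁻¹ else 1

theorem dd_mem (i j : Fin 6) (S : Subgroup (Perm (Fin 6))) : mon (dd i j) 1 ∈ PM S :=
  ⟨_, _, (show ∀ i j, ∏ k, dd i j k = 1 by decide +kernel) i j, S.one_mem, rfl⟩

theorem dd_conj (d : Fin 6 → K4ˣ) (σ : Perm (Fin 6)) (i j : Fin 6) :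
    mon d σ * mon (dd i j) 1 * (mon d σ)⁻¹ = mon (dd (σ i) (σ j)) 1 := by
  rw [mon_conj]; congr 1; funext k; simp only [dd, Perm.inv_eq_iff_eq]

theorem mon_mul_one (c d : Fin 6 → K4ˣ) : mon c 1 * mon d 1 = mon (c * d) 1 := by rw [mon_mul]; rfl

theorem mon_pow_one (c : Fin 6 → K4ˣ) (n : ℕ) : mon c 1 ^ n = mon (c ^ n) 1 := by
  induction n with
  | zero => exact mon_one.symm
  | succ n ih => rw [pow_succ, ih, mon_mul_one, pow_succ]

theorem PM_mono {S T : Subgroup (Perm (Fin 6))} (h : S ≤ T) : PM S ≤ PM T :=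
  fun _ ⟨d, σ, a, b, c⟩ => ⟨d, σ, a, h b, c⟩

theorem PM_bot_le : PM ⊥ ≤ K0 := (PM_mono bot_le).trans PM_le

theorem mem_PM_bot {g : Γ} : g ∈ PM ⊥ ↔ ∃ d, ∏ i, d i = 1 ∧ g = mon d 1 :=
  ⟨fun ⟨d, _, a, b, c⟩ => ⟨d, a, mem_bot.1 b ▸ c⟩, fun ⟨d, a, c⟩ => ⟨d, 1, a, one_mem _, c⟩⟩

theorem perm_mem_PM {σ : Perm (Fin 6)} (h : Perm.sign σ = 1) : mon 1 σ ∈ PM (alternatingGroup (Fin 6)) :=
  ⟨_, _, by simp, h, rfl⟩

namespace Ext3

variable {K U : Type*} [Group K] [Group U] {φ : K →* U} {θ : K0 →* U} {x : K} (E : Ext3 φ θ x)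
include E

theorem ker_eq : φ.ker = zpowers x := Subgroup.ext E.kφ

theorem cardU : Nat.card U = 3265920 := by
  have := θ.ker.card_mul_index
  rw [index_ker, MonoidHom.range_eq_top.2 E.sθ, card_top, card_K0,
    show θ.ker = (zpowers W).subgroupOf K0 from Subgroup.ext E.kθ,
    Nat.card_congr (subgroupOfEquivOfLe (zpowers_le.2 W_mem)).toEquiv, Nat.card_zpowers, orderOf_W] at this
  omega

theorem cardK : Nat.card K = 9797760 := by
  have := φ.ker.card_mul_index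
  rw [index_ker, MonoidHom.range_eq_top.2 E.sφ, card_top, E.cardU, E.ker_eq, Nat.card_zpowers, E.ox] at this
  omega

theorem finite : Finite K := Nat.finite_of_card_ne_zero (by rw [E.cardK]; omega)

theorem hom_triv {B : Type*} [Group B] [Finite B] (ψ : K →* B) (h : ψ x = 1) (hB : Nat.card B < 3265920)
    (k : K) : ψ k = 1 := by
  have h1 : φ.ker ≤ ψ.ker := by rw [E.ker_eq]; exact zpowers_le.2 h
  have := E.simple
  rcases (ψ.normal_ker.map φ E.sφ).eq_bot_or_eq_top with e | e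
  · have h2 := index_map_eq _ E.sφ h1
    rw [e, index_bot, E.cardU, index_ker] at h2
    have := Nat.card_le_card_of_injective _ ψ.range.subtype_injective
    omega
  · have := comap_map_eq_self h1
    rw [e, comap_top] at this
    exact this.le (mem_top k)

theorem comm_x (k : K) : k * x = x * k := by
  have := E.finite
  have hx : x ∈ φ.ker := E.ker_eq.ge (mem_zpowers x)
  have := E.hom_triv ((MulAut.toPerm φ.ker).comp MulAut.conjNormal) (Equiv.ext fun y => Subtype.ext (by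
    obtain ⟨n, hn⟩ := E.ker_eq.le y.2
    change x * y * x⁻¹ = y
    rw [← hn]; group)) (by rw [Nat.card_perm, E.ker_eq, Nat.card_zpowers, E.ox]; decide) k
  exact mul_inv_eq_iff_eq_mul.1 (congrArg Subtype.val (Equiv.congr_fun this ⟨x, hx⟩))

theorem z_comm {z : K} (h : z ∈ zpowers x) (k : K) : k * z = z * k := by
  obtain ⟨n, rfl⟩ := h
  exact (show Commute k x from E.comm_x k).zpow_right n

theorem z_cube {z : K} (h : z ∈ zpowers x) : z ^ 3 = 1 := by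
  obtain ⟨n, rfl⟩ := h
  rw [← zpow_natCast, ← zpow_mul, mul_comm, zpow_mul, zpow_natCast, ← E.ox, pow_orderOf_eq_one, one_zpow]

theorem z_eq_one {z : K} (h : z ∈ zpowers x) (h2 : z = z⁻¹) : z = 1 := by
  have := E.z_cube h
  rwa [pow_three, mul_eq_one_iff_eq_inv.2 h2, mul_one] at this

variable (φ θ) in
omit E in
/-- Same image in `U`. -/
def R (k : K) (g : Γ) : Prop := ∃ h : g ∈ K0, φ k = θ ⟨g, h⟩

omit E in
theorem R.mul {k k' : K} {g g' : Γ} (h : R φ θ k g) (h' : R φ θ k' g') : R φ θ (k * k') (g * g') :=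
  let ⟨a, b⟩ := h; let ⟨c, d⟩ := h'; ⟨mul_mem a c, by rw [map_mul, b, d, ← map_mul]; rfl⟩

omit E in
theorem R.inv {k : K} {g : Γ} (h : R φ θ k g) : R φ θ k⁻¹ g⁻¹ :=
  let ⟨a, b⟩ := h; ⟨inv_mem a, by rw [map_inv, b, ← map_inv]; rfl⟩

omit E in
theorem R.pow {k : K} {g : Γ} (h : R φ θ k g) (n : ℕ) : R φ θ (k ^ n) (g ^ n) :=
  let ⟨a, b⟩ := h; ⟨pow_mem a n, by rw [map_pow, b, ← map_pow]; rfl⟩

theorem R_z {k : K} {g : Γ} (h : R φ θ k g) : k ∈ zpowers x ↔ g ∈ zpowers W := by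
  obtain ⟨a, b⟩ := h
  rw [← E.kφ, b, E.kθ]

theorem R_eq {k k' : K} {g : Γ} (h : R φ θ k g) (h' : R φ θ k' g) : ∃ z ∈ zpowers x, k' = k * z :=
  ⟨_, (E.R_z (h.inv.mul h')).2 (by rw [inv_mul_cancel]; exact one_mem _), (mul_inv_cancel_left _ _).symm⟩

theorem R_ex {g : Γ} (h : g ∈ K0) : ∃ k, R φ θ k g := let ⟨k, e⟩ := E.sφ (θ ⟨g, h⟩); ⟨k, h, e⟩

theorem R_x : R φ θ x 1 := ⟨one_mem _, ((E.kφ x).2 (mem_zpowers x)).trans (map_one θ).symm⟩

variable (φ θ) in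
omit E in
/-- The subgroup of `K` corresponding to a subgroup of `K0`. -/
noncomputable def pre (S : Subgroup Γ) : Subgroup K := ((S.subgroupOf K0).map θ).comap φ

omit E in
theorem mem_pre {S : Subgroup Γ} {k : K} : k ∈ pre φ θ S ↔ ∃ g ∈ S, R φ θ k g :=
  ⟨fun ⟨g, a, b⟩ => ⟨g, a, g.2, b.symm⟩, fun ⟨g, a, b, c⟩ => ⟨⟨g, b⟩, a, c.symm⟩⟩

theorem card_pre {S : Subgroup Γ} (h1 : zpowers W ≤ S) (h2 : S ≤ K0) : Nat.card (pre φ θ S) = Nat.card S := by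
  have a := (pre φ θ S).card_mul_index
  have b := (S.subgroupOf K0).card_mul_index
  rw [pre, index_comap_of_surjective _ E.sφ, index_map_eq _ E.sθ fun g hg => h1 ((E.kθ g).1 hg), E.cardK] at a
  rw [card_K0, Nat.card_congr (subgroupOfEquivOfLe h2).toEquiv] at b
  exact Nat.eq_of_mul_eq_mul_right (Nat.pos_of_ne_zero index_ne_zero_of_finite) (a.trans b.symm)

theorem x_mem (S : Subgroup Γ) : x ∈ pre φ θ S := mem_pre.2 ⟨1, one_mem _, E.R_x⟩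

variable {L : Fin 6 → K} (hL : ∀ i, R φ θ (L i) (mon (dd i 5) 1))
include hL

theorem pre_le {Z : Subgroup K} (hx : x ∈ Z) (h : ∀ i, L i ∈ Z) : pre φ θ (PM ⊥) ≤ Z := fun k hk => by
  obtain ⟨g, a', b⟩ := mem_pre.1 hk
  obtain ⟨d, a, rfl⟩ := mem_PM_bot.1 a'
  let lg : K4ˣ → ℕ := fun a => if a = 1 then 0 else if a = omu then 1 else 2
  have c := (((((hL 0).pow (lg (d 0))).mul ((hL 1).pow (lg (d 1)))).mul ((hL 2).pow (lg (d 2)))).mul
    ((hL 3).pow (lg (d 3)))).mul ((hL 4).pow (lg (d 4)))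
  simp only [mon_pow_one, mon_mul_one] at c
  rw [← (show ∀ d : Fin 6 → K4ˣ, ∏ i, d i = 1 → d = dd 0 5 ^ lg (d 0) * dd 1 5 ^ lg (d 1) * dd 2 5 ^ lg (d 2) *
    dd 3 5 ^ lg (d 3) * dd 4 5 ^ lg (d 4) by decide +kernel) d a] at c
  obtain ⟨z, hz, rfl⟩ := E.R_eq c b
  exact mul_mem (mul_mem (mul_mem (mul_mem (mul_mem (pow_mem (h 0) _) (pow_mem (h 1) _)) (pow_mem (h 2) _))
    (pow_mem (h 3) _)) (pow_mem (h 4) _)) (zpowers_le.2 hx hz)

theorem L_conj {n : K} {d : Fin 6 → K4ˣ} {σ : Perm (Fin 6)} (h : R φ θ n (mon d σ)) (i : Fin 6) :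
    ∃ z ∈ zpowers x, n * L i * n⁻¹ = L (σ i) * (L (σ 5))⁻¹ * z := by
  refine E.R_eq ?_ ((h.mul (hL i)).mul h.inv)
  rw [dd_conj, (show ∀ i j, dd i j = dd i 5 * dd 5 j by decide +kernel), ← mon_mul_one]
  refine (hL _).mul ?_
  rw [show mon (dd 5 (σ 5)) 1 = (mon (dd (σ 5) 5) 1)⁻¹ from eq_inv_of_mul_eq_one_left (by
    rw [mon_mul_one, (show ∀ i, dd 5 i * dd i 5 = 1 by decide +kernel), mon_one])]
  exact (hL _).inv

theorem L5 : L 5 ∈ zpowers x :=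
  (E.R_z (hL 5)).2 (by rw [show dd 5 5 = 1 by decide +kernel, mon_one]; exact one_mem _)

theorem L_inv (i : Fin 6) : ∃ n ∈ pre φ θ (PM (alternatingGroup (Fin 6))), ∃ z ∈ zpowers x,
    n * L i * n⁻¹ = (L i)⁻¹ * z := by
  obtain ⟨k, l, a, b, c⟩ := (show ∀ i : Fin 6, ∃ k l, Perm.sign (swap i 5 * swap k l) = 1 ∧
    (swap i 5 * swap k l) i = 5 ∧ (swap i 5 * swap k l) 5 = i by decide +kernel) i
  obtain ⟨n, hn⟩ := E.R_ex (PM_le (perm_mem_PM a))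
  obtain ⟨z, hz, e⟩ := E.L_conj hL hn i
  rw [b, c, ← E.z_comm (E.L5 hL), mul_assoc _ (L 5)] at e
  exact ⟨n, mem_pre.2 ⟨_, perm_mem_PM a, hn⟩, _, mul_mem (E.L5 hL) hz, e⟩

theorem L_comm (i j : Fin 6) : L i * L j = L j * L i := by
  by_cases hi : i = 5
  · rw [hi]; exact (E.z_comm (E.L5 hL) _).symm
  by_cases hj : j = 5
  · rw [hj]; exact E.z_comm (E.L5 hL) _
  obtain ⟨k, l, a, b, c, d⟩ := (show ∀ i j : Fin 6, i ≠ 5 → j ≠ 5 → ∃ k l,
    Perm.sign (swap i j * swap k l) = 1 ∧ (swap i j * swap k l) i = j ∧ (swap i j * swap k l) j = i ∧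
    (swap i j * swap k l) 5 = 5 by decide +kernel) i j hi hj
  obtain ⟨n, hn⟩ := E.R_ex (PM_le (perm_mem_PM a))
  obtain ⟨y, hy, e⟩ := E.L_conj hL hn i
  obtain ⟨z, hz, f⟩ := E.L_conj hL hn j
  rw [b, d, mul_assoc _ _ y] at e
  rw [c, d, mul_assoc _ _ z] at f
  have h1 := E.z_comm (mul_mem (inv_mem (E.L5 hL)) hy)
  have h2 := E.z_comm (mul_mem (inv_mem (E.L5 hL)) hz)
  generalize (L 5)⁻¹ * y = y' at e h1
  generalize (L 5)⁻¹ * z = z' at f h2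
  have h3 : L i * L j * (L i)⁻¹ * (L j)⁻¹ ∈ zpowers x :=
    (E.R_z ((((hL i).mul (hL j)).mul (hL i).inv).mul (hL j).inv)).2 (by
      rw [mon_mul_one, mul_comm (dd i 5), ← mon_mul_one, mul_inv_cancel_right, mul_inv_cancel]
      exact one_mem _)
  have := E.z_eq_one h3 (by
    calc _ = n * (L i * L j * (L i)⁻¹ * (L j)⁻¹) * n⁻¹ := by rw [E.z_comm h3 n, mul_inv_cancel_right]
      _ = n * L i * n⁻¹ * (n * L j * n⁻¹) * (n * L i * n⁻¹)⁻¹ * (n * L j * n⁻¹)⁻¹ := by group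
      _ = L j * (y' * (L i * z')) * y'⁻¹ * (L j)⁻¹ * z'⁻¹ * (L i)⁻¹ := by rw [e, f]; group
      _ = L j * L i * (z' * (L j)⁻¹) * z'⁻¹ * (L i)⁻¹ := by rw [← h1]; group
      _ = _ := by rw [← h2]; group)
  rwa [mul_inv_eq_one, mul_inv_eq_iff_eq_mul] at this

theorem A_comm {a b : K} (ha : a ∈ pre φ θ (PM ⊥)) (hb : b ∈ pre φ θ (PM ⊥)) : a * b = b * a :=
  mem_centralizer_singleton_iff.1 (E.pre_le hL (Z := centralizer {b})
    (mem_centralizer_singleton_iff.2 (E.comm_x b).symm) (fun i => mem_centralizer_singleton_iff.2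
      (mem_centralizer_singleton_iff.1 (E.pre_le hL (Z := centralizer {L i})
        (mem_centralizer_singleton_iff.2 (E.comm_x _).symm)
        (fun j => mem_centralizer_singleton_iff.2 (E.L_comm hL j i)) hb)).symm) ha)

omit E in
theorem L_mem (i : Fin 6) : L i ∈ pre φ θ (PM ⊥) := mem_pre.2 ⟨_, dd_mem _ _ _, hL i⟩

theorem A_cube {a : K} (ha : a ∈ pre φ θ (PM ⊥)) : a ^ 3 = 1 := by
  let Z : Subgroup K :=
    { carrier := {a | a ∈ pre φ θ (PM ⊥) ∧ a ^ 3 = 1}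
      one_mem' := ⟨one_mem _, one_pow _⟩
      mul_mem' := fun {a b} ha hb => ⟨mul_mem ha.1 hb.1, by
        rw [(show Commute a b from E.A_comm hL ha.1 hb.1).mul_pow, ha.2, hb.2, mul_one]⟩
      inv_mem' := fun {a} ha => ⟨inv_mem ha.1, by rw [inv_pow, ha.2, inv_one]⟩ }
  refine (E.pre_le hL (Z := Z) ⟨E.x_mem _, E.z_cube (mem_zpowers x)⟩ (fun i => ⟨L_mem hL i, ?_⟩) ha).2
  have h : L i ^ 3 ∈ zpowers x := (E.R_z ((hL i).pow 3)).2 (by
    rw [mon_pow_one, show dd i 5 ^ 3 = 1 from funext fun k => K4u_cube _, mon_one]; exact one_mem _)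
  obtain ⟨n, -, z, hz, e⟩ := E.L_inv hL i
  refine E.z_eq_one h ?_
  calc _ = (n * L i * n⁻¹) ^ 3 := by rw [conj_pow, E.z_comm h n, mul_inv_cancel_right]
    _ = _ := by rw [e, (show Commute _ z from E.z_comm hz _).mul_pow, E.z_cube hz, mul_one, inv_pow]

omit E hL in
theorem A_conj {n a : K} (hn : n ∈ pre φ θ (PM (alternatingGroup (Fin 6)))) (ha : a ∈ pre φ θ (PM ⊥)) :
    n * a * n⁻¹ ∈ pre φ θ (PM ⊥) := by
  obtain ⟨_, ⟨d, σ, -, -, rfl⟩, b⟩ := mem_pre.1 hn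
  obtain ⟨g, a', c⟩ := mem_pre.1 ha
  obtain ⟨e, f, rfl⟩ := mem_PM_bot.1 a'
  exact mem_pre.2 ⟨_, mem_PM_bot.2 ⟨_, (Equiv.prod_comp σ⁻¹ e).trans f, mon_conj d e σ⟩, (b.mul c).mul b.inv⟩

omit hL in
theorem A_cent {n : K} (hn : n ∈ pre φ θ (PM (alternatingGroup (Fin 6))))
    (h : ∀ a ∈ pre φ θ (PM ⊥), n * a = a * n) : n ∈ pre φ θ (PM ⊥) := by
  obtain ⟨_, ⟨d, σ, a, -, rfl⟩, b⟩ := mem_pre.1 hn
  obtain rfl : σ = 1 := Equiv.ext fun i => by
    obtain ⟨k, hk⟩ := E.R_ex (PM_bot_le (dd_mem i (i + 1) _))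
    have := ((b.mul hk).mul b.inv).mul hk.inv
    rw [h k (mem_pre.2 ⟨_, dd_mem _ _ _, hk⟩), mul_inv_cancel_right, mul_inv_cancel, dd_conj] at this
    obtain ⟨t, ht⟩ := mem_zW.1 ((E.R_z this).1 (one_mem _))
    rw [mul_inv_eq_iff_eq_mul, mon_mul_one] at ht
    exact (show ∀ (i a b : Fin 6) (t : K4ˣ), a ≠ b → dd a b = (fun _ => t) * dd i (i + 1) → a = i by
      decide +kernel) i _ _ t (σ.injective.ne ((show ∀ i : Fin 6, i ≠ i + 1 by decide) i)) (mon_inj ht).1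
  exact mem_pre.2 ⟨_, mem_PM_bot.2 ⟨d, a, rfl⟩, b⟩

end Ext3

/-- Some even permutations. -/
def evl : List (Perm (Fin 6)) := [
  swap 2 4 * swap 4 5, swap 0 2 * swap 1 5, swap 0 5 * swap 2 3, swap 1 2 * swap 3 5, swap 0 3 * swap 0 4,
  swap 1 3 * swap 3 4, swap 0 1 * swap 2 3, swap 2 4 * swap 2 5, swap 1 3 * swap 1 4, swap 0 3 * swap 1 5,
  swap 0 4 * swap 1 5, swap 0 5 * swap 1 2, swap 0 1 * swap 3 5, swap 0 2 * swap 1 4, swap 0 3 * swap 4 5,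
  swap 1 3 * swap 2 4, swap 0 5 * swap 1 3, swap 2 4 * swap 3 5, swap 0 1 * swap 2 5]

theorem evl_sign : ∀ σ ∈ evl, Perm.sign σ = 1 := by decide +kernel

theorem evl_many : ∀ c : Fin 6 → K4ˣ, c 5 = 1 → ∏ i, c i = 1 → c ≠ 1 →
    13 ≤ (evl.map fun σ i => c (σ i) * (c (σ 5))⁻¹).toFinset.card := by decide +kernel

end Cfsg.Agent.LF
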