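import Cfsg.Agent.LF.U6b

/-! # Groups of large Fischer type: a subgroup of index two in the second involution centraliser -/

set_option autoImplicit false
set_option maxRecDepth 100000

namespace Cfsg.Agent.LF

open Cfsg.Agent.M24 Cfsg.Agent.GT Cfsg.Agent.TT Cfsg.Agent.TT2 Cfsg.Agent.Cl Subgroup
open scoped Pointwise

theorem exists_sgn {G : Type*} [Group G] [Finite G] {H : Subgroup G} (hH : H.index % 4 = 2) {u : G}
    (hu : u * u = 1) (h : ∀ g, g⁻¹ * u * g ∉ H) : ∃ χ : G →* ℤˣ, χ u ≠ 1 := by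
  classical
  have := Fintype.ofFinite (G ⧸ H)
  refine ⟨Equiv.Perm.sign.comp (MulAction.toPermHom G (G ⧸ H)), fun h1 => ?_⟩
  have h2 : MulAction.toPermHom G (G ⧸ H) u ^ 2 = 1 := by rw [← map_pow, pow_two, hu, map_one]
  have h3 : IsEmpty (Function.fixedPoints (MulAction.toPermHom G (G ⧸ H) u)) := ⟨by
    rintro ⟨x, hx⟩
    obtain ⟨g, rfl⟩ := QuotientGroup.mk_surjective x
    have : (QuotientGroup.mk (u * g) : G ⧸ H) = QuotientGroup.mk g := hx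
    exact h g (by simpa [mul_assoc] using QuotientGroup.eq.1 this.symm)⟩
  rw [MonoidHom.comp_apply, Equiv.Perm.sign_of_pow_two_eq_one h2, Fintype.card_eq_zero (α := Function.fixedPoints _),
    Nat.sub_zero, ← Nat.card_eq_fintype_card] at h1
  have : Odd (Nat.card (G ⧸ H) / 2) := by rw [Nat.odd_iff]; change H.index / 2 % 2 = 1; omega
  rw [this.neg_one_pow] at h1
  exact absurd h1 (by decide)

namespace LB

variable {G : Type*} [Group G] [Finite G] {Q : Subgroup G} {z : G} {π : G → V} {r : G → Γ} (S : LB Q z π r)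
  {x y : G}
include S

theorem gen85 (hx : x ∈ Q) (h85 : π x = dc 85) {L : Subgroup G} (hz : z ∈ L)
    (h : ∀ t ∈ Q, t * t = 1 → t ≠ 1 → ¬IsConj z t → Commute t x → t ∈ L) (hy : y ∈ Q) (hc : Commute y x) :
    y ∈ L := by
  have k := bits_ind (P := fun n => dc (mm 0x580140120110108204102201100b00a005 n) ∈ S.wq L) 12
    (by rw [mm_zero, dc_zero]; exact zero_mem _) (fun i hi => by
      have e := (by decide +kernel : ∀ i < 12, ty (col 0x580140120110108204102201100b00a005 i) = 1 ∧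
        bc (col 0x580140120110108204102201100b00a005 i) 85 = false) i hi
      rw [mm_pow _ hi]
      obtain ⟨t, a, b, c, d, f⟩ := S.exists_ty (col_lt _ i) (by rw [e.1]; decide) (by rw [e.1]; decide)
      refine S.mem_wq.2 ⟨t, h t a c d (by rw [S.conj_iff a f, b, cd_dc (col_lt _ i), e.1]; decide) ?_, a, b⟩
      exact ((S.comm t a x hx).2 (by rw [B_eq_zero, b, h85, cd_dc (col_lt _ i), cd_dc (show 85 < 4096 by omega), e.2])).symm)
    fun a ha b hb c d => by rw [mm_xor _ ha hb, dc_xor]; exact add_mem c d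
  have e := forall_V (f := fun v => bor (bc v 85) (Nat.beq (mm 0x580140120110108204102201100b00a005
    (mm 0x40620610608684002681000e802007800006 v)) v)) (by decide +kernel) (π y)
  have f := B_eq_zero.1 ((S.comm y hy x hx).1 hc.symm)
  rw [h85, cd_dc (show 85 < 4096 by omega)] at f
  rw [bor_eq, f, Bool.false_or] at e
  obtain ⟨t, a, b, c⟩ := S.mem_wq.1 (k _ (mm_vec_lt 0x40620610608684002681000e802007800006 _ (cd_lt (π y))))
  rw [Nat.eq_of_beq_eq_true e, dc_cd, S.π_eq_iff b hy] at c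
  rcases c with rfl | rfl
  exacts [a, mul_mem a hz]

theorem exists_out : ∃ g t, t ∈ Q ∧ t * t = 1 ∧ t ≠ 1 ∧ ¬IsConj z t ∧ g * t * g⁻¹ ∈ C1[z] ∧
    r (g * t * g⁻¹) ∉ K0 := by
  obtain ⟨s, a, b, -, -, c⟩ := S.exists_ty (n := 85) (by omega) (by decide +kernel) (by decide +kernel)
  obtain ⟨g, rfl⟩ := isConj_iff.1 ((S.conj_iff a c).2 (by rw [b]; decide +kernel))
  have P := S.lp a c
  obtain ⟨e, d, f⟩ := exists_e0
  obtain ⟨y, ⟨⟨q, h1, rfl⟩, h2⟩, -, rfl⟩ := S.mem_im.1 ((S.im_R P (S.card_cj g) b).1.ge d)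
  obtain ⟨w, i, j⟩ := P.zS
  change g * w * g⁻¹ = z at j
  have k : ∀ t, Commute t w → g * t * g⁻¹ ∈ C1[z] := fun t h =>
    mem_centralizer_singleton_iff.2 (j ▸ (commute_conj_iff g).2 h)
  obtain ⟨π', r', S', l⟩ := S.exists_twist (x := w) (n := 85) (by omega) ((S.ty_two i
    (isConj_iff.2 ⟨g, j⟩ : IsConj w z).symm fun e => c (by rw [← e]; exact j.trans e.symm)).trans (by decide +kernel))
  by_contra! h
  refine uu_not_mem ((mul_mem_cancel_left (S.mem_pb.1 (S'.gen85 i l (L := (S.pb K0).comap (MulAut.conj g).toMonoidHom)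
    (S.le_pb a) (fun t a b c d e => S.mem_pb.2 ⟨k t e, h g t a b c d (k t e)⟩) h1 ?_)).2).1 f)
  exact (commute_conj_iff g).1 (by rw [j]; exact mem_centralizer_singleton_iff.1 h2)

end LB

/-- The duads. -/
noncomputable def dua {G : Type*} (T : ℕ → G) (a b : GolayPt) : G := T (tv (mask {a, b}))

theorem dua_eq {G : Type*} (T : ℕ → G) {i j n : ℕ} (h : i < 24 ∧ j < 24 ∧ i ≠ j ∧ tv (2 ^ i ^^^ 2 ^ j) = n) :
    dua T (pt i) (pt j) = T n := by
  rw [dua, mask_pair fun e => h.2.2.1 (by rw [← idx_pt h.1, e, idx_pt h.2.1]), idx_pt h.1, idx_pt h.2.1, h.2.2.2]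

theorem dua_comm {G : Type*} (T : ℕ → G) (a b : GolayPt) : dua T a b = dua T b a := by
  rw [dua, dua, Finset.pair_comm]

theorem dua01 {G : Type*} (T : ℕ → G) : dua T (pt 0) (pt 1) = T 1 := dua_eq T (by decide +kernel)
theorem dua02 {G : Type*} (T : ℕ → G) : dua T (pt 0) (pt 2) = T 2 := dua_eq T (by decide +kernel)
theorem dua12 {G : Type*} (T : ℕ → G) : dua T (pt 1) (pt 2) = T 3 := dua_eq T (by decide +kernel)

namespace FS
variable {G : Type*} [Group G] {z : G} {A : Subgroup G} {T : ℕ → G} {μ : N[A] →* M24} (F : FS z A T μ)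
  {a b c d : GolayPt}
include F

theorem cjd (n : N[A]) (h : a ≠ b) : (n : G) * dua T a b * (n : G)⁻¹ = dua T (μ n • a) (μ n • b) := by
  rw [dua, F.conj n _ (by rw [Finset.card_pair h]; decide), Finset.smul_finset_insert, Finset.smul_finset_singleton, dua]

theorem dua_inj (h1 : a ≠ b) (h2 : c ≠ d) (h : dua T a b = dua T c d) : a = c ∧ b = d ∨ a = d ∧ b = c := by
  have := F.co.duad_inj (Finset.card_pair h1) (Finset.card_pair h2) h
  rwa [← Finset.coe_inj, Finset.coe_pair, Finset.coe_pair, Set.pair_eq_pair_iff] at this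

theorem exl {l l' : List GolayPt} (h1 : l.Nodup) (h2 : l'.Nodup) (h3 : l.length = l'.length) (h4 : l.length ≤ 5) :
    ∃ n : N[A], l.map (μ n • ·) = l' := by
  obtain ⟨g, a, b⟩ := trans_tuples (ι := Fin l.length) (by simpa) (List.nodup_iff_injective_get.1 h1)
    ((List.nodup_iff_injective_get.1 h2).comp (Fin.cast_injective h3))
  obtain ⟨n, c⟩ := F.onto ⟨g, a⟩
  exact ⟨n, c ▸ List.ext_getElem (by simpa) fun i d _ => (List.getElem_map _).trans (b ⟨i, by simpa using d⟩)⟩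

theorem comm_dua (n : N[A]) (h : a ≠ b) : Commute (n : G) (dua T a b) ↔
    μ n • a = a ∧ μ n • b = b ∨ μ n • a = b ∧ μ n • b = a := by
  rw [commute_iff_conj, F.cjd n h]
  refine ⟨F.dua_inj (by simpa) h, ?_⟩
  rintro (⟨e, f⟩ | ⟨e, f⟩) <;> rw [e, f]
  exact dua_comm ..

end FS

/-- The stabiliser of two points. -/
def Mf {G : Type*} [Group G] {A : Subgroup G} (μ : N[A] →* M24) : Subgroup G :=
  ((MulAction.stabilizer M24 (pt 0) ⊓ MulAction.stabilizer M24 (pt 1)).comap μ).map N[A].subtype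

theorem mem_Mf {G : Type*} [Group G] {A : Subgroup G} {μ : N[A] →* M24} {g : G} :
    g ∈ Mf μ ↔ ∃ n : N[A], (μ n • pt 0 = pt 0 ∧ μ n • pt 1 = pt 1) ∧ n = g := Iff.rfl

theorem mem_Mf' {G : Type*} [Group G] {A : Subgroup G} {μ : N[A] →* M24} {n : N[A]} :
    (n : G) ∈ Mf μ ↔ μ n • pt 0 = pt 0 ∧ μ n • pt 1 = pt 1 := mem_map_iff_mem (subtype_injective _)

/-- The subgroup of index two. -/
structure UK {G : Type*} [Group G] {A : Subgroup G} (T : ℕ → G) (μ : N[A] →* M24) (K : Subgroup G) : Prop where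
  le : K ≤ C1[T 1]
  two : ∀ a ∈ C1[T 1], ∀ b ∈ C1[T 1], a ∉ K → b ∉ K → a * b ∈ K
  Y : Yg T ≤ K
  M : Mf μ ≤ K
  sw : ∀ n : N[A], μ n • pt 0 = pt 1 → μ n • pt 1 = pt 0 → (n : G) ∉ K

namespace UD

variable {G : Type*} [Group G] [Finite G] {Q : Subgroup G} {z : G} {π : G → V} {r : G → Γ} {S : LB Q z π r}
  {a b c g h k q x y : G} {T : ℕ → G} {μ : N[S.A] →* M24} {σ δ : ℕ → G} {m n : ℕ} (C : UD S x T μ σ δ)
include C

theorem exists_u : ∃ u, u * u = 1 ∧ Commute u (T 1) ∧ ∀ c, Commute c (T 1) → c * u * c⁻¹ ∉ S.A := by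
  obtain ⟨g, t, a, b, c, d, e, f⟩ := S.exists_out
  obtain ⟨h1, h2, -⟩ := C.Tp 1 (by omega)
  obtain ⟨k, -, i⟩ := S.conj_of_ty a h1 (by rw [h2, Ne, ← ty_eq_zero]; decide +kernel)
    (by rw [S.ty_one a b c d, h2]; decide +kernel)
  refine ⟨k * g⁻¹ * z * (k * g⁻¹)⁻¹, by rw [conj_mul, ← C.Tz, C.co.sq]; simp, ?_, fun s j l => f ?_⟩
  · rw [← i, show k * t * k⁻¹ = k * g⁻¹ * (g * t * g⁻¹) * (k * g⁻¹)⁻¹ by group, commute_conj_iff]
    exact (mem_cent1.1 e).symm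
  obtain ⟨n, o, p⟩ := S.fusion (g := s * (k * g⁻¹)) S.z_A (by simpa only [mul_inv_rev, mul_assoc] using l)
  have q : (s * (k * g⁻¹))⁻¹ * n ∈ C1[z] := mem_cent1.2 (commute_iff_conj.2 (by
    rw [mul_assoc _ n, mul_inv_rev _ n, ← mul_assoc, mul_assoc _ (n * z), p]; group))
  have w : n⁻¹ * T 1 * n⁻¹⁻¹ ∈ S.A := conj_mem_of_mem_norm (inv_mem o) (C.mem 1)
  rw [show g * t * g⁻¹ = (s * (k * g⁻¹))⁻¹ * n * (n⁻¹ * T 1 * n⁻¹⁻¹) * ((s * (k * g⁻¹))⁻¹ * n)⁻¹ by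
    rw [show t = k⁻¹ * (s⁻¹ * T 1 * s⁻¹⁻¹) * k by rw [commute_iff_conj.1 j.inv_left, ← i]; group]; group, S.r_conj q (S.A_le w)]
  exact N0_norm (S.memN _ q) (A0_le_K0 (S.r_A w))

theorem Y_into (hY : h ∈ Yg T) (h2 : h * h = 1) : ∃ g ∈ Yg T, g * h * g⁻¹ ∈ S.A := by
  obtain ⟨τ, H, -⟩ := C.exists_UL
  obtain ⟨w, ⟨k, a, b⟩, c⟩ := exists_fix_of_odd (W := {y : Yg T | y.1 ∈ Dg z T}) (s := ⟨h, hY⟩) (by
    rw [H.range_eq, ← Set.image_univ, Set.ncard_image_of_injective _ H.inj, Set.ncard_univ, Nat.card_fin]; decide)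
    (Subtype.ext h2) (H.cj _)
  obtain ⟨g, -, d, e⟩ := C.into_A (h := k⁻¹ * h * k⁻¹⁻¹) (mem_cent1.2 ((commute_conj_iff k).1 (by
    rw [b]; simpa [mul_assoc] using c.map (Yg T).subtype)))
    (mul_mem (mul_mem (inv_mem a) hY) (inv_mem (inv_mem a))) (by rw [conj_mul, h2]; simp)
  exact ⟨_, mul_mem d (inv_mem a), by simpa only [mul_inv_rev, mul_assoc] using e⟩

omit [Finite G] in
theorem Mf_le : Mf μ ≤ C1[T 1] := by
  rintro _ ⟨n, a, rfl⟩
  exact mem_cent1.2 (dua01 T ▸ (C.fs.comm_dua n (by decide)).2 (Or.inl a))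

omit [Finite G] in
theorem fixY {n : N[S.A]} (a : μ n • pt 0 = pt 0 ∧ μ n • pt 1 = pt 1) (b : μ n • pt 2 = pt 2) : (n : G) ∈ Yg T :=
  mem_Yg.2 ⟨dua01 T ▸ (C.fs.comm_dua n (by decide)).2 (Or.inl a),
    dua02 T ▸ (C.fs.comm_dua n (by decide)).2 (Or.inl ⟨a.1, b⟩)⟩

omit [Finite G] in
theorem cjY {n : N[S.A]} {i : GolayPt} (a : μ n • pt 0 = pt 0 ∧ μ n • pt 1 = pt 1) (b : μ n • i = i)
    (c : i ≠ pt 0 ∧ i ≠ pt 1) : ∃ m ∈ Mf μ, m * n * m⁻¹ ∈ Yg T := by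
  obtain ⟨m, e⟩ := C.fs.exl (l := [pt 0, pt 1, i]) (l' := [pt 0, pt 1, pt 2])
    (by simp [c.1.symm, c.2.symm]; decide) (by decide) rfl (by simp)
  simp only [List.map, List.cons.injEq, and_true] at e
  have f := mem_Mf'.2 ⟨e.1, e.2.1⟩
  refine ⟨m, f, C.fixY (n := m * n * m⁻¹) (mem_Mf'.1 (mul_mem (mul_mem f (mem_Mf'.2 a)) (inv_mem f))) ?_⟩
  rw [← e.2.2, ← mul_smul, ← map_mul, inv_mul_cancel_right, map_mul, mul_smul, b]

theorem Mf_into (hM : h ∈ Mf μ) (h2 : h * h = 1) : ∃ c ∈ C1[T 1], c * h * c⁻¹ ∈ S.A := by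
  obtain ⟨n, a, rfl⟩ := hM
  by_cases e : μ n = 1
  · exact ⟨1, one_mem _, by simpa using (C.fs.ker n).1 e⟩
  obtain ⟨k, f⟩ := class2A (orderOf_eq_two (by rw [← map_mul, show n * n = 1 from Subtype.ext h2, map_one]) e)
    fun h => h _ a.1
  obtain ⟨i, b, c⟩ := Finset.exists_mem_notMem_of_card_lt_card (s := {pt 0, pt 1}) (t := fixs (μ n))
    (by rw [f, card_fixs_conj, card_fixs_zA]; decide)
  obtain ⟨m, d, e⟩ := C.cjY a (i := i) (mem_fixs.1 b) (by simpa using c)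
  obtain ⟨g, i, j⟩ := C.Y_into e (by rw [conj_mul, show (n : G) * n = 1 from h2]; simp)
  exact ⟨_, mul_mem (mem_cent1.2 (mem_Yg.1 i).1) (C.Mf_le d), by simpa only [mul_inv_rev, mul_assoc, coe_subtype] using j⟩

theorem odd_idx : ¬2 ∣ (N[S.A] ⊓ C1[T 1]).relIndex C1[T 1] := by
  obtain ⟨P, a, b⟩ := exists_syl_ge Nat.prime_two (isPGroup_of_elem S.A_sq) (M := C1[T 1])
    fun y hy => mem_cent1.2 (commute_of_elem S.A_sq hy (C.mem 1)).eq
  refine fun h => syl_not_dvd Nat.prime_two a (h.trans (relIndex_dvd_of_le_left _ (le_inf (fun p hp => ?_) a.1)))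
  exact conj_eq_self_iff.1 (S.uniq11 (syl_isPGroup Nat.prime_two a) (sq_cj S.A_sq _)
    (by rw [card_conj, S.card_A]) (conj_le_of_mem hp b) S.A_sq S.card_A.ge b)

omit [Finite G] in
theorem cases1 {n : N[S.A]} (h : (n : G) ∈ C1[T 1]) :
    μ n • pt 0 = pt 0 ∧ μ n • pt 1 = pt 1 ∨ μ n • pt 0 = pt 1 ∧ μ n • pt 1 = pt 0 :=
  (C.fs.comm_dua n (by decide)).1 (dua01 T ▸ mem_cent1.1 h)

omit [Finite G] in
theorem exists_sw : ∃ n : N[S.A], μ n • pt 0 = pt 1 ∧ μ n • pt 1 = pt 0 ∧ μ n • pt 2 = pt 2 := by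
  simpa using C.fs.exl (l := [pt 0, pt 1, pt 2]) (l' := [pt 1, pt 0, pt 2]) (by decide) (by decide) rfl (by simp)

omit [Finite G] in
theorem sw_mem {n : N[S.A]} (a : μ n • pt 0 = pt 1) (b : μ n • pt 1 = pt 0) : (n : G) ∈ C1[T 1] :=
  mem_cent1.2 (dua01 T ▸ (C.fs.comm_dua n (by decide)).2 (Or.inr ⟨a, b⟩))

theorem exists_UK : ∃ K, UK T μ K := by
  obtain ⟨u, u1, u2, u3⟩ := C.exists_u
  obtain ⟨n, n1, n2, -⟩ := C.exists_sw
  have p : pt 1 ≠ pt 0 := by decide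
  have i2 : (Mf μ).relIndex (N[S.A] ⊓ C1[T 1]) = 2 := relIndex_eq_two_iff.2 ⟨n, ⟨n.2, C.sw_mem n1 n2⟩, fun b hb => by
    rw [show b * n = (⟨b, hb.1⟩ * n : N[S.A]) from rfl, mem_Mf', mem_Mf' (n := ⟨b, hb.1⟩), map_mul, mul_smul, mul_smul,
      n1, n2]
    rcases C.cases1 (n := ⟨b, hb.1⟩) hb.2 with e | e <;> simp [e.1, e.2, p, p.symm]⟩
  have i3 := relIndex_mul_relIndex (Mf μ) _ C1[T 1] (le_inf (map_subtype_le _) C.Mf_le) inf_le_right
  obtain ⟨χ, e⟩ := exists_sgn (H := (Mf μ).subgroupOf C1[T 1]) (u := ⟨u, mem_cent1.2 u2⟩) (by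
    have := C.odd_idx
    rw [i2] at i3
    change (Mf μ).relIndex _ % 4 = 2
    omega) (Subtype.ext u1) fun g h => by
      obtain ⟨c, a, b⟩ := C.Mf_into h (by simp [mul_assoc, sq_cancel u1])
      exact u3 (c * g⁻¹) (mem_cent1.1 (mul_mem a (inv_mem g.2))) (by simpa [mul_assoc] using b)
  have k : ∀ {g} (h : g ∈ C1[T 1]), g ∈ χ.ker.map C1[T 1].subtype ↔ χ ⟨g, h⟩ = 1 := fun h =>
    mem_map_iff_mem (K := χ.ker) (x := ⟨_, h⟩) (subtype_injective _)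
  have l : Yg T ≤ C1[T 1] := fun y h => mem_cent1.2 (mem_Yg.1 h).1
  have Y : Yg T ≤ χ.ker.map C1[T 1].subtype := fun y h => (k (l h)).2
    (Abelianization.commutator_subset_ker (χ.comp (inclusion l)) (C.quasi.1.1.commutator_eq_top.ge (mem_top ⟨y, h⟩)))
  have two : ∀ a ∈ C1[T 1], ∀ b ∈ C1[T 1], a ∉ χ.ker.map C1[T 1].subtype → b ∉ χ.ker.map C1[T 1].subtype →
      a * b ∈ χ.ker.map C1[T 1].subtype := fun a ha b hb c d => by
    rw [k ha, ← Ne, Int.units_ne_iff_eq_neg] at c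
    rw [k hb, ← Ne, Int.units_ne_iff_eq_neg] at d
    rw [k (mul_mem ha hb), show (⟨a * b, _⟩ : C1[T 1]) = ⟨a, ha⟩ * ⟨b, hb⟩ from rfl, map_mul, c, d]; rfl
  have s : ∀ (m : N[S.A]) (i : GolayPt), (m : G) ∈ Mf μ → μ m • i = i → i ≠ pt 0 ∧ i ≠ pt 1 →
      (m : G) ∈ χ.ker.map C1[T 1].subtype := fun m i a b c => by
    obtain ⟨g, d, f⟩ := C.cjY (mem_Mf'.1 a) b c
    have := (k (l f)).1 (Y f)
    rw [show (⟨_, l f⟩ : C1[T 1]) = ⟨g, C.Mf_le d⟩ * ⟨m, C.Mf_le a⟩ * (⟨g, C.Mf_le d⟩)⁻¹ from rfl, map_mul, map_mul,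
      map_inv, mul_inv_cancel_comm] at this
    exact (k _).2 this
  have M : Mf μ ≤ χ.ker.map C1[T 1].subtype := by
    rintro _ ⟨m, a, rfl⟩
    have b : μ m • pt 2 ≠ pt 0 ∧ μ m • pt 2 ≠ pt 1 :=
      ⟨fun e => absurd (smul_left_cancel _ (e.trans a.1.symm)) (by decide),
        fun e => absurd (smul_left_cancel _ (e.trans a.2.symm)) (by decide)⟩
    obtain ⟨i, -, c⟩ := Finset.exists_mem_notMem_of_card_lt_card (s := {pt 0, pt 1, pt 2, μ m • pt 2})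
      (t := Finset.univ) (Finset.card_le_four.trans_lt (by decide))
    simp only [Finset.mem_insert, Finset.mem_singleton, not_or] at c
    obtain ⟨g, e⟩ := C.fs.exl (l := [pt 0, pt 1, i, μ m • pt 2]) (l' := [pt 0, pt 1, i, pt 2])
      (by simp [c, b, b.1.symm, b.2.symm, Ne.symm c.1, Ne.symm c.2.1, p.symm])
      (by simp [c, Ne.symm c.1, Ne.symm c.2.1]; decide) rfl (by simp)
    simp only [List.map, List.cons.injEq, and_true] at e
    have f := mem_Mf'.2 ⟨e.1, e.2.1⟩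
    exact (mul_mem_cancel_left (s g i f e.2.2.1 ⟨c.1, c.2.1⟩)).1 (s (g * m) (pt 2) (mul_mem f (mem_Mf'.2 a))
      (by rw [map_mul, mul_smul, e.2.2.2]) (by decide))
  refine ⟨_, map_subtype_le _, two, Y, M, fun m a b h => C.odd_idx ?_⟩
  refine (show 2 ∣ (χ.ker.map C1[T 1].subtype).relIndex C1[T 1] from ?_).trans
    (relIndex_dvd_of_le_left _ fun y hy => ?_)
  · refine (relIndex_eq_two_iff.2 ⟨u, mem_cent1.2 u2, fun b hb => ?_⟩).symm.dvd
    have := mt (k (mem_cent1.2 u2)).1 e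
    by_cases f : b ∈ χ.ker.map C1[T 1].subtype
    exacts [Or.inr ⟨f, mt (mul_mem_cancel_left f).1 this⟩, Or.inl ⟨two b hb u (mem_cent1.2 u2) f this, f⟩]
  · rcases C.cases1 (n := ⟨y, hy.1⟩) hy.2 with e | e
    · exact M (mem_Mf'.2 e)
    · exact (mul_mem_cancel_right h).1 (M ((mem_Mf' (n := ⟨y, hy.1⟩ * m)).2
        (by rw [map_mul, mul_smul, mul_smul, a, b]; exact e.symm)))

end UD

end Cfsg.Agent.LF
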