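import Cfsg.Agent.LF.F22a
import Cfsg.Agent.TT2.M22f
import Cfsg.Agent.Fi.Rec22
import Cfsg.Agent.Fi.T3c
import Cfsg.Agent.TC.F22
import Cfsg.Agent.FA.Top

/-! # Groups of large Fischer type: the centraliser `2 · Fi₂₂ · 2` -/

set_option autoImplicit false
set_option maxRecDepth 100000

namespace Cfsg.Agent.LF

open Cfsg.Agent.M24 Cfsg.Agent.GT Cfsg.Agent.TT Cfsg.Agent.TT2 Cfsg.Agent.Cl Subgroup

/-- Automorphisms act on the central quotient. -/
def qAut (L : Type*) [Group L] : MulAut L →* MulAut (L ⧸ center L) :=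
  MonoidHom.mk' (fun φ => QuotientGroup.congr _ _ φ (characteristic_iff_map_eq.1 inferInstance φ))
    fun _ _ => MulEquiv.ext fun x => QuotientGroup.induction_on x fun _ => rfl

theorem qAut_mk {L : Type*} [Group L] (φ : MulAut L) (x : L) : qAut L φ (x : L ⧸ center L) = (φ x : L ⧸ center L) := rfl

theorem cov_qs {L X : Type*} [Group L] [Group X] {p : L →* X} {t : L} (V : Cov p t) [IsSimpleGroup X]
    (hZ : center X = ⊥) (ht : t ∈ commutator L) : IsQuasisimple L ∧ center L = p.ker := by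
  have e : center L = p.ker := le_antisymm (fun c h => mem_bot.1 (hZ.le (mem_center_iff.2 fun x => by
      obtain ⟨y, rfl⟩ := V.surj x
      rw [← map_mul, ← map_mul, mem_center_iff.1 h])))
    fun c h => by
      rcases (V.ker c).1 h with rfl | rfl
      exacts [one_mem _, mem_center_iff.2 fun g => (V.comm g).symm]
  have f : (commutator L).map p = ⊤ := by
    rw [_root_.commutator_def, map_commutator, map_top_of_surjective _ V.surj]
    refine (IsSimpleGroup.eq_bot_or_eq_top_of_normal _ inferInstance).resolve_left fun h => bot_ne_top (hZ.symm.trans ?_)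
    rwa [commutator_eq_bot_iff_le_centralizer, cent_top, top_le_iff] at h
  refine ⟨⟨⟨eq_top_iff.2 fun c _ => ?_⟩, ((QuotientGroup.quotientMulEquivOfEq e).trans
    (QuotientGroup.quotientKerEquivOfSurjective p V.surj)).isSimpleGroup⟩, e⟩
  obtain ⟨y, a, b⟩ := f.ge (mem_top (p c))
  rcases V.eq_iff.1 b.symm with rfl | rfl
  exacts [a, mul_mem ht a]

namespace UD

variable {G : Type*} [Group G] [Finite G] {Q : Subgroup G} {z : G} {π : G → V} {r : G → Γ} {S : LB Q z π r}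
  {a b c g h k q x y : G} {T : ℕ → G} {μ : N[S.A] →* M24} {σ δ : ℕ → G} {m n : ℕ} (C : UD S x T μ σ δ)
  {K : Subgroup G} (U : UK T μ K)
include C U

omit [Finite G] in
theorem K_Y (hk : k ∈ K) (h : k * T 2 * k⁻¹ = T 2 ∨ k * T 2 * k⁻¹ = T 1 * T 2) : k ∈ Yg T := by
  rcases h with h | h
  · exact mem_Yg.2 ⟨mem_cent1.1 (U.le hk), commute_iff_conj.2 h⟩
  obtain ⟨n, a, b, c⟩ := C.exists_sw
  have e := C.fs.cjd n (show pt 0 ≠ pt 2 by decide)
  rw [a, c, dua02, dua12, show T 3 = T 1 * T 2 from C.mul 1 2, ← h] at e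
  refine absurd ((mul_mem_cancel_left (inv_mem hk)).1 (U.Y (mem_Yg.2 ⟨mem_cent1.1
    (mul_mem (inv_mem (U.le hk)) (C.sw_mem a b)), commute_iff_conj.2 ?_⟩))) (U.sw n a b)
  rw [mul_inv_rev, mul_assoc k⁻¹, ← mul_assoc, mul_assoc k⁻¹, e]; group

theorem bar {L X : Type*} [Group L] [Group X] {ι : L →* G} (hι : Function.Injective ι) (hr : ι.range = K)
    {p : L →* X} {t : L} (V : Cov p t) (ht : ι t = T 1) : ∃ d : X, orderOf d = 2 ∧ IsQuasisimple C1[d] ∧
      (∃ _ : ((zpowers d).subgroupOf C1[d]).Normal, Nonempty (C1[d] ⧸ (zpowers d).subgroupOf C1[d] ≃* PSU 6 K4 2)) ∧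
      (∃ g, g * d * g⁻¹ ∈ C1[d] ∧ g * d * g⁻¹ ≠ d) ∧ ∃ l, ι l = T 2 ∧ p l = d := by
  let j := (MonoidHom.ofInjective hι).symm.toMonoidHom.comp (inclusion (U.Y.trans hr.ge))
  have e : ∀ y, ι (j y) = y := fun y => MonoidHom.apply_ofInjective_symm hι _
  have k : ∀ a b, p a = p b ↔ ι a = ι b ∨ ι a = T 1 * ι b := fun a b => by
    rw [V.eq_iff, ← ht, ← map_mul, hι.eq_iff, hι.eq_iff]
  have f : ∀ {a b}, a < 2048 → b < 2048 → T a = T b → a = b := fun a b => C.co.eq a b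
  generalize hd : p (j ⟨T 2, C.TY 2⟩) = d
  have d2 : d * d = 1 := by rw [← hd, ← map_mul, ← map_mul, show _ * _ = (1 : Yg T) from Subtype.ext (C.co.sq 2)]; simp
  have d1 : d ≠ 1 := by
    rw [← hd, ← map_one p, Ne, k, e, map_one, mul_one, ← C.zero]
    rintro (h | h) <;> exact absurd (f (by omega) (by omega) h) (by omega)
  have R : (p.comp j).range = C1[d] := le_antisymm (by
      rintro _ ⟨y, rfl⟩
      exact mem_cent1.2 (hd ▸ Commute.map (show Commute y ⟨T 2, C.TY 2⟩ from Subtype.ext (mem_Yg.1 y.2).2) (p.comp j))) fun x h => by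
    obtain ⟨l, rfl⟩ := V.surj x
    have := commute_iff_conj.1 (mem_cent1.1 h)
    rw [← hd, ← map_inv, ← map_mul, ← map_mul, k, map_mul, map_mul, map_inv, e] at this
    exact ⟨⟨ι l, C.K_Y U (hr.le ⟨l, rfl⟩) this⟩, congrArg p (hι (e _))⟩
  obtain ⟨a, -, ψ, b, c⟩ := C.quasi
  have N : ((zpowers d).subgroupOf C1[d]).Normal :=
    normal_subgroupOf (cent_zpowers d ▸ cent_le_norm _)
  let φ := (QuotientGroup.mk' ((zpowers d).subgroupOf C1[d])).comp ((p.comp j).codRestrict _ fun y => R.le ⟨y, rfl⟩)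
  refine ⟨d, orderOf_eq_two d2 d1, qs_iff.1 ?_, ⟨N, ⟨(QuotientGroup.quotientKerEquivOfSurjective φ
    ((QuotientGroup.mk'_surjective _).comp fun x => ?_)).symm.trans ((QuotientGroup.quotientMulEquivOfEq ?_).trans
      (QuotientGroup.quotientKerEquivOfSurjective ψ b))⟩⟩, ?_, _, e _, hd⟩
  · rw [← R, MonoidHom.range_eq_map]
    exact (qs_top_iff.2 a).map _ (ne_bot_of_mem ⟨_, trivial, hd⟩ d1)
  · exact let ⟨y, h⟩ := R.ge x.2; ⟨y, Subtype.ext h⟩
  · ext y
    rw [c, mem_subgroupOf, C.mem_Eg, MonoidHom.mem_ker]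
    refine (QuotientGroup.eq_one_iff _).trans ((mem_zpowers_of_sq d2).trans ?_)
    change p (j y) = 1 ∨ p (j y) = d ↔ _
    rw [← hd, ← map_one p, k, k, e, e, map_one, mul_one, ← C.zero, ← C.mul]
    constructor
    · rintro ((h | h) | h | h) <;> exact ⟨_, by decide, h.symm⟩
    · rintro ⟨n, h, h'⟩
      interval_cases n <;> simp [← h']
  · obtain ⟨n, h⟩ := C.fs.exl (l := [pt 0, pt 1, pt 2]) (l' := [pt 0, pt 1, pt 3]) (by decide) (by decide) rfl (by simp)
    simp only [List.map, List.cons.injEq, and_true] at h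
    obtain ⟨l, i⟩ := hr.ge (U.M (mem_Mf'.2 ⟨h.1, h.2.1⟩))
    have s := C.fs.cjd n (show pt 0 ≠ pt 2 by decide)
    rw [h.1, h.2.2, dua02, ← i, ← show _ = T 2 from e ⟨T 2, C.TY 2⟩, ← map_inv, ← map_mul, ← map_mul] at s
    refine ⟨p l, ?_, ?_⟩ <;> rw [← hd, ← map_inv, ← map_mul, ← map_mul]
    · exact hd ▸ R.le ⟨⟨_, C.TY _⟩, congrArg p (hι ((e _).trans s.symm))⟩
    · rw [Ne, k, s, e]
      rintro (h | h)
      · exact absurd (C.fs.dua_inj (by decide) (by decide) (h.trans (dua02 T).symm)) (by decide)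
      · exact absurd (C.fs.dua_inj (by decide) (by decide) (h.trans ((dua12 T).trans (C.mul 1 2)).symm)) (by decide)

theorem bar22 {L X : Type*} [Group L] [Group X] {ι : L →* G} (hι : Function.Injective ι) (hr : ι.range = K)
    {p : L →* X} {t : L} (V : Cov p t) (ht : ι t = T 1) : Finite X ∧ ∃ (D : Set X) (β : ℕ → X), Fi.M22 D β := by
  have := Finite.of_injective ι hι
  have := Finite.of_surjective p V.surj
  obtain ⟨d, a, b, ⟨_, ⟨e⟩⟩, ⟨g, c, f⟩, -⟩ := C.bar U hι hr V ht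
  obtain ⟨τ, h⟩ := exists_Dbl a b.1 card_K4 e
  have hn : ∃ g, Commute d (g * d * g⁻¹) ∧ g * d * g⁻¹ ≠ d := ⟨g, (mem_cent1.1 c).symm, f⟩
  exact ⟨this, _, Fi.rec22' (h.class hn).group (h.type22 hn card_K4 e)⟩

theorem K_qs : IsQuasisimple K ∧ Cov (QuotientGroup.mk' (center K)) ⟨T 1, U.Y (C.TY 1)⟩ := by
  have c : ∀ k : K, Commute (⟨T 1, U.Y (C.TY 1)⟩ : K) k := fun k => Subtype.ext (mem_cent1.1 (U.le k.2)).symm
  have s : (⟨T 1, U.Y (C.TY 1)⟩ : K) * ⟨T 1, U.Y (C.TY 1)⟩ = 1 := Subtype.ext (C.co.sq 1)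
  have : (zpowers (⟨T 1, U.Y (C.TY 1)⟩ : K)).Normal := normal_iff_top_le_norm.2 fun k _ =>
    cent_le_norm _ ((cent_zpowers _).ge (mem_cent1.2 (c k).symm))
  have V : Cov (QuotientGroup.mk' (zpowers (⟨T 1, U.Y (C.TY 1)⟩ : K))) ⟨T 1, U.Y (C.TY 1)⟩ :=
    ⟨QuotientGroup.mk'_surjective _, fun _ => (QuotientGroup.eq_one_iff _).trans (mem_zpowers_of_sq s), s,
      fun e => absurd (C.co.inj 1 (by omega) (congrArg Subtype.val e)) (by omega), c⟩
  obtain ⟨_, D, β, h⟩ := C.bar22 U (subtype_injective K) (range_subtype K) V rfl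
  have := h.simple
  obtain ⟨a, b⟩ := cov_qs V h.ctr (map_le_iff_le_comap.1 ((map_commutator ⊤ ⊤ (inclusion U.Y)).le.trans
    (commutator_mono le_top le_top)) (C.quasi.1.1.commutator_eq_top.ge (mem_top ⟨T 1, C.TY 1⟩)))
  exact ⟨a, QuotientGroup.mk'_surjective _, fun k => (QuotientGroup.eq_one_iff _).trans (by rw [b]; exact V.ker k),
    s, V.zne, c⟩

omit [Finite G] C in
theorem _root_.Cfsg.Agent.LF.UK.norm : C1[T 1] ≤ N[K] := le_norm_iff.2 fun a ha k hk => by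
  by_cases h : a ∈ K
  · exact mul_mem (mul_mem h hk) (inv_mem h)
  · exact U.two _ (mul_mem ha (U.le hk)) _ (inv_mem ha) (mt (mul_mem_cancel_right hk).1 h) (mt inv_mem_iff.1 h)

omit [Finite G] in
theorem K_idx : K.relIndex C1[T 1] = 2 := by
  obtain ⟨n, a, b, -⟩ := C.exists_sw
  refine relIndex_eq_two_iff.2 ⟨n, C.sw_mem a b, fun c hc => ?_⟩
  by_cases f : c ∈ K
  exacts [Or.inr ⟨f, mt (mul_mem_cancel_left f).1 (U.sw n a b)⟩, Or.inl ⟨U.two c hc _ (C.sw_mem a b) f (U.sw n a b), f⟩]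

theorem mem_K (hc : c ∈ C1[T 1]) (h : ∀ k ∈ K, c * k * c⁻¹ = k ∨ c * k * c⁻¹ = T 1 * k) : c ∈ K := by
  have e : ∀ a, (a < 2048 ∧ a ≠ 0 ∧ dq a = true) ∧ 1 ^^^ a < 2048 ∧ 1 ^^^ a ≠ 0 ∧ dq (1 ^^^ a) = false →
      Commute c (T a) := fun a ⟨i, j, k, l⟩ => commute_iff_conj.2 ((h _ (U.Y (C.TY a))).resolve_right fun e =>
    (C.T_ncj i).2 ((not_not.1 (mt (C.fs.cls _ j k).1 (by simp [l]))).trans
      (IsConj.symm (isConj_iff.2 ⟨c, by rw [e, C.mul]⟩))))
  refine U.Y (mem_Yg.2 ⟨mem_cent1.1 hc, ?_⟩)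
  rw [show 2 = 497 ^^^ 1502 ^^^ 1069 from rfl, C.mul, C.mul]
  exact ((e _ (by decide +kernel)).mul_right (e _ (by decide +kernel))).mul_right (e _ (by decide +kernel))

theorem K_fstar : fstarOf C1[T 1] = K := by
  have hc : Cmp K C1[T 1] := ⟨qs_iff.2 (C.K_qs U).1, SN.of_norm U.le (U.norm)⟩
  have h3 : C1[T 1] ⊓ C[K] ≤ K := fun c h => C.mem_K U h.1 fun k hk => Or.inl (by rw [← h.2 k hk, mul_inv_cancel_right])
  refine le_antisymm (sup_le (layerOf_le_of_forall fun L hL => ?_) ?_) (hc.le_layerOf.trans le_sup_left)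
  · exact (hL.eq_or_cent hc).elim Eq.le fun e => (le_inf hL.le e).trans h3
  · exact (le_inf (fittingOf_le _) (le_cent_symm hc.le_cent_fittingOf)).trans h3

theorem aut : Nonempty (K ⧸ center K ≃* Spor.Fi22) ∧ Nat.card C1[T 1] = 4 * 64561751654400 ∧
    ∃ α : C1[T 1] →* MulAut (K ⧸ center K), Function.Surjective α ∧ α.ker = (zpowers (T 1)).subgroupOf C1[T 1] ∧
      ∀ (c : C1[T 1]) (k l : K), (c : G) * k * (c : G)⁻¹ = l → α c k = l := by
  have V := (C.K_qs U).2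
  obtain ⟨_, D, β, h⟩ := C.bar22 U (subtype_injective K) (range_subtype K) V rfl
  have e : ((qAut K).comp (K.normalizerMonoidHom.comp (inclusion (U.norm)))).ker =
      (zpowers (T 1)).subgroupOf C1[T 1] := by
    ext c
    rw [mem_subgroupOf, mem_zpowers_of_sq (C.co.sq 1), MonoidHom.mem_ker, MulEquiv.ext_iff]
    have f : (∀ x, qAut K (K.normalizerMonoidHom (inclusion (U.norm) c)) x = x) ↔
        ∀ k ∈ K, (c : G) * k * (c : G)⁻¹ = k ∨ (c : G) * k * (c : G)⁻¹ = T 1 * k := by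
      rw [QuotientGroup.forall_mk, Subtype.forall]
      refine forall₂_congr fun k hk => (V.eq_iff).trans ?_
      rw [Subtype.ext_iff, Subtype.ext_iff]; rfl
    refine f.trans ⟨fun i => ?_, ?_⟩
    · have j := C.mem_K U c.2 i
      simpa only [Subtype.ext_iff, coe_one] using (V.ker ⟨c, j⟩).1 (mem_bot.1 (h.ctr.le (mem_center_iff.2 fun x => by
        obtain ⟨k, rfl⟩ := V.surj x
        rw [eq_comm, ← mul_inv_eq_iff_eq_mul, ← map_inv, ← map_mul, ← map_mul, V.eq_iff, Subtype.ext_iff, Subtype.ext_iff]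
        exact i k k.2)))
    · rintro (i | i) k hk <;> rw [i]
      exacts [Or.inl (by simp), Or.inl (commute_iff_conj.1 (mem_cent1.1 (U.le hk)).symm)]
  have c1 := card_mul_relIndex U.le
  have c2 := V.card
  have c3 := FA.card_aut22 h
  have c4 := ((qAut K).comp (K.normalizerMonoidHom.comp (inclusion (U.norm)))).ker.card_mul_index
  rw [index_ker, e, card_subgroupOf (zpowers_le.2 (self_mem_cent1 _)), Nat.card_zpowers,
    (C.T_ncj (n := 1) (by decide +kernel)).1] at c4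
  rw [C.K_idx U] at c1
  exact ⟨TC.F22.isoFi22 h, by rw [← c1, c2, h.card]; norm_num, _,
    MonoidHom.range_eq_top.1 (eq_top_of_le_card _ (by omega)), e, fun _ _ _ h => congrArg _ (Subtype.ext h)⟩

end UD

end Cfsg.Agent.LF
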