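import Cfsg.Agent.LF.F22b
import Cfsg.Agent.S5377
import Cfsg.Agent.S5402

/-! # Extensions of degree two of groups of large Fischer type: the centraliser `Fi₂₃` -/

set_option autoImplicit false
set_option maxRecDepth 100000

namespace Cfsg.Agent.LF

open Cfsg.Agent.M24 Cfsg.Agent.GT Cfsg.Agent.TT Cfsg.Agent.TT2 Cfsg.Agent.Cl Subgroup

theorem qAut_inj {L : Type*} [Group L] (h : Group.IsPerfect L) : Function.Injective (qAut L) :=
  (injective_iff_map_eq_one _).2 fun φ e => by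
    have k : ∀ x, x⁻¹ * φ x ∈ center L := fun x => QuotientGroup.eq.1 (DFunLike.congr_fun e (x : L ⧸ center L)).symm
    let θ : L →* center L := MonoidHom.mk' (fun x => ⟨_, k x⟩) fun a b => Subtype.ext (by
      change (a * b)⁻¹ * φ (a * b) = a⁻¹ * φ a * (b⁻¹ * φ b)
      rw [← mul_assoc, ← mem_center_iff.1 (k a), map_mul]; group)
    ext x
    let _ : CommGroup (center L) := { (inferInstance : Group (center L)) with
      mul_comm := fun a b => Subtype.ext (mem_center_iff.1 b.2 a) }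
    have : θ x = 1 := Abelianization.commutator_subset_ker θ (h.commutator_eq_top.ge (mem_top x))
    exact (inv_mul_eq_one.1 (congrArg Subtype.val this :)).symm

theorem ccoe {X : Type*} [Group X] {G : Subgroup X} {a b : G} : Commute a b ↔ Commute (a : X) b := Subtype.ext_iff

theorem map_cent1_equiv {G : Type*} [Group G] (φ : MulAut G) (t : G) : C1[t].map φ.toMonoidHom = C1[φ t] := by
  have := map_inf_cent1 (f := φ.toMonoidHom) (A := ⊤) (x := t) φ.injective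
  rwa [top_inf_eq, map_top_of_surjective _ φ.surjective, top_inf_eq] at this

namespace UD

section
variable {G : Type*} [Group G] [Finite G] {Q : Subgroup G} {z : G} {π : G → V} {r : G → Γ} {S : LB Q z π r}
  {a b c g h k q x y : G} {T : ℕ → G} {μ : N[S.A] →* M24} {σ δ : ℕ → G} {m n : ℕ} (C : UD S x T μ σ δ)
  {K : Subgroup G} (U : UK T μ K)
include C U

theorem aut_ncj (φ : MulAut G) : ¬IsConj z (φ (T 1)) := fun h => by
  obtain ⟨g, e⟩ := isConj_iff.1 h
  have := (C.aut U).2.1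
  rw [← card_map_inj (f := φ.toMonoidHom) φ.injective, map_cent1_equiv, ← e, ← conj_cent1, card_conj, S.cardH] at this
  omega

theorem aut_T1 (φ : MulAut G) : ∃ g, g * φ (T 1) * g⁻¹ = T 1 := by
  have s : ∀ a ∈ S.A.map φ.toMonoidHom, a * a = 1 := by
    rintro _ ⟨a, h, rfl⟩
    rw [← map_mul, S.A_sq a h, map_one]
  obtain ⟨g, -, e⟩ := syl_exists_conj_le Nat.prime_two S.syl.2 (isPGroup_of_elem s) le_top
  have f := S.eq_A_of_le (sq_cj s g) (by rw [card_conj, card_map_inj φ.injective, S.card_A]) e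
  obtain ⟨Y, a, b⟩ := C.fs.exists_duad (f.le (conj_mem_conj.2 (mem_map_of_mem _ (C.mem 1))))
    (by simpa using ne_one_of_orderOf (C.T_ncj (n := 1) (by decide +kernel)).1)
    fun h => C.aut_ncj U φ (h.trans (isConj_iff.2 ⟨g, rfl⟩ : IsConj _ _).symm)
  obtain ⟨n, -, c⟩ := C.fs.exists_conj a (Y := {pt 0, pt 1}) (by decide)
  rw [b, show T (tv _) = T 1 from dua01 T] at c
  exact ⟨n * g, by simpa [mul_assoc] using c⟩

theorem aut_K {φ : MulAut G} (h : φ (T 1) = T 1) : ∃ c ∈ C1[T 1], ∀ k ∈ K, φ k = c * k * c⁻¹ := by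
  have e : K.map φ.toMonoidHom = K := by
    rw [← C.K_fstar U, fstarOf_map φ.injective, map_cent1_equiv, h]
  obtain ⟨-, -, α, a, -, b⟩ := C.aut U
  let ψ : MulAut K := (φ.subgroupMap K).trans (MulEquiv.subgroupCongr e)
  obtain ⟨c, d⟩ := a (qAut K ψ)
  have : K.normalizerMonoidHom ⟨c, U.norm c.2⟩ = ψ := qAut_inj (C.K_qs U).1.1 (d ▸ MulEquiv.ext fun x =>
    QuotientGroup.induction_on x fun k => (b c k _ rfl).symm)
  exact ⟨c, c.2, fun k hk => (congrArg Subtype.val (DFunLike.congr_fun this (⟨k, hk⟩ : K)) :).symm⟩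

theorem cent_K (h : ∀ k ∈ K, Commute c k) : c = 1 ∨ c = T 1 := by
  have j := C.mem_K U (mem_cent1.2 (h _ (U.Y (C.TY 1)))) fun k hk => Or.inl (commute_iff_conj.1 (h k hk))
  simpa only [Subtype.ext_iff, coe_one] using ((C.K_qs U).2.ker ⟨c, j⟩).1 ((QuotientGroup.eq_one_iff _).2
    (mem_center_iff.2 fun k => Subtype.ext (h k k.2).symm))

omit U in
theorem cent_Y (h : ∀ k ∈ Yg T, Commute c k) : ∃ n < 4, T n = c :=
  C.mem_Eg.1 (C.quasi.2.1.le (mem_center_iff.2 fun k => Subtype.ext (h k k.2).symm) :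
    (⟨c, mem_Yg.2 ⟨h _ (C.TY 1), h _ (C.TY 2)⟩⟩ : Yg T) ∈ _)

end

variable {X : Type*} [Group X] [Finite X] {G : Subgroup X} {Q : Subgroup G} {z : G} {π : G → V} {r : G → Γ}
  {S : LB Q z π r} {x : G} {T : ℕ → G} {μ : N[S.A] →* M24} {σ δ : ℕ → G} (C : UD S x T μ σ δ)
  {K : Subgroup G} (U : UK T μ K) (h2 : G.index = 2)
include C U h2

theorem exists_e : ∃ e, e ∉ G ∧ ∀ k ∈ K, Commute e k := by
  have := normal_of_index_eq_two h2
  obtain ⟨y, a⟩ : ∃ y, y ∉ G := by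
    by_contra! h
    rw [(eq_top_iff' G).2 h, index_top] at h2
    omega
  obtain ⟨g, b⟩ := C.aut_T1 U (MulAut.conjNormal y)
  obtain ⟨c, -, d⟩ := C.aut_K U (φ := MulAut.conjNormal (g * y)) (Subtype.ext (by
    simpa [mul_assoc] using congrArg Subtype.val b))
  refine ⟨(c : X)⁻¹ * (g * y), by rwa [mul_mem_cancel_left (inv_mem c.2), mul_mem_cancel_left g.2], fun k hk => ?_⟩
  have := congrArg Subtype.val (d k hk)
  rw [commute_iff_conj, mul_inv_rev, mul_assoc, mul_assoc, ← mul_assoc (k : X), ← mul_assoc (g * y : X), ← mul_assoc (g * y : X)]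
  rw [show (g * y : X) * k * (g * y : X)⁻¹ = c * k * (c : X)⁻¹ from this]; group

theorem exists_d : ∃ d, d ∉ G ∧ d * d = 1 ∧ (∀ k ∈ K, Commute d k) ∧
    ∀ n : N[S.A], μ n • pt 0 = pt 0 → Commute d n := by
  obtain ⟨e, a, b⟩ := C.exists_e U h2
  obtain ⟨w, i⟩ := C.fs.exl (l := [pt 0, pt 1, pt 2]) (l' := [pt 0, pt 2, pt 1]) (by decide) (by decide) rfl (by simp)
  simp only [List.map, List.cons.injEq, and_true] at i
  have w1 := C.fs.cjd w (show pt 0 ≠ pt 1 by decide)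
  have w2 := C.fs.cjd w (show pt 0 ≠ pt 2 by decide)
  rw [i.1, i.2.1, dua01, dua02] at w1
  rw [i.1, i.2.2, dua01, dua02] at w2
  have b' : ∀ y : X, (∀ k ∈ K, Commute y k) → ∀ k ∈ cj[(w : G)] K, Commute (w * y * (w : X)⁻¹) k := by
    rintro y h _ ⟨k, hk, rfl⟩
    exact (commute_conj_iff _).2 (h k hk)
  have t1 : ∀ k ∈ K, Commute (T 1 : X) k := fun k hk => (ccoe.1 (mem_cent1.1 (U.le hk))).symm
  have t2 := b' _ t1
  rw [show (w : X) * T 1 * (w : X)⁻¹ = T 2 from congrArg Subtype.val w1] at t2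
  have m : e⁻¹ * (w * e * (w : X)⁻¹) ∈ G := by
    simp [mul_mem_iff_of_index_two h2, a]
  obtain ⟨n, c, f⟩ := C.cent_Y (c := ⟨_, m⟩) fun k hk => ccoe.2 ((b k (U.Y hk)).inv_left.mul_left
    (b' e b k (mem_conj.2 (U.Y (mem_Yg.2 ⟨(commute_conj_iff (w : G)).1 (by simpa [w1, mul_assoc] using (mem_Yg.1 hk).2),
      (commute_conj_iff (w : G)).1 (by simpa [w2, mul_assoc] using (mem_Yg.1 hk).1)⟩)))))
  replace f : (w : X) * e * (w : X)⁻¹ = e * T n := by rw [f]; simp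
  obtain ⟨d, d1, d2, d3⟩ : ∃ d, d ∉ G ∧ (∀ k ∈ K, Commute d k) ∧ ∀ k ∈ cj[(w : G)] K, Commute d k := by
    have s : ∀ j < 2, e * T j ∉ G ∧ ∀ k ∈ K, Commute (e * T j) k := fun j hj =>
      ⟨by rwa [mul_mem_cancel_right (T j).2], fun k hk => (b k hk).mul_left (by
        interval_cases j
        exacts [by rw [C.zero]; exact Commute.one_left _, t1 k hk])⟩
    by_cases h : n < 2
    · exact ⟨_, (s n h).1, (s n h).2, f ▸ b' e b⟩
    · refine ⟨_, (s (n ^^^ 2) (by interval_cases n <;> simp_all)).1, (s _ (by interval_cases n <;> simp_all)).2,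
        fun k hk => ?_⟩
      rw [C.mul, coe_mul, ← mul_assoc, ← f]
      exact (b' e b k hk).mul_left (t2 k hk)
  have p : ∀ n : N[S.A], μ n • pt 0 = pt 0 → μ n • pt 1 ≠ pt 2 → Commute d n := fun n g h => by
    have j : μ n • pt 1 ≠ pt 0 := fun e => absurd (smul_left_cancel _ (e.trans g.symm)) (by decide)
    obtain ⟨v, l⟩ := C.fs.exl (l := [pt 0, pt 2, μ n • pt 1]) (l' := [pt 0, pt 2, pt 1])
      (by simp [h.symm, j.symm]; decide) (by decide) rfl (by simp)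
    simp only [List.map, List.cons.injEq, and_true] at l
    have o := d3 v (mem_conj.2 (U.M ((mem_Mf' (n := w⁻¹ * v * w)).2 (by
      simp only [map_mul, map_inv, mul_smul, i, l, inv_smul_eq_iff, and_self]))))
    simpa using o.inv_right.mul_right (d2 _ (U.M ((mem_Mf' (n := v * n)).2 (by
      simp only [map_mul, mul_smul, g, l, and_self]))))
  refine ⟨d, d1, ?_, d2, fun n g => ?_⟩
  · have m := mul_self_mem_of_index_two h2 d
    rcases C.cent_K U (c := ⟨_, m⟩) fun k hk => ccoe.2 ((d2 k hk).mul_left (d2 k hk)) with h | h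
    · exact congrArg Subtype.val h
    rcases C.cent_K U (c := (w : G)⁻¹ * ⟨_, m⟩ * (w : G)⁻¹⁻¹) fun k hk => (commute_conj_iff (w : G)).1 (ccoe.2 (by
      simpa [mul_assoc] using (d3 _ (conj_mem_conj.2 hk)).mul_left (d3 _ (conj_mem_conj.2 hk)))) with j | j
    · exact congrArg Subtype.val (conj_eq_one_iff.1 j)
    · rw [h] at j
      exact absurd (C.co.eq (a := 2) (b := 1) (by omega) (by omega) (w1.symm.trans
        ((congrArg (fun a => (w : G) * a * (w : G)⁻¹) j).symm.trans (by group)))) (by omega)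
  · by_cases h : μ n • pt 1 = pt 2
    · obtain ⟨v, l⟩ := C.fs.exl (l := [pt 0, pt 1, pt 2]) (l' := [pt 0, pt 1, pt 3]) (by decide) (by decide) rfl (by simp)
      simp only [List.map, List.cons.injEq, and_true] at l
      simpa using (d2 _ (U.M (mem_Mf'.2 ⟨l.1, l.2.1⟩))).inv_right.mul_right (p (v * n)
        (by simp only [map_mul, mul_smul, g, l]) (by simp only [map_mul, mul_smul, h, l]; decide))
    · exact p n g h

end UD

/-- The properties of the outer involution. -/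
structure UX {X : Type*} [Group X] {G : Subgroup X} {A : Subgroup G} (μ : N[A] →* M24) (K : Subgroup G) (d : X) :
    Prop where
  nm : d ∉ G
  sq : d * d = 1
  cK : ∀ k ∈ K, Commute d k
  fx : ∀ n : N[A], Commute d n ↔ μ n • pt 0 = pt 0

namespace UD

variable {X : Type*} [Group X] [Finite X] {G : Subgroup X} {Q : Subgroup G} {z : G} {π : G → V} {r : G → Γ}
  {S : LB Q z π r} {x : G} {T : ℕ → G} {μ : N[S.A] →* M24} {σ δ : ℕ → G} (C : UD S x T μ σ δ)
  {K : Subgroup G} (U : UK T μ K)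
include C U

theorem exists_UX (h2 : G.index = 2) (hq : ∀ y : X, (∀ q ∈ Q, Commute y q) → y ∈ G) : ∃ d, UX μ K d := by
  obtain ⟨d, a, b, c, e⟩ := C.exists_d U h2
  refine ⟨d, a, b, c, fun n => ⟨fun h => by_contra fun f => a (hq d fun q hq => ?_), e n⟩⟩
  let m : N[S.A] := ⟨q, S.norm_A (S.le hq) (by rw [S.r_Q hq]; exact one_mem _)⟩
  by_cases g : μ m • pt 0 = pt 0
  · exact e m g
  obtain ⟨v, l⟩ := C.fs.exl (l := [pt 0, μ n • pt 0]) (l' := [pt 0, μ m • pt 0]) (by simp [Ne.symm f])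
    (by simp [Ne.symm g]) rfl (by simp)
  simp only [List.map, List.cons.injEq, and_true] at l
  simpa [mul_assoc, m] using ((e v l.1).mul_right h).mul_right (e ((v * n)⁻¹ * m) (by
    rw [map_mul, map_inv, mul_smul, inv_smul_eq_iff, map_mul, mul_smul, l.2]))

variable {d : X} (D : UX μ K d)
include D

omit [Finite X] in
theorem mem_K_iff {k : G} : k ∈ K ↔ Commute d k ∧ k ∈ C1[T 1] := by
  refine ⟨fun h => ⟨D.cK k h, U.le h⟩, fun ⟨a, b⟩ => by_contra fun h => ?_⟩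
  obtain ⟨n, c, e, -⟩ := C.exists_sw
  have := a.inv_right.mul_right (D.cK _ (U.two k b n (C.sw_mem c e) h (U.sw n c e)))
  exact absurd (c.symm.trans ((D.fx n).1 (by simpa using this))) (by decide)

theorem main23 : ∃ t : ↥(G ⊓ C1[d]), (t : X) = T 1 ∧ orderOf t = 2 ∧ IsQuasisimple C1[t] ∧
    (∃ _ : ((zpowers t).subgroupOf C1[t]).Normal,
      (∃ E : Set (C1[t] ⧸ (zpowers t).subgroupOf C1[t]), IsThreeTranspositionClass E ∧ IsOfTypeM22 _ E) ∧
      ∃ d' : C1[t] ⧸ (zpowers t).subgroupOf C1[t], orderOf d' = 2 ∧ IsQuasisimple C1[d'] ∧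
        (∃ (F : Type) (_ : Field F) (_ : Fintype F), Fintype.card F = 4 ∧ ∃ _ : ((zpowers d').subgroupOf C1[d']).Normal,
          Nonempty (C1[d'] ⧸ (zpowers d').subgroupOf C1[d'] ≃* PSU 6 F 2)) ∧
        ∃ g, g * d' * g⁻¹ ∈ C1[d'] ∧ g * d' * g⁻¹ ≠ d') ∧
    (∃ g, g * t * g⁻¹ ∈ C1[t] ∧ g * t * g⁻¹ ≠ t) ∧
    IsThreeTranspositionClass (conjugatesOf t) ∧ IsOfTypeM23 ↥(G ⊓ C1[d]) (conjugatesOf t) := by
  let t : ↥(G ⊓ C1[d]) := ⟨T 1, (T 1).2, mem_cent1.2 (D.cK _ (U.Y (C.TY 1))).symm⟩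
  let ι : C1[t] →* G := (inclusion inf_le_left).comp C1[t].subtype
  have i : Function.Injective ι := (inclusion_injective inf_le_left).comp (subtype_injective _)
  have j : ι.range = K := by
    ext k
    rw [C.mem_K_iff U D]
    exact ⟨by
      rintro ⟨l, rfl⟩
      exact ⟨(mem_cent1.1 l.1.2.2).symm, mem_cent1.2 (ccoe.2 (ccoe.1 (mem_cent1.1 l.2) :))⟩, fun h =>
      ⟨⟨⟨k, k.2, mem_cent1.2 h.1.symm⟩, mem_cent1.2 (ccoe.2 (ccoe.1 (mem_cent1.1 h.2) :))⟩, rfl⟩⟩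
  have o : orderOf t = 2 :=
    (orderOf_injective _ (inclusion_injective inf_le_left) t).symm.trans (C.T_ncj (n := 1) (by decide +kernel)).1
  have N : ((zpowers t).subgroupOf C1[t]).Normal := normal_subgroupOf (cent_zpowers t ▸ cent_le_norm _)
  have q : IsQuasisimple C1[t] := qs_top_iff.1 ((qs_map_iff i).1 (by
    rw [← MonoidHom.range_eq_map, j]; exact qs_iff.2 (C.K_qs U).1))
  obtain ⟨d', a, b, ⟨_, ⟨e⟩⟩, c, -⟩ := C.bar U i j (cov_cent o (MulEquiv.refl _)) rfl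
  obtain ⟨w, l⟩ := C.fs.exl (l := [pt 0, pt 1]) (l' := [pt 0, pt 2]) (by decide) (by decide) rfl (by simp)
  simp only [List.map, List.cons.injEq, and_true] at l
  have w1 := C.fs.cjd w (show pt 0 ≠ pt 1 by decide)
  rw [l.1, l.2, dua01, dua02] at w1
  have f : ∃ g, g * t * g⁻¹ ∈ C1[t] ∧ g * t * g⁻¹ ≠ t := ⟨⟨w, w.1.2, mem_cent1.2 ((D.fx w).2 l.1).symm⟩,
    mem_cent1.2 (ccoe.2 (ccoe.1 (w1 ▸ (mem_Yg.1 (C.TY 2)).1 : Commute (w * T 1 * (w : G)⁻¹) _) :)), fun h =>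
      absurd (C.co.eq (a := 2) (b := 1) (by omega) (by omega) (w1.symm.trans (Subtype.ext (congrArg Subtype.val h :))))
        (by omega)⟩
  have g := S5377.result d' a b K4 card_K4 e c
  exact ⟨t, rfl, o, q, ⟨N, ⟨_, g⟩, d', a, b, ⟨K4, _, _, card_K4, _, ⟨e⟩⟩, c⟩, f,
    S5402.result t o q ⟨_, g⟩ ⟨d', a, b, ⟨K4, _, _, card_K4, _, ⟨e⟩⟩, c⟩ f⟩

end UD

theorem mem_of_fstar {X : Type*} [Group X] [Finite X] {G : Subgroup X} {Q : Subgroup G} {z : G} (hz : z ∈ Q)
    (h : (generalizedFittingSubgroup C1[(z : X)]).map (Subgroup.subtype _) = Q.map G.subtype) (y : X)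
    (hy : ∀ q ∈ Q, Commute y q) : y ∈ G := by
  rw [map_subtype_fstar] at h
  refine map_subtype_le Q (h.le (inf_cent_fstarOf_le' _ ⟨mem_cent1.2 (hy z hz), ?_⟩))
  rw [h]
  rintro _ ⟨q, a, rfl⟩
  exact (hy q a).symm

end Cfsg.Agent.LF
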