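import Cfsg.Agent.LF.F24b
import Cfsg.Agent.Ex9.Typ

/-! # Extensions of degree two of groups of large Fischer type are of type `M(24)` -/

set_option autoImplicit false
set_option maxRecDepth 100000

namespace Cfsg.Agent.LF

open Cfsg.Agent.GT Cfsg.Agent.TT Cfsg.Agent.TT2 Subgroup

open Fi in
theorem type24 {G : Type*} [Group G] [Finite G] {D : Set G} {c d e : G} (hC : IsThreeTranspositionClass D)
    (hZ : center G = ⊥) (hd : d ∈ D) (hc : c ∈ D) (hn : ¬Commute d c) (B : Big (perp D d) (perp D d ∩ perp D c))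
    (n : ∀ x ∈ D, Near D d x) (he : e ∈ perp D d) (hg : ∀ g, Commute d g → Commute e g →
      g ∈ closure (perp (perp D d) e) ∨ d * g ∈ closure (perp (perp D d) e)) : IsOfTypeM24 G D := by
  obtain ⟨β, l, m⟩ := B
  have hT := hC.group.t3
  have k := cent_qt hT he (fun h => by
    obtain ⟨g, a, rfl⟩ := l.exists_conj he (p := 3510) (by decide)
    exact absurd ((nc23 l (q := 3511) (by decide)).1 ((commute_conj_iff g).1
      (h _ (l.conj_mem (l.closure_eq ▸ a) _ (l.mem _ (by decide)))))) (by decide)) hg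
  obtain ⟨β2, rfl, B⟩ := exists_base hT hd hc hn (l.change (fun _ h => h) (fun _ h => gv_mem h) low24 l.zero) m
  obtain ⟨β, -, M, -⟩ := tab24.model B (wok24 B) hC hZ (fun β W X => X.eq_of_connected tab24
    ((connected_iff_rtg hd).2 fun b hb => let ⟨e, a, i, j⟩ := n b hb
      (Relation.ReflTransGen.single ⟨hd, a, i⟩).tail ⟨a, hb, j⟩)) hks24 hfix24 inf24 (by norm_num) k
  exact Ex9.typ24 M

theorem UD.main24 {X : Type*} [Group X] [Finite X] {G : Subgroup X} {Q : Subgroup G} {z : G} {π : G → V} {r : G → Γ}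
    {S : LB Q z π r} {x : G} {T : ℕ → G} {μ : N[S.A] →* M24} {σ δ : ℕ → G} (C : UD S x T μ σ δ)
    {K : Subgroup G} (U : UK T μ K) (h2 : G.index = 2) {d : X} (D : UX μ K d)
    (hq : ∀ y : X, (∀ q ∈ Q, Commute y q) → y ∈ G) :
    IsThreeTranspositionClass (conjugatesOf d) ∧ IsOfTypeM24 X (conjugatesOf d) := by
  obtain ⟨⟨β, L⟩, hc⟩ := C.loc23 U h2 D
  have h := loc24 D.sq L
  have hd : d ∈ conjugatesOf d := IsConj.refl d
  obtain ⟨y, a, b, e, c, f, i, j, k⟩ := C.quad U h2 D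
  obtain ⟨γ, M⟩ := h.loc y a
  have B := fun x hx w hw hn e he => h.big hd a b c (big_of M (h.p3 hd a b c) c i j k) (x := x) (y := w) (e := e) hx hw hn he
  have he : d * T 1 ∈ Fi.perp (conjugatesOf d) d := (C.mem_perp U h2 D).2 ⟨1, by simp, by simp⟩
  obtain ⟨n, hC⟩ := h.cls (h.lc3 B) hd (C.stab_top U h2 D fun _ h => h) he hc
  refine ⟨hC, type24 hC (eq_bot_iff.2 fun g hg => ?_) hd a b (B y a d hd (mt .symm b) e c.symm) n he hc⟩
  have l := mem_center_iff.1 hg
  have m := hq g fun q _ => (l q).symm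
  obtain ⟨s, -, o⟩ := S.wc
  refine congrArg Subtype.val ((S.cent ⟨g, m⟩ (S.cQ fun q _ => Subtype.ext (l q)) fun q _ =>
    ccoe.2 (l q).symm).resolve_right fun p => o ?_)
  rw [← p]
  exact commute_iff_conj.1 (ccoe.2 (l s))

end Cfsg.Agent.LF
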