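import Cfsg.Agent.LF.F23

/-! # Groups of large Fischer type: involutions and generation -/

set_option autoImplicit false
set_option maxRecDepth 100000

namespace Cfsg.Agent.LF

open Cfsg.Agent.M24 Cfsg.Agent.GT Cfsg.Agent.TT Cfsg.Agent.TT2 Cfsg.Agent.Cl Subgroup

namespace LB

variable {G : Type*} [Group G] [Finite G] {Q : Subgroup G} {z : G} {π : G → V} {r : G → Γ} (S : LB Q z π r)
  {L : Subgroup G} (hL : S.A ≤ L) {g s : G}
include S hL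

theorem into_N (hs : s ∈ L) (h2 : s * s = 1) : ∃ c ∈ L, c * s * c⁻¹ ∈ N[S.A] := by
  obtain ⟨P, a, b⟩ := exists_syl_ge Nat.prime_two (isPGroup_of_elem S.A_sq) hL
  obtain ⟨c, d, e⟩ := syl_exists_conj_le Nat.prime_two a (isPGroup_zpowers (x := s) (n := 1) (by rwa [pow_one, pow_two]))
    (zpowers_le.2 hs)
  exact ⟨c, d, conj_eq_self_iff.1 (S.uniq11 (syl_isPGroup Nat.prime_two a) (sq_cj S.A_sq _) (by rw [card_conj, S.card_A])
    (conj_le_of_mem (e (conj_mem_conj.2 (mem_zpowers s))) b) S.A_sq S.card_A.ge b)⟩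

theorem fus (hg : cj[g] S.A ≤ L) : ∃ c ∈ L, c * g ∈ N[S.A] := by
  obtain ⟨P, a, b⟩ := exists_syl_ge Nat.prime_two (isPGroup_of_elem S.A_sq) hL
  obtain ⟨c, d, e⟩ := syl_exists_conj_le Nat.prime_two a (isPGroup_of_elem (sq_cj S.A_sq g)) hg
  exact ⟨c, d, conj_eq_self_iff.1 (S.uniq11 (syl_isPGroup Nat.prime_two a) (sq_cj S.A_sq _)
    (by rw [card_conj, S.card_A]) (mul_conj c g _ ▸ e) S.A_sq S.card_A.ge b)⟩

end LB

namespace UD

variable {G : Type*} [Group G] [Finite G] {Q : Subgroup G} {z : G} {π : G → V} {r : G → Γ} {S : LB Q z π r}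
  {a b c g h k q s x y : G} {T : ℕ → G} {μ : N[S.A] →* M24} {σ δ : ℕ → G} (C : UD S x T μ σ δ)
include C

theorem A_le1 : S.A ≤ C1[T 1] := fun _ hy => mem_cent1.2 (commute_of_elem S.A_sq hy (C.mem 1)).eq

theorem Q_into (hs : s ∈ Q) (h2 : s * s = 1) : ∃ c ∈ C1[z], c * s * c⁻¹ ∈ S.A := by
  by_cases e : s = 1 ∨ s = z
  · exact ⟨1, one_mem _, by rcases e with rfl | rfl <;> simp [S.z_A]⟩
  obtain ⟨n, a, b⟩ : ∃ n < 64, ty (cd (π s)) = ty (pl n) ∧ ty (pl n) ≠ 0 := by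
    rcases S.ty_cases hs h2 (not_or.1 e).1 (not_or.1 e).2 with f | f <;> rw [f]
    exacts [⟨1, by decide +kernel⟩, ⟨5, by decide +kernel⟩]
  obtain ⟨c, d, -⟩ := C.Tp n a
  obtain ⟨k, i, j⟩ := S.conj_of_ty hs c (by rw [Ne, ← ty_eq_zero, d, cd_pl]; exact b.2) (by rw [d, cd_pl, b.1])
  exact ⟨k, i, j ▸ C.mem n⟩

theorem exists_2B : ∃ q : N[S.A], (q : G) ∈ Q ∧ π q = dc 278 ∧ orderOf (μ q) = 2 ∧ ∀ p : GolayPt, μ q • p ≠ p := by
  obtain ⟨q, a, b⟩ := S.surj (dc 278)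
  let m : N[S.A] := ⟨q, S.norm_A (S.le a) (by rw [S.r_Q a]; exact one_mem _)⟩
  have c : ∀ p : GolayPt, μ m • p ≠ p := fun p e => by
    obtain ⟨j, h1, h2, h3⟩ := (by decide +kernel : ∀ i < 24, ∃ j < 24, i ≠ j ∧ ∀ k < 24, actv 278 (tv (2 ^ i ^^^ 2 ^ j)) < 2048 ∧
      actv 278 (tv (2 ^ i ^^^ 2 ^ j)) ≠ tv (2 ^ i ^^^ 2 ^ k)) (idx p) (idx_lt p)
    have f : p ≠ pt j := fun f => h2 (by rw [f, idx_pt h1])
    have := C.fs.cjd m f
    rw [e, dua, dua, mask_pair f, mask_pair fun g => f (smul_left_cancel _ (e.trans g)), idx_pt h1,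
      C.conj_Q a (tv_lt _), b, cd_dc (by omega)] at this
    exact (h3 _ (idx_lt _)).2 (C.co.eq (h3 0 (by omega)).1 (tv_lt _) this)
  refine ⟨m, a, b, orderOf_eq_two ?_ fun e => c none (by rw [e, one_smul]), c⟩
  rw [← map_mul, show m * m = 1 from Subtype.ext ((S.sq' q a).2 (by rw [b]; decide +kernel)), map_one]

variable {L : Subgroup G} (h1 : C1[z] ≤ L) (h2 : N[S.A] ≤ L) (h3 : C1[T 1] ≤ L)
include h1 h2 h3

theorem N_into (n : N[S.A]) (hn : n * n = 1) : ∃ l ∈ L, l * n * l⁻¹ ∈ S.A := by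
  by_cases e : μ n = 1
  · exact ⟨1, one_mem _, by simpa using (C.fs.ker n).1 e⟩
  have o := orderOf_eq_two (by rw [← map_mul, hn, map_one]) e
  have s : ∀ m : N[S.A], (m : G) * n * (m : G)⁻¹ * (m * n * (m : G)⁻¹) = 1 := fun m => conj_mul_self _ (congrArg Subtype.val hn)
  by_cases f : ∀ p, (μ n : Equiv.Perm GolayPt) p ≠ p
  · obtain ⟨q, a, b, c, d⟩ := C.exists_2B
    obtain ⟨k, i⟩ := class2B o f
    obtain ⟨l, j⟩ := class2B c d
    obtain ⟨m, u⟩ := C.fs.onto (l * k⁻¹)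
    have v : (q : G)⁻¹ * (m * n * (m : G)⁻¹) ∈ S.A := (C.fs.ker (q⁻¹ * (m * n * m⁻¹))).1 (by
      rw [map_mul, map_mul, map_mul, map_inv, map_inv, u, i, j]; group)
    specialize s m
    generalize w : (m : G) * n * (m : G)⁻¹ = t at s v
    obtain ⟨c, c1, c2⟩ := exists_ag (S.r_A v)
    have c3 := S.act _ (S.A_le v) _ a
    rw [c2, show (q : G)⁻¹ * t * q * ((q : G)⁻¹ * t)⁻¹ = (q : G)⁻¹ by
      rw [inv_eq_of_mul_eq_one_right (S.A_sq _ v), mul_assoc, mul_inv_cancel_left, mul_assoc, s, mul_one],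
      S.π_inv a, b] at c3
    obtain rfl := (by decide +kernel : ∀ c < 16, mm (lget lA one c) 278 = 278 → c = 0) c c1 (by
      rw [← code_ag c1, ← cd_dc (n := 278) (by omega), mm_code, ← c3])
    rw [ag_zero, S.r_eq_one (S.A_le v), mul_mem_cancel_left (inv_mem a)] at c2
    obtain ⟨c, c4, c5⟩ := C.Q_into c2 s
    exact ⟨c * m, mul_mem (h1 c4) (h2 m.2), by simpa only [← w, mul_inv_rev, mul_assoc] using c5⟩
  obtain ⟨k, i⟩ := class2A o f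
  obtain ⟨a, b, c, d, e⟩ := Finset.one_lt_card_iff.1 (show 1 < (fixs (μ n)).card by
    rw [i, card_fixs_conj, card_fixs_zA]; decide)
  obtain ⟨m, u⟩ := C.fs.exl (l := [a, b]) (l' := [pt 0, pt 1]) (by simpa) (by decide) rfl (by simp)
  simp only [List.map, List.cons.injEq, and_true] at u
  obtain ⟨c, i, j⟩ := C.Mf_into ((mem_Mf' (n := m * n * m⁻¹)).2 (by
    rw [← u.1, ← u.2, ← mul_smul, ← mul_smul, ← map_mul, inv_mul_cancel_right, map_mul, mul_smul, mul_smul]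
    exact ⟨congrArg _ (mem_fixs.1 c), congrArg _ (mem_fixs.1 d)⟩)) (s m)
  exact ⟨c * m, mul_mem (h3 i) (h2 m.2), by simpa [mul_assoc] using j⟩

theorem inv_rep {M : Subgroup G} (h4 : S.A ≤ M) (h5 : M ≤ L) (hs : s ∈ M) (h : s * s = 1) (h0 : s ≠ 1) :
    ∃ l ∈ L, l * s * l⁻¹ = z ∨ l * s * l⁻¹ = T 1 := by
  obtain ⟨c, a, b⟩ := S.into_N h4 hs h
  obtain ⟨l, d, e⟩ := C.N_into h1 h2 h3 ⟨_, b⟩ (Subtype.ext (conj_mul_self c h))
  have f := mul_mem d (h5 a)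
  replace e : l * c * s * (l * c)⁻¹ ∈ S.A := by simpa only [mul_inv_rev, mul_assoc] using e
  generalize l * c = g at e f
  by_cases i : IsConj z (g * s * g⁻¹)
  · obtain ⟨k, j⟩ := isConj_iff.1 i.symm
    obtain ⟨n, o, p⟩ := S.fusion (g := k) e (by rw [j]; exact S.z_A)
    exact ⟨n * g, mul_mem (h2 o) f, .inl ((by group : _ = _).trans (p.trans j))⟩
  obtain ⟨Y, j, k⟩ := C.fs.exists_duad e (by simpa) i
  obtain ⟨n, -, o⟩ := C.fs.exists_conj j (Y := {pt 0, pt 1}) (by decide)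
  rw [k, show T (tv _) = T 1 from dua01 T] at o
  exact ⟨n * g, mul_mem (h2 n.2) f, .inr (by rw [← o]; group)⟩

theorem eq_top : L = ⊤ := eq_top_iff.2 fun g _ => by
  obtain ⟨o, a⟩ := C.T_ncj (n := 1) (by decide +kernel)
  have zz : z * z = 1 := S.A_sq _ S.z_A
  have tt := conj_mul_self g (C.co.sq 1)
  have k : ∀ l ∈ L, l * (g * T 1 * g⁻¹) * l⁻¹ ∈ C1[z] ∨ l * (g * T 1 * g⁻¹) * l⁻¹ ∈ C1[T 1] → g ∈ L := fun l b c => by
    obtain ⟨m, d, e⟩ : ∃ m ∈ L, m * (l * (g * T 1 * g⁻¹) * l⁻¹) * m⁻¹ = z ∨ m * (l * (g * T 1 * g⁻¹) * l⁻¹) * m⁻¹ = T 1 :=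
      c.elim (fun c => C.inv_rep h1 h2 h3 S.A_le h1 c (conj_mul_self l tt) (by simpa using ne_one_of_orderOf o))
        fun c => C.inv_rep h1 h2 h3 C.A_le1 h3 c (conj_mul_self l tt) (by simpa using ne_one_of_orderOf o)
    rw [show m * (l * (g * T 1 * g⁻¹) * l⁻¹) * m⁻¹ = m * l * g * T 1 * (m * l * g)⁻¹ by group] at e
    exact (mul_mem_cancel_left (mul_mem d b)).1 (h3 (mem_cent1.2 (commute_iff_conj.2
      (e.resolve_left fun e => a (isConj_iff.2 ⟨_, e⟩ : IsConj _ _).symm))))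
  obtain ⟨m, -, b, c, d, e⟩ := exists_central_of_even zz tt (Nat.not_odd_iff_even.1 fun h => by
    obtain ⟨k, e⟩ := conj_of_odd zz tt h (pow_orderOf_eq_one _)
    exact a (isConj_iff.2 ⟨((z * (g * T 1 * g⁻¹)) ^ k)⁻¹ * g, (by group : _ = _).trans e⟩ : IsConj _ _).symm)
  obtain ⟨l, i, j⟩ := C.inv_rep h1 h2 h3 S.A_le h1 (mem_cent1.2 d.symm) c b
  have := (commute_conj_iff l).2 e
  exact k l i (j.imp (fun j => mem_cent1.2 (by rwa [j] at this)) fun j => mem_cent1.2 (by rwa [j] at this))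

omit h1 h2 h3

omit [Finite G] in
theorem sext {i j k l : ℕ} (h : [pt i, pt j, pt k, pt l].Nodup ∧ ∃ m n, m ^^^ n = 1024 ∧
    (i < 24 ∧ j < 24 ∧ i ≠ j ∧ tv (2 ^ i ^^^ 2 ^ j) = m) ∧ k < 24 ∧ l < 24 ∧ k ≠ l ∧ tv (2 ^ k ^^^ 2 ^ l) = n) :
    ∃ n : N[S.A], (n : G) ∈ C1[z] ∧ μ n • pt 0 = pt i ∧ μ n • pt 1 = pt j := by
  obtain ⟨n, e⟩ := C.fs.exl (l := [pt 0, pt 1, pt 2, pt 12]) (by decide) h.1 rfl (by simp)
  simp only [List.map, List.cons.injEq, and_true] at e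
  obtain ⟨-, m, p, a, b, c⟩ := h
  refine ⟨n, mem_cent1.2 (commute_iff_conj.2 (C.Tz ▸ (?_ : (n : G) * T 1024 * (n : G)⁻¹ = T 1024) :)), e.1, e.2.1⟩
  rw [show T 1024 = dua T (pt 0) (pt 1) * dua T (pt 2) (pt 12) by
    rw [dua01, dua_eq T (n := 1025) (by decide +kernel), ← C.mul]; rfl, ← conj_mul, C.fs.cjd n (by decide),
    C.fs.cjd n (by decide), e.1, e.2.1, e.2.2.1, e.2.2.2, dua_eq T b, dua_eq T c, dua01,
    dua_eq T (n := 1025) (by decide +kernel), ← C.mul, ← C.mul, a]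
  rfl

omit [Finite G] in
theorem sext' (p : GolayPt) : ∃ n : N[S.A], (n : G) ∈ C1[z] ∧ μ n • pt 0 = p := by
  let t := apw 5 31 0x92d149c60e4da71b52375a2d49d5c9698b5825e628820bc90720eb075e4b5106f695ed328e351c8c0818203041
  obtain ⟨a, b, c, d, e, f, g⟩ := (by decide +kernel : ∀ i < 24, [pt i, pt (t (3 * i)), pt (t (3 * i + 1)),
    pt (t (3 * i + 2))].Nodup ∧ tv (2 ^ i ^^^ 2 ^ t (3 * i)) ^^^ tv (2 ^ t (3 * i + 1) ^^^ 2 ^ t (3 * i + 2)) = 1024 ∧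
      t (3 * i) < 24 ∧ i ≠ t (3 * i) ∧ t (3 * i + 1) < 24 ∧ t (3 * i + 2) < 24 ∧ t (3 * i + 1) ≠ t (3 * i + 2)) _ (idx_lt p)
  obtain ⟨n, i, j, -⟩ := C.sext ⟨a, _, _, b, ⟨idx_lt p, c, d, rfl⟩, e, f, g, rfl⟩
  exact ⟨n, i, by rw [j, pt_idx]⟩

theorem K_into {K : Subgroup G} (U : UK T μ K) (hk : k ∈ K) (h : k * k = 1) : ∃ c ∈ K, c * k * c⁻¹ ∈ S.A := by
  obtain ⟨n, n1, n2, -⟩ := C.exists_sw
  have f : ∀ c ∈ C1[T 1], ∃ m : N[S.A], m * c ∈ K := fun c hc => by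
    by_cases e : c ∈ K
    exacts [⟨1, by simpa⟩, ⟨n, U.two _ (C.sw_mem n1 n2) _ hc (U.sw n n1 n2) e⟩]
  obtain ⟨c, a, b⟩ := S.into_N C.A_le1 (U.le hk) h
  obtain ⟨m, d⟩ := f c a
  have e : m * c * k * (m * c)⁻¹ ∈ N[S.A] := by
    simpa only [mul_inv_rev, mul_assoc] using mul_mem (mul_mem m.2 b) (inv_mem m.2)
  have i := mul_mem (mul_mem d hk) (inv_mem d)
  obtain ⟨g, j, l⟩ := C.Mf_into ((mem_Mf' (n := ⟨_, e⟩)).2 ((C.cases1 (n := ⟨_, e⟩) (U.le i)).resolve_right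
    fun o => U.sw _ o.1 o.2 i)) (conj_mul_self _ h)
  obtain ⟨p, o⟩ := f g j
  exact ⟨_, mul_mem o d, by simpa only [mul_inv_rev, mul_assoc] using conj_mem_of_mem_norm p.2 l⟩

end UD

end Cfsg.Agent.LF
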