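import Cfsg.Agent.Fi.LcE
import Cfsg.Agent.Fi.Rec3
import Cfsg.Agent.TT2.Near2

/-! # Classes of involutions which are locally of type `M(23)` -/

set_option autoImplicit false
set_option maxRecDepth 100000
set_option Elab.async false

namespace Cfsg.Agent.LF

open Cfsg.Agent.TT Cfsg.Agent.TT2 Cfsg.Agent.Fi Subgroup

variable {G : Type*} [Group G] {D E Δ : Set G} {β : ℕ → G} {a b c d e g w x y : G}

theorem card_dvd_of_free [Finite G] {R : Subgroup G} (h1 : ∀ q ∈ R, ∀ w ∈ E, q * w * q⁻¹ ∈ E)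
    (h2 : ∀ q ∈ R, ∀ w ∈ E, Commute q w → q = 1) : Nat.card R ∣ E.ncard := by
  let _ : MulAction R E :=
    { smul := fun g y => ⟨g * y * (g : G)⁻¹, h1 g g.2 y y.2⟩
      one_smul := fun y => Subtype.ext (by change 1 * (y : G) * 1⁻¹ = y; simp)
      mul_smul := fun g g' y => Subtype.ext (by
        change (g * g' : G) * y * (g * g' : G)⁻¹ = g * (g' * y * (g' : G)⁻¹) * (g : G)⁻¹; group) }
  rw [← Nat.card_coe_set_eq, Nat.card_congr (MulAction.selfEquivOrbitsQuotientProd (G := R) (X := E) fun b => eq_bot_iff.2 fun q h =>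
    Subtype.ext (h2 q q.2 b b.2 (commute_iff_conj.2 (congrArg Subtype.val h)))), Nat.card_prod]
  exact dvd_mul_left ..

theorem nc23 (h : Lab R23 fs23 31671 E β) {q : ℕ} (hq : q < 31671) : Commute (β 3510) (β q) ↔ q ≤ 3510 := by
  rw [show β 3510 = β (gp 10) from rfl, h.comm_iff (by decide) hq, fix23 q hq]

theorem rank3 (h : Lab R23 fs23 31671 E β) (ha : a ∈ E) (hb : b ∈ E) (hn : ¬Commute a b) :
    ∃ g, g * a * g⁻¹ = β 3510 ∧ g * b * g⁻¹ = β 3511 := by
  obtain ⟨g, i, rfl⟩ := h.exists_conj ha (p := 3510) (by decide)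
  obtain ⟨q, hq, e⟩ := h.surj _ (h.conj_mem (h.closure_eq ▸ inv_mem i) b hb)
  rw [commute_conj_left, ← e, nc23 h hq] at hn
  obtain ⟨k, c, f⟩ := tree_ind (Pr := fun q => ∃ k, Commute k (β 3510) ∧ k * β q * k⁻¹ = β 3511) tr23_all
    (fun i hi q (h2 : 3511 ≤ q) hq => by
      have j := (by decide : ∀ i ∈ gs23, i ∈ fs23) i hi
      have c := (h.comm_iff j (by decide)).2 ((by decide +kernel : ∀ i ∈ gs23, pt (R23 i 3510) = 3510) i hi)
      have s := h.inv (h.gpl i j)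
      rw [← R23_hi hi h2]
      refine ⟨by_contra fun (k : ¬3511 ≤ _) => ?_, fun ⟨k, l, m⟩ => ⟨_, l.mul_left c, ?_⟩⟩
      · have := (nc23 h (h.act i j q hq).1).2 (by omega)
        rw [(h.act i j q hq).2, ← commute_iff_conj.1 c] at this
        nth_rw 4 [← s] at this
        rw [commute_conj_iff, nc23 h hq] at this
        omega
      · rw [← m, (h.act i j q hq).2, mul_inv_rev, s]; group)
    ⟨1, Commute.one_left _, by simp⟩ q (show 3511 ≤ q by omega) hq
  exact ⟨k * g⁻¹, by simpa [mul_assoc] using commute_iff_conj.1 c, by rw [← f, e]; group⟩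

theorem cube23 (h : Lab R23 fs23 31671 E β) (ha : a ∈ E) (hb : b ∈ E) : Commute a b ∨ (a * b) ^ 3 = 1 :=
  or_iff_not_imp_left.2 fun hn => by
    obtain ⟨g, e, f⟩ := rank3 h ha hb hn
    have := (h.act 10 (by decide) 3511 (by decide)).2.symm.trans
      ((congrArg β (by decide +kernel)).trans (h.act 11 (by decide) 3510 (by decide)).2)
    replace this := cube_of_braid (h.sq _ (by decide)) (h.sq _ (by decide)) this
    rwa [show β (gp 10) = _ from e.symm, ← f, conj_mul, conj_pow, conj_eq_one_iff] at this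

theorem cjs_self (h : ∀ a ∈ Δ, g * a * g ∈ Δ) (hg : g * g = 1) : cjs g Δ = Δ :=
  Set.ext fun y => ⟨fun k => by simpa [mul_assoc, inv_of_sq hg, sq_cancel hg, hg] using h _ k,
    fun k => by simpa [cjs, inv_of_sq hg] using h y k⟩

theorem ncard_cjs : (cjs g E).ncard = E.ncard := by
  rw [cjs_eq_image, Set.ncard_image_of_injective _ fun _ _ => (conj_inj_iff g).1]

theorem reps13 {q : ℕ} (hq : q < 31671) : bse tbE13 q ∈ [22758, 3511, 10, 3510, 3532, 693] := by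
  have c := finE13_chk q (Nat.zero_le _) hq
  unfold finChk at c
  beta_reduce at c
  revert c
  cases Nat.beq (pt (R24 13 q)) q
  exacts [fun c => List.mem_append_right [_, _, _, _] (lmem_iff.1 c), fun c => List.mem_append_left [_, _] (lmem_iff.1 c)]

/-- The subspace has 3240 points. -/
def Big (E Δ : Set G) : Prop := ∃ β, Lab R23 fs23 31671 E β ∧ ∀ p < 31671, (β p ∈ Δ ↔ pt (R24 13 p) = p)

theorem big_of (h : Lab R23 fs23 31671 E β) (hP : P3 E Δ) (hx : x ∈ Δ) (hy : y ∈ Δ) (hn : ¬Commute x y)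
    (hc : (perp Δ x ∩ perp Δ y).ncard ≠ 108) : Big E Δ := by
  obtain ⟨β0, j0, rfl⟩ := h.exists_cj (hP.sub hx) (p := 3510) (by decide)
  have l := res23 (j0.lab h)
  obtain ⟨β, j1, k⟩ := CD' l (hP.loc _ hx)
  replace h := (j0.trans (j1.mono (closure_mono Fi.perp_sub))).lab h
  have e : ∀ p < 3510, (β p ∈ Δ ↔ β p ∈ perp Δ (β0 3510)) := fun p hp =>
    ⟨fun a => ⟨a, ((j1.lab l).mem p hp).2⟩, fun a => a.1⟩
  rw [← j1.fix] at hx hn hc
  replace k := k.resolve_left fun k => CE11 h hP hx fun p hp => (e p hp).trans (k p hp)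
  replace k := fun p hp => (e p hp).trans (k p hp)
  have hm := memE hx k (l := (gtr [0, 1, 2, 3, 4, 5, 6, 9, 10]).map (·.2.2)) (by decide +kernel)
  have ho := orb_mem h hP.star (h.wds (by decide +kernel) hm) orbE13
  have o : β 693 ∉ Δ := by rw [k 693 (by decide)]; decide +kernel
  have b1 := badW h hP.star ho o (b := 3532) [1, 2, 3, 4, 9, 8, 11] 0 3637 (by decide +kernel)
  have u : β 3511 ∈ Δ := by
    by_contra u
    exact cntE h hP ho ((k 2 (by decide)).2 (by decide +kernel))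
      ((k 37 (by decide)).2 (by decide +kernel)) ((k 46 (by decide)).2 (by decide +kernel))
      (by simp [o, b1, u]) cntE13_chk (by decide)
  have u10 := (k 10 (by decide)).2 (by decide +kernel)
  have u' : β 22758 ∈ Δ := by
    by_contra u'
    obtain ⟨q, hq, rfl⟩ := h.surj y (hP.sub hy)
    refine ((orb_sound (Pr := fun q => Commute (β 3510) (β q) ∨ (perp Δ (β 3510) ∩ perp Δ (β q)).ncard = 108)
      (fun w hw q hq => ?_) orbE13 q hq).2 ?_).elim hn hc
    · obtain ⟨b, w1, w2, w3⟩ := h.wds (Q := fun b => β b ∈ Δ ∧ b ≤ 3510) (by decide +kernel)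
        (fun b hb => ⟨hm b hb, by revert b; decide +kernel⟩) w hw
      have s := h.sq b w1.1
      refine ⟨(w1.2 q hq).1, ?_⟩
      rw [(w1.2 q hq).2]
      nth_rw 2 4 [← inv_of_sq s]
      nth_rw 1 2 [← commute_iff_conj.1 ((nc23 h w1.1).2 w3).symm]
      nth_rw 1 2 [← cjs_self (hP.star _ w2) s]
      rw [commute_conj_iff, perp_cjs, perp_cjs, ← cjs_inter, ncard_cjs]
      exact id
    · have := reps13 hq
      rw [ho q hq] at hy
      simp only [List.mem_cons, List.not_mem_nil, or_false] at this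
      rcases this with e | e | e | e | e | e <;> rw [e] at hy ⊢
      exacts [absurd hy u', .inr (((res23 h).ncard (T := perp Δ (β 3510) ∩ perp Δ (β 3511)) (m := fun p => pt (R24 13 p) = p ∧ pt (R23 11 p) = p)
        (fun a ha => ⟨hP.sub ha.1.1, ha.1.2⟩) fun p hp => ⟨fun a => ⟨(k p hp).1 a.1.1,
          (h.comm_iff (i := 11) (by decide) (by omega)).1 a.2.2.2⟩, fun a => ⟨⟨(k p hp).2 a.1, ((res23 h).mem p hp).2⟩,
            (k p hp).2 a.1, (h.mem_perp (i := 11) (by decide) (by omega) (And.intro (by change p ≠ 3511; omega) a.2)).2⟩⟩).trans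
              (by decide +kernel)), .inl ((nc23 h (by omega)).2 (by omega)), .inl (Commute.refl _), absurd hy b1,
                absurd hy o]
  refine ⟨β, h, fun p hp => ?_⟩
  rw [fin_sound ho (by simp [hx, u, u', u10]) (by simp [o, b1]) finE13_chk p hp, beq_iff]

theorem Big.conj (h : Big E Δ) (g : G) : Big (cjs g E) (cjs g Δ) :=
  let ⟨_, a, b⟩ := h; ⟨_, a.conj g, fun p hp => mem_cjs.trans (b p hp)⟩

theorem Big.near (h : Big E Δ) (hs : ∀ a ∈ Δ, ∀ b ∈ Δ, a * b * a ∈ Δ) (hw : w ∈ E) : ∃ y ∈ Δ, Commute y w := by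
  obtain ⟨β, h, m⟩ := h
  obtain ⟨q, hq, rfl⟩ := h.surj w hw
  refine (orb_sound (Pr := fun q => ∃ y ∈ Δ, Commute y (β q)) (fun v hv q hq => ?_) orbE13 q hq).2 ?_
  · obtain ⟨b, i, j⟩ := h.wds (Q := fun b => β b ∈ Δ) (by decide +kernel) (fun b hb => by
      have := (by decide +kernel : ∀ b ∈ (gtr [0, 1, 2, 3, 4, 5, 6, 9, 10]).map (·.2.2),
        b < 31671 ∧ pt (R24 13 b) = b) b hb
      exact (m b this.1).2 this.2) v hv
    refine ⟨(i.2 q hq).1, fun ⟨y, hy, hc⟩ => ⟨_, hs _ j y hy, ?_⟩⟩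
    have s := h.sq b i.1
    simpa [(i.2 q hq).2, inv_of_sq s, mul_assoc, sq_cancel s, s] using (commute_conj_iff (β b)).2 hc
  · obtain ⟨a, b | ⟨i, c, d, e⟩⟩ := (by decide +kernel : ∀ b ∈ [22758, 3511, 10, 3510, 3532, 693], b < 31671 ∧ (pt (R24 13 b) = b ∨
      ∃ i ∈ fs23, pt (R24 13 (gp i)) = gp i ∧ pt (R23 i b) = b)) _ (reps13 hq)
    exacts [⟨_, (m _ a).2 b, Commute.refl _⟩, ⟨_, (m _ (h.gpl i c)).2 d, (h.comm_iff c a).2 e⟩]

theorem cjs_perp' (h : ∀ g : G, ∀ a ∈ D, g * a * g⁻¹ ∈ D) : cjs g (perp D a) = perp D (g * a * g⁻¹) := by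
  rw [← perp_cjs, (Set.ext fun y => ⟨fun k => by simpa [mul_assoc] using h g _ k,
    fun k => by simpa [cjs] using h g⁻¹ _ k⟩ : cjs g D = D)]

theorem perp_conj (h : ∀ g : G, ∀ a ∈ D, g * a * g⁻¹ ∈ D) (c : Commute d g) (he : e ∈ perp D d) :
    g * e * g⁻¹ ∈ perp D d := by
  rw [← commute_iff_conj.1 c.symm, ← cjs_perp' h]; exact mem_cjs.2 he

/-- The local hypothesis. -/
structure Loc24 (D : Set G) : Prop where
  cj : ∀ g : G, ∀ a ∈ D, g * a * g⁻¹ ∈ D
  sq : ∀ a ∈ D, a * a = 1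
  tr : ∀ a ∈ D, ∀ b ∈ D, ∃ g, g * a * g⁻¹ = b
  loc : ∀ a ∈ D, ∃ β, Lab R23 fs23 31671 (perp D a) β

theorem loc24 (hd : d * d = 1) (h : Lab R23 fs23 31671 (perp (conjugatesOf d) d) β) : Loc24 (conjugatesOf d) := by
  have c : ∀ g : G, ∀ a ∈ conjugatesOf d, g * a * g⁻¹ ∈ conjugatesOf d := fun g a ha =>
    IsConj.trans ha (isConj_iff.2 ⟨g, rfl⟩)
  refine ⟨c, fun a ha => ?_, fun a ha b hb => isConj_iff.1 (ha.symm.trans hb), fun a ha => ?_⟩ <;>
    obtain ⟨g, rfl⟩ := isConj_iff.1 ha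
  exacts [conj_mul_self g hd, ⟨_, cjs_perp' c ▸ h.conj g⟩]

namespace Loc24
variable (h : Loc24 D)
include h

theorem star : ∀ a ∈ D, ∀ b ∈ D, a * b * a ∈ D := fun a ha b hb => by
  simpa [inv_of_sq (h.sq a ha)] using h.cj a b hb

theorem cjs_perp : cjs g (perp D a) = perp D (g * a * g⁻¹) := cjs_perp' h.cj

theorem p3 (hx : x ∈ D) (hy : y ∈ D) (hn : ¬Commute x y) (he : e ∈ perp D y ∩ perp D x) :
    P3 (perp D y) (perp D y ∩ perp D x) :=
  ⟨Set.inter_subset_left, ⟨e, he⟩, fun a ha b hb => ⟨perp_star h.star h.sq a ha.1 b hb.1,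
    perp_star h.star h.sq a ha.2 b hb.2⟩, fun e he => by
      obtain ⟨β, L⟩ := h.loc e he.1.1
      rw [perp_perp_comm, perp_inter]
      exact L2 L ⟨hy, he.1.2.1.symm, he.1.2.2.symm⟩ ⟨hx, he.2.2.1.symm, he.2.2.2.symm⟩ fun h => hn h.symm⟩

omit h in
theorem _root_.Cfsg.Agent.LF.near_perp (hn : Near D x y) (h : ¬Commute x y) : ∃ e, e ∈ perp D y ∩ perp D x :=
  let ⟨e, he, a, b⟩ := hn
  ⟨e, ⟨he, fun e' => h (e' ▸ a), b.symm⟩, he, fun e' => h (e' ▸ b), a⟩

theorem big (ha : a ∈ D) (hb : b ∈ D) (hab : ¬Commute a b) (hc : c ∈ perp D b ∩ perp D a)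
    (B : Big (perp D b) (perp D b ∩ perp D a)) (hx : x ∈ D) (hy : y ∈ D) (hn : ¬Commute x y)
    (he : e ∈ perp D y ∩ perp D x) : Big (perp D y) (perp D y ∩ perp D x) := by
  obtain ⟨β, L⟩ := h.loc e he.1.1
  obtain ⟨k, rfl⟩ := h.tr c hc.1.1 e he.1.1
  obtain ⟨g, e1, e2⟩ := rank3 L ⟨hx, he.2.2.1.symm, he.2.2.2.symm⟩ ⟨hy, he.1.2.1.symm, he.1.2.2.symm⟩ hn
  obtain ⟨l, e3, e4⟩ := rank3 L (h.cjs_perp ▸ mem_cjs.2 ⟨ha, hc.2.2.1.symm, hc.2.2.2.symm⟩)
    (h.cjs_perp ▸ mem_cjs.2 ⟨hb, hc.1.2.1.symm, hc.1.2.2.symm⟩) (mt (commute_conj_iff k).1 hab)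
  have := B.conj (g⁻¹ * l * k)
  rwa [cjs_inter, h.cjs_perp, h.cjs_perp, show g⁻¹ * l * k * a * (g⁻¹ * l * k)⁻¹ = x by
    rw [← conj_inj_iff g, e1, ← e3]; group, show g⁻¹ * l * k * b * (g⁻¹ * l * k)⁻¹ = y by
    rw [← conj_inj_iff g, e2, ← e4]; group] at this

theorem lc3 (B : ∀ x ∈ D, ∀ y ∈ D, ¬Commute x y → ∀ e ∈ perp D y ∩ perp D x, Big (perp D y) (perp D y ∩ perp D x)) :
    Lc3 D := by
  refine ⟨h.sq, h.cj, fun x hx y hy hn => or_iff_not_imp_left.2 fun c => ?_, fun x hx y hy w hw hn hc => ?_⟩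
  · obtain ⟨e, he⟩ := near_perp hn c
    obtain ⟨β, L⟩ := h.loc e he.1.1
    exact (cube23 L ⟨hx, he.2.2.1.symm, he.2.2.2.symm⟩ ⟨hy, he.1.2.1.symm, he.1.2.2.symm⟩).resolve_left c
  by_cases c : Commute x y
  · exact ⟨y, hy, c, hc⟩
  by_cases f : w = y
  · exact f ▸ hn
  obtain ⟨e, he⟩ := near_perp hn c
  obtain ⟨u, a, b⟩ := (B x hx y hy c e he).near (h.p3 hx hy c he).star ⟨hw, f, hc⟩
  exact ⟨u, a.1.1, a.2.2.2, b⟩

theorem cls (H : Lc3 D) (hd : d ∈ D) (ht : H.stab hd = ⊤) (he : e ∈ perp D d) (hc : ∀ g, Commute d g → Commute e g →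
    g ∈ closure (perp (perp D d) e) ∨ d * g ∈ closure (perp (perp D d) e)) :
    (∀ x ∈ D, Near D d x) ∧ IsThreeTranspositionClass D := by
  have n : ∀ x ∈ D, Near D d x := fun x hx => by
    obtain ⟨g, rfl⟩ := h.tr d hd x hx
    exact H.mem_stab hd |>.1 (ht ▸ mem_top g)
  have := H.stab_eq hd (fun e he y hy w hw h1 h2 h3 h4 => by
      obtain ⟨β, L⟩ := h.loc e he
      obtain ⟨g, a, b⟩ := L.exists_conj ⟨hy, h1, h3⟩ L.pos
      obtain ⟨k, c, f⟩ := L.exists_conj ⟨hw, h2, h4⟩ L.pos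
      exact ⟨k * g⁻¹, Subgroup.closure_mono (fun _ h => And.intro h.1 h.2.2) (mul_mem c (inv_mem a)), by rw [b, f]; group⟩)
    (fun y hy c => by
      by_cases f : y = d
      · exact ⟨e, he.1, he.2.1.symm, f ▸ he.2.1.symm, he.2.2.symm, f ▸ he.2.2.symm⟩
      obtain ⟨β, L⟩ := h.loc d hd
      obtain ⟨γ, M⟩ := res23' L ⟨hy, f, c⟩
      have := M.mem 0 M.pos
      exact ⟨_, this.1.1, this.1.2.1.symm, this.2.1.symm, this.1.2.2.symm, this.2.2.symm⟩) fun g c => by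
      obtain ⟨β, L⟩ := h.loc d hd
      obtain ⟨k, a, b⟩ := L.exists_conj he L.pos
      obtain ⟨l, i, j⟩ := L.exists_conj (perp_conj h.cj c he) L.pos
      have m : closure (perp D d) ≤ closure {a | a ∈ D ∧ Commute d a} :=
        Subgroup.closure_mono fun _ h => And.intro h.1 h.2.2
      have o := mul_mem a (inv_mem i)
      rw [← mul_mem_cancel_left (m o)]
      refine (hc _ ((commute_closure (fun y hy => hy.2.2) o).mul_right c) (commute_iff_conj.2 ?_).symm).elim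
        (fun q => m (Subgroup.closure_mono Fi.perp_sub q)) fun q =>
          (mul_mem_cancel_left (Subgroup.subset_closure (by exact ⟨hd, .refl d⟩))).1 (m (Subgroup.closure_mono Fi.perp_sub q))
      calc _ = k * l⁻¹ * (g * e * g⁻¹) * (k * l⁻¹)⁻¹ := by group
        _ = e := by rw [j, b]; group
  refine ⟨n, ⟨fun a ha => orderOf_eq_two (h.sq a ha) fun f => ?_, fun a ha b hb => (H.loc a ha b hb
    (H.trans ha hd hb (n a ha).symm (n b hb))).imp_left (sq_of_commute (h.sq a ha) (h.sq b hb))⟩,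
    ⟨d, hd, Set.ext fun x => ⟨fun hx => isConj_iff.2 (h.tr d hd x hx), fun hx => ?_⟩⟩,
    eq_top_iff.2 ((ht.symm.trans this).le.trans (Subgroup.closure_mono fun _ h => h.1))⟩
  · obtain ⟨g, i⟩ := h.tr a ha d hd
    obtain ⟨k, j⟩ := h.tr a ha e he.1
    exact he.2.1 (by rw [← i, ← j, f]; simp)
  · obtain ⟨g, rfl⟩ := isConj_iff.1 hx
    exact h.cj g d hd

end Loc24

theorem cent_qt (hT : T3 D) (he : e ∈ perp D d) (hn : ¬∀ y ∈ perp D d, Commute e y)
    (hc : ∀ g, Commute d g → Commute e g → g ∈ closure (perp (perp D d) e) ∨ d * g ∈ closure (perp (perp D d) e)) :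
    ∃ k ∈ img6 (perp D d), ∀ g, Commute k g → g ∈ St6 (img6 (perp D d) \ {1}) k := by
  let x : closure (perp D d) := ⟨e, subset_closure he⟩
  refine ⟨x, ⟨x, he, rfl⟩, fun g hg => ?_⟩
  obtain ⟨g, rfl⟩ := QuotientGroup.mk_surjective g
  have c := commute_closure (fun y hy => hy.2.2) g.2
  have k : ∀ s (hs : s ∈ closure (perp (perp D d) e)), ((⟨s, Subgroup.closure_mono Fi.perp_sub hs⟩ : closure (perp D d)) :
      Qt (perp D d)) ∈ St6 (img6 (perp D d) \ {1}) x := fun s hs => by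
    induction hs using closure_induction with
    | mem y hy =>
      by_cases f : ((⟨y, subset_closure hy.1⟩ : closure (perp D d)) : Qt (perp D d)) = 1
      exacts [(congrArg (· ∈ _) f).mpr (one_mem _), subset_closure ⟨⟨⟨_, hy.1, rfl⟩, f⟩, commute_mk6 hy.2.2⟩]
    | one => exact one_mem _
    | mul a b _ _ h1 h2 => exact mul_mem h1 h2
    | inv a _ h1 => exact inv_mem h1
  refine (hc g c (commute_iff_conj.2 (mk_inj6 hT Fi.perp_sub (x := x) (y := g * x * g⁻¹) ⟨he, hn⟩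
    (perp_conj hT.cj c he) (commute_iff_conj.1 hg.symm).symm).symm).symm).elim (k _) fun q => ?_
  have := k _ q
  let y : closure (perp D d) := ⟨d, (mul_mem_cancel_right g.2).1 (Subgroup.closure_mono Fi.perp_sub q)⟩
  rwa [show (⟨d * g, _⟩ : closure (perp D d)) = y * g from rfl, QuotientGroup.mk_mul,
    (mk_eq_one_iff (x := y)).2 fun y hy => hy.2.2, one_mul] at this

section
variable {Y : Type*} [Group Y] {ι : Y →* G} (hd : d * d = 1) (hc : ∀ y, Commute d (ι y)) {S : Set Y}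
include hd hc

theorem dmul (a b : Y) : d * ι a * (d * ι b) = ι (a * b) := by
  rw [(hc a).eq, mul_assoc, sq_cancel hd, map_mul]

theorem clo_mul {g : Y} (hg : g ∈ closure S) :
    ι g ∈ closure ((fun y => d * ι y) '' S) ∨ d * ι g ∈ closure ((fun y => d * ι y) '' S) := by
  induction hg using closure_induction with
  | mem y hy => exact .inr (subset_closure ⟨y, hy, rfl⟩)
  | one => exact .inl (map_one ι ▸ one_mem _)
  | mul a b _ _ h1 h2 =>
    rcases h1 with h1 | h1 <;> rcases h2 with h2 | h2 <;> have := mul_mem h1 h2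
    exacts [.inl (map_mul ι a b ▸ this), .inr (by rwa [map_mul, ← mul_assoc, (hc a).eq, mul_assoc]),
      .inr (by rwa [map_mul, ← mul_assoc]), .inl (dmul hd hc a b ▸ this)]
  | inv a _ h1 =>
    refine h1.imp (fun h => map_inv ι a ▸ inv_mem h) fun h => ?_
    simpa [(hc a).inv_right.eq, inv_of_sq hd] using inv_mem h

theorem lab_mul (hι : Function.Injective ι) {r : ℕ → ℕ → ℕ} {gs : List ℕ} {N : ℕ} {β : ℕ → Y} (h : Lab r gs N S β) :
    Lab r gs N ((fun y => d * ι y) '' S) fun p => d * ι (β p) := by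
  refine ⟨⟨h.gpl, fun i hi q hq => ⟨(h.act i hi q hq).1, ?_⟩, fun p hp => by rw [dmul hd hc, h.sq p hp, map_one]⟩,
    fun p hp => ⟨_, h.mem p hp, rfl⟩, ?_, fun p hp q hq e => h.inj p hp q hq (hι (mul_left_cancel e)), fun p hp => ?_,
    h.zero⟩
  · rw [dmul hd hc, ← mul_assoc, ← (hc _).eq, (h.act i hi q hq).2, mul_assoc d, ← map_mul]
  · rintro _ ⟨y, hy, rfl⟩
    obtain ⟨p, hp, rfl⟩ := h.surj y hy
    exact ⟨p, hp, rfl⟩
  obtain ⟨g, a, b⟩ := h.tr p hp
  have e : ∀ {k}, k ∈ closure ((fun y => d * ι y) '' {x | ∃ i ∈ gs, x = β (gp i)}) →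
      k ∈ gen (fun p => d * ι (β p)) gs := fun h => Subgroup.closure_mono (by
    rintro _ ⟨_, ⟨i, hi, rfl⟩, rfl⟩; exact ⟨i, hi, rfl⟩) h
  have f : d * ι (β p) = ι g * (d * ι (β 0)) * (ι g)⁻¹ := by
    rw [b, ← mul_assoc, ← (hc g).eq, map_mul, map_mul, map_inv]; group
  refine (clo_mul hd hc a).elim (fun k => ⟨_, e k, f⟩) fun k => ⟨_, e k, ?_⟩
  rw [f, (hc g).eq, mul_inv_rev, mul_assoc _ d, ((Commute.refl d).mul_right (hc _)).eq]; group

theorem perp_mul (hι : Function.Injective ι) (t : Y) :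
    (fun y => d * ι y) '' perp S t ⊆ perp ((fun y => d * ι y) '' S) (d * ι t) := by
  rintro _ ⟨y, hy, rfl⟩
  exact ⟨⟨y, hy.1, rfl⟩, fun e => hy.2.1 (hι (mul_left_cancel e)), by
    rw [Commute, SemiconjBy, dmul hd hc, dmul hd hc, hy.2.2.eq]⟩

end

end Cfsg.Agent.LF
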