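import Cfsg.Agent.LF.G126
import Cfsg.Agent.LF.L24
import Cfsg.Agent.Fi.Rec23

/-! # Extensions of degree two of groups of large Fischer type: the class of the outer involution -/

set_option autoImplicit false
set_option maxRecDepth 100000

namespace Cfsg.Agent.LF

open Cfsg.Agent.M24 Cfsg.Agent.GT Cfsg.Agent.TT Cfsg.Agent.TT2 Cfsg.Agent.Cl Subgroup

/-- The conjugate `w` of `d` under the centraliser of `z` belongs to the vector `u`. -/
def Pt {X : Type*} [Group X] {G : Subgroup X} (z : G) (r : G → Γ) (d w : X) (u : V) : Prop :=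
  ∃ h ∈ C1[z], (h : X) * d * (h : X)⁻¹ = w ∧ r h (dc 5) = u

namespace UD

variable {X : Type*} [Group X] [Finite X] {G : Subgroup X} {Q : Subgroup G} {z : G} {π : G → V} {r : G → Γ}
  {S : LB Q z π r} {x : G} {T : ℕ → G} {μ : N[S.A] →* M24} {σ δ : ℕ → G} (C : UD S x T μ σ δ)
  {K : Subgroup G} (U : UK T μ K) (h2 : G.index = 2) {d : X} (D : UX μ K d) {a c g h q s : G} {w w' : X} {u u' : V}
include C U h2 D

omit h2 in
theorem dA (ha : a ∈ S.A) : Commute d a := by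
  obtain ⟨n, -, rfl⟩ := C.co.surj a ha
  exact D.cK _ (U.Y (C.TY n))

theorem cT (hc : c ∈ C1[T 1]) (h : c ∉ K) : (c : X) * d * (c : X)⁻¹ = d * T 1 := by
  have m : d⁻¹ * (c * d * (c : X)⁻¹) ∈ G := by simp [mul_mem_iff_of_index_two h2, D.nm]
  rcases C.cent_K U (c := ⟨_, m⟩) fun k hk => ccoe.2 ((D.cK k hk).inv_left.mul_left (commute_conj_left.2
    (D.cK _ (conj_mem_of_mem_norm (inv_mem (U.norm hc)) hk)))) with e | e
  · exact absurd ((C.mem_K_iff U D).2 ⟨(commute_iff_conj.2 (inv_mul_eq_one.1 (congrArg Subtype.val e :)).symm).symm, hc⟩) h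
  · exact inv_mul_eq_iff_eq_mul.1 (congrArg Subtype.val e :)

theorem cN (n : N[S.A]) (h : μ n • pt 0 ≠ pt 0) : ∃ v : G, Commute d v ∧ v * T 1 * v⁻¹ = dua T (pt 0) (μ n • pt 0) ∧
    (n : X) * d * (n : X)⁻¹ = d * dua T (pt 0) (μ n • pt 0) := by
  obtain ⟨s, s1, s2, -⟩ := C.exists_sw
  obtain ⟨v, e⟩ := C.fs.exl (l := [pt 0, pt 1]) (l' := [pt 0, μ n • pt 0]) (by decide) (by simp [h.symm]) rfl (by simp)
  simp only [List.map, List.cons.injEq, and_true] at e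
  have a := (D.fx v).2 e.1
  have b := C.fs.cjd v (show pt 0 ≠ pt 1 by decide)
  rw [dua01, e.1, e.2] at b
  have c := (D.fx ((v * s)⁻¹ * n)).2 (by rw [map_mul, map_inv, mul_smul, inv_smul_eq_iff, map_mul, mul_smul, s1, e.2])
  refine ⟨v, a, b, ?_⟩
  calc _ = (v : X) * (s * (((v * s)⁻¹ * n : N[S.A]) * d * (((v * s)⁻¹ * n : N[S.A]) : X)⁻¹) * (s : X)⁻¹) * (v : X)⁻¹ := by
        push_cast; group
    _ = _ := by
      rw [commute_iff_conj.1 c.symm, C.cT U h2 D (C.sw_mem s1 s2) (U.sw s s1 s2), ← b, ← mul_assoc, ← a.eq]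
      push_cast; group

theorem cA (n : N[S.A]) : ∃ a ∈ S.A, (n : X) * d * (n : X)⁻¹ = d * a := by
  by_cases h : μ n • pt 0 = pt 0
  · exact ⟨1, one_mem _, by simpa using commute_iff_conj.1 ((D.fx n).2 h).symm⟩
  · exact let ⟨_, _, _, e⟩ := C.cN U h2 D n h; ⟨_, C.mem _, e⟩

theorem commN (m n : N[S.A]) : Commute ((m : X) * d * (m : X)⁻¹) (n * d * (n : X)⁻¹) := by
  obtain ⟨a, b, c⟩ := C.cA U h2 D m
  obtain ⟨e, f, g⟩ := C.cA U h2 D n
  rw [c, g]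
  exact ((Commute.refl d).mul_right (C.dA U D f)).mul_left ((C.dA U D b).symm.mul_right
    (ccoe.1 (commute_of_elem S.A_sq b f)))

omit C U in
theorem exG (hw : w ∈ conjugatesOf d) : ∃ g : G, (g : X) * d * (g : X)⁻¹ = w := by
  obtain ⟨g, rfl⟩ := isConj_iff.1 hw
  by_cases h : g ∈ G
  exacts [⟨⟨g, h⟩, rfl⟩, ⟨⟨g * d, by simp [mul_mem_iff_of_index_two h2, D.nm, h]⟩, by simp [mul_assoc]⟩]

omit h2 in
theorem exists_M23 : ∃ (t : ↥(G ⊓ C1[d])) (β : ℕ → ↥(G ⊓ C1[d])), (t : X) = T 1 ∧ Fi.M23 (conjugatesOf t) β :=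
  let ⟨t, a, _, _, _, _, b, c⟩ := C.main23 U D
  let ⟨β, M⟩ := Fi.rec23' b.group c
  ⟨t, β, a, M⟩

omit h2 in
theorem Y23_into (hs : Commute d s) (h : s * s = 1) : ∃ c : G, Commute d c ∧ c * s * c⁻¹ ∈ S.A := by
  obtain ⟨t, β, a, M⟩ := C.exists_M23 U D
  obtain ⟨w, b, c⟩ := exists_fix_of_odd (W := conjugatesOf t) (s := ⟨s, s.2, mem_cent1.2 hs.symm⟩)
    (by rw [M.ncard_eq]; decide) (Subtype.ext (congrArg Subtype.val h :)) (M.t3.cj _)
  obtain ⟨y, rfl⟩ := isConj_iff.1 b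
  let g : G := ⟨y, y.2.1⟩
  have e : Commute d g := (mem_cent1.1 y.2.2).symm
  obtain ⟨k, i, j⟩ := C.K_into U (k := g⁻¹ * s * g⁻¹⁻¹) ((C.mem_K_iff U D).2 ⟨(e.inv_right.mul_right hs).mul_right
    e.inv_right.inv_right, mem_cent1.2 (ccoe.2 (a ▸ (ccoe.1 (commute_conj_left.1 c.symm).symm :)))⟩) (conj_mul_self _ h)
  exact ⟨k * g⁻¹, (D.cK k i).mul_right e.inv_right, by simpa only [mul_inv_rev, mul_assoc] using j⟩

theorem mem_perp : w ∈ Fi.perp (conjugatesOf d) d ↔ ∃ c : G, Commute d c ∧ d * (c * T 1 * c⁻¹ : G) = w := by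
  constructor
  · rintro ⟨a, b, c⟩
    obtain ⟨g, rfl⟩ := exG h2 D a
    have m : d * (g * d * (g : X)⁻¹) ∈ G := by simp [mul_mem_iff_of_index_two h2, D.nm]
    obtain ⟨k, i, j⟩ := C.Y23_into U D (s := ⟨_, m⟩) ((Commute.refl d).mul_right c)
      (Subtype.ext (mul_self_of_commute D.sq (conj_mul_self _ D.sq) c))
    have e : ((k * g : G) : X) * d * ((k * g : G) : X)⁻¹ = d * (k * ⟨_, m⟩ * k⁻¹ : G) := by
      push_cast
      rw [← mul_assoc d, ← mul_assoc d, i.eq, mul_assoc (k : X) d, sq_cancel D.sq]; group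
    obtain ⟨l, o, p⟩ := S.fus (L := C1[((k * g : G) : X) * d * ((k * g : G) : X)⁻¹].subgroupOf G) (g := k * g)
      (fun y hy => mem_cent1.2 (e ▸ (C.dA U D hy).symm.mul_right (ccoe.1 (commute_of_elem S.A_sq hy j)) :))
      (by rintro _ ⟨y, hy, rfl⟩; exact mem_cent1.2 ((commute_conj_iff _).2 (C.dA U D hy).symm))
    have f : ((l * (k * g) : G) : X) * d * ((l * (k * g) : G) : X)⁻¹ = k * (g * d * (g : X)⁻¹) * (k : X)⁻¹ := by
      have := commute_iff_conj.1 (mem_cent1.1 o)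
      push_cast at this ⊢
      simpa only [mul_inv_rev, mul_assoc, coe_subtype] using this
    obtain ⟨v, v1, v2, v3⟩ := C.cN U h2 D ⟨_, p⟩ fun n => b ((conj_inj_iff _).1 (f.symm.trans
      ((commute_iff_conj.1 ((D.fx _).2 n).symm).trans (commute_iff_conj.1 i.symm).symm)))
    refine ⟨k⁻¹ * v, i.inv_right.mul_right v1, (conj_inj_iff (k : X)).1 ?_⟩
    rw [← f, v3, ← v2, ← mul_assoc, ← i.eq]
    push_cast; group
  · rintro ⟨c, a, rfl⟩
    obtain ⟨s, s1, s2, -⟩ := C.exists_sw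
    refine ⟨isConj_iff.2 ⟨c * s, ?_⟩, fun e => ne_one_of_orderOf (C.T_ncj (n := 1) (by decide +kernel)).1 (by simpa using e),
      (Commute.refl d).mul_right ((a.mul_right (C.dA U D (C.mem 1))).mul_right a.inv_right)⟩
    rw [mul_inv_rev, mul_assoc, mul_assoc, ← mul_assoc d, ← mul_assoc (s : X), ← mul_assoc (s : X),
      C.cT U h2 D (C.sw_mem s1 s2) (U.sw s s1 s2), ← mul_assoc, ← mul_assoc, ← a.eq]
    push_cast; group

theorem loc23 : (∃ β, Fi.Lab Fi.R23 Fi.fs23 31671 (Fi.perp (conjugatesOf d) d) β) ∧ ∀ g, Commute d g → Commute (d * T 1) g →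
    g ∈ closure (Fi.perp (Fi.perp (conjugatesOf d) d) (d * T 1)) ∨
      d * g ∈ closure (Fi.perp (Fi.perp (conjugatesOf d) d) (d * T 1)) := by
  obtain ⟨t, β, a, M⟩ := C.exists_M23 U D
  have c : ∀ y, Commute d ((G ⊓ C1[d]).subtype y) := fun y => (mem_cent1.1 y.2.2).symm
  have e : Fi.perp (conjugatesOf d) d = (fun y => d * (G ⊓ C1[d]).subtype y) '' conjugatesOf t := Set.ext fun w => by
    rw [C.mem_perp U h2 D]
    exact ⟨fun ⟨k, i, j⟩ => ⟨_, isConj_iff.2 ⟨⟨k, k.2, mem_cent1.2 i.symm⟩, rfl⟩, by simpa [a] using j⟩, by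
      rintro ⟨_, i, rfl⟩
      obtain ⟨k, rfl⟩ := isConj_iff.1 i
      exact ⟨⟨k, k.2.1⟩, c k, by simp [a]⟩⟩
  have k : ∀ g ∈ G, Commute d g → Commute (d * T 1) g → g ∈ closure (Fi.perp (Fi.perp (conjugatesOf d) d) (d * T 1)) ∨
      d * g ∈ closure (Fi.perp (Fi.perp (conjugatesOf d) d) (d * T 1)) := fun g i j l => by
    have m := Subgroup.closure_mono (perp_mul D.sq c (subtype_injective _) (S := conjugatesOf t) t)
    rw [← e, coe_subtype, a] at m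
    exact (clo_mul D.sq c (M.toModel.cent_all (p := 3510) (by norm_num) (M.cent.trans M.lab22.closure_eq.symm)
      (IsConj.refl t) (g := ⟨g, i, mem_cent1.2 j.symm⟩) (ccoe.2 (by simpa [a] using j.inv_left.mul_left l)))).imp
        (@m _) (@m _)
  refine ⟨⟨_, e ▸ lab_mul D.sq c (subtype_injective _) M.toLab⟩, fun g i j => ?_⟩
  by_cases l : g ∈ G
  · exact k g l i j
  · simpa [sq_cancel D.sq, or_comm] using k (d * g) (by simp [mul_mem_iff_of_index_two h2, D.nm, l])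
      ((Commute.refl d).mul_right i) (((Commute.refl d).mul_left (C.dA U D (C.mem 1)).symm).mul_right j)

omit [Finite X] U h2 D in
theorem Q_T1 (m : N[S.A]) (hq : (m : G) ∈ Q) : μ m • pt 0 = pt 0 ∧ μ m • pt 1 = pt 1 ∨ μ m • pt 0 = pt 1 ∨
    μ m • pt 0 = pt 2 ∨ μ m • pt 0 = pt 12 := by
  have e := C.fs.cjd m (show pt 0 ≠ pt 1 by decide)
  have f : μ m • pt 0 ≠ μ m • pt 1 := by simpa using (by decide : pt 0 ≠ pt 1)
  rw [dua01] at e
  rcases S.conj _ hq _ (C.Tp 1 (by omega)).1 with a | a <;> rw [e] at a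
  · exact (C.fs.dua_inj f (by decide) (a.trans (dua01 T).symm)).imp_right fun b => .inl b.1
  · rw [← congrArg (T 1 * ·) C.Tz, ← C.mul, ← dua_eq T (i := 2) (j := 12) (by decide +kernel)] at a
    exact .inr (.inr ((C.fs.dua_inj f (by decide) a).imp And.left And.left))

omit [Finite X] C U h2 D in
theorem _root_.Cfsg.Agent.LF.LB.Q_N (S : LB Q z π r) (hq : q ∈ Q) : q ∈ N[S.A] :=
  S.norm_A (S.le hq) (by rw [S.r_Q hq]; exact one_mem _)

omit [Finite X] h2 in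
theorem cQ (hq : q ∈ Q) : Commute d q ↔ π q ∈ U1p := by
  refine ⟨fun h => (C.memYQ hq).1 ?_, fun h => D.cK _ (U.Y ((C.memYQ hq).2 h))⟩
  have a := (D.fx ⟨q, S.Q_N hq⟩).1 h
  refine C.fixY (n := ⟨q, S.Q_N hq⟩) ((C.Q_T1 ⟨q, S.Q_N hq⟩ hq).resolve_right (by rw [a]; decide)) ?_
  have e := C.fs.cjd ⟨q, S.Q_N hq⟩ (show pt 0 ≠ pt 2 by decide)
  have f : pt 0 ≠ μ ⟨q, S.Q_N hq⟩ • pt 2 := fun e => absurd (smul_left_cancel _ (a.trans e)) (by decide)
  rw [dua02, a] at e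
  rcases S.conj _ hq _ (C.Tp 2 (by omega)).1 with b | b <;> rw [e] at b
  · exact ((C.fs.dua_inj f (by decide) (b.trans (dua02 T).symm)).resolve_right fun b => absurd b.1 (by decide)).2
  · rw [← congrArg (T 2 * ·) C.Tz, ← C.mul, ← dua_eq T (i := 1) (j := 12) (by decide +kernel)] at b
    exact absurd ((C.fs.dua_inj f (by decide) b).imp And.left And.left) (by decide)

omit h2 in
theorem ax (hw : Pt z r d w u) (hq : q ∈ Q) : Commute w q ↔ Ort u (π q) := by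
  obtain ⟨h, a, rfl, rfl⟩ := hw
  rw [commute_conj_left, show (h : X)⁻¹ * q * (h : X)⁻¹⁻¹ = (h⁻¹ * q * h⁻¹⁻¹ : G) from rfl,
    C.cQ U D (S.conj_mem (inv_mem a) hq), U1p_iff (S.memH a), S.act _ (inv_mem a) _ hq, S.r_inv a, ← LinearEquiv.mul_apply,
    mul_inv_cancel]
  rfl

omit [Finite X] C U h2 D in
theorem _root_.Cfsg.Agent.LF.Pt.conj (S : LB Q z π r) (hw : Pt z r d w u) (hh : h ∈ C1[z]) :
    Pt z r d (h * w * (h : X)⁻¹) (r h u) := by
  obtain ⟨k, a, rfl, rfl⟩ := hw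
  exact ⟨h * k, mul_mem hh a, by push_cast; group, by rw [S.rmul _ hh _ a]; rfl⟩

theorem ptW (hw : Pt z r d w (dc 5)) : ∃ m : N[S.A], (m : X) * d * (m : X)⁻¹ = w := by
  obtain ⟨h, a, rfl, b⟩ := hw
  obtain ⟨c, e, -⟩ := C.Tp 1 (by omega)
  rw [pl12.1] at e
  obtain ⟨k, i, j, l⟩ := S.exists_conj a c c (by rw [e, Ne, ← ty_eq_zero]; decide +kernel) (by rw [e, b])
  have m : h * k⁻¹ ∈ Q := by
    simpa using (S.r_eq (inv_mem a) (inv_mem i)).1 (by rw [S.r_inv a, S.r_inv i, j])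
  obtain ⟨n, o⟩ : ∃ n : N[S.A], (n : X) * d * (n : X)⁻¹ = k * d * (k : X)⁻¹ := by
    by_cases f : k ∈ K
    · exact ⟨1, by simpa using (commute_iff_conj.1 (D.cK k f).symm).symm⟩
    obtain ⟨s, s1, s2, -⟩ := C.exists_sw
    exact ⟨s, (C.cT U h2 D (C.sw_mem s1 s2) (U.sw s s1 s2)).trans
      (C.cT U h2 D (mem_cent1.2 (commute_iff_conj.2 l)) f).symm⟩
  refine ⟨⟨_, S.Q_N m⟩ * n, ?_⟩
  calc _ = (h : X) * (k : X)⁻¹ * (n * d * (n : X)⁻¹) * (h * (k : X)⁻¹)⁻¹ := by push_cast; group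
    _ = _ := by rw [o]; group

theorem mem_U1p_of (hw : Pt z r d w u) (hc : Commute d w) : u ∈ U1p := by
  by_cases e : ∀ q ∈ Q, Commute w q → Commute d q
  · obtain ⟨h, a, rfl, rfl⟩ := hw
    obtain ⟨b, c, -⟩ := C.Tp 1 (by omega)
    rw [← pl12.1, ← c, ← S.act _ a _ b, ← C.cQ U D (S.conj_mem a b)]
    exact e _ (S.conj_mem a b) ((commute_conj_iff _).2 (C.dA U D (C.mem 1)))
  push Not at e
  obtain ⟨q, a, b, c⟩ := e
  obtain ⟨-, -, -, f⟩ := C.cN U h2 D ⟨q, S.Q_N a⟩ (mt (D.fx _).2 c)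
  have g := hc.symm.inv_right.mul_right ((b.mul_right hc.symm).mul_right b.inv_right)
  rw [f, inv_mul_cancel_left] at g
  obtain ⟨n, i, j⟩ : ∃ n ∈ [1, 2, 1027], dua T (pt 0) (μ ⟨q, S.Q_N a⟩ • pt 0) = T n := by
    rcases C.Q_T1 ⟨q, S.Q_N a⟩ a with e | e | e | e
    exacts [absurd ((D.fx _).2 e.1) c, ⟨1, by simp, e ▸ dua01 T⟩, ⟨2, by simp, e ▸ dua02 T⟩,
      ⟨1027, by simp, e ▸ dua_eq T (by decide +kernel)⟩]
  obtain ⟨k, l, m⟩ := (by decide +kernel : ∀ n ∈ [1, 2, 1027], n < 2048 ∧ cn n = 0 ∧ pl n ∈ [5, 10, 15]) n i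
  rw [j, C.ax U D hw (C.πT k l).1, (C.πT k l).2] at g
  exact U1p_of_ort m g

theorem ort_of (hw : Pt z r d w u) (hw' : Pt z r d w' u') (hc : Commute w' w) : Ort u' u := by
  obtain ⟨h, a, rfl, rfl⟩ := hw'
  have := C.mem_U1p_of U h2 D (hw.conj S (inv_mem a)) (commute_conj_left.1 hc)
  rwa [U1p_iff (S.memH a), S.r_inv a, ← LinearEquiv.mul_apply, mul_inv_cancel] at this

theorem comm_of {k : Γ} (hk : k ∈ K0) (hw : Pt z r d w (k (dc 5))) (hw' : Pt z r d w' (k (dc 80))) : Commute w w' := by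
  obtain ⟨h, a, rfl⟩ := S.exK k hk
  obtain ⟨n, b, c, e⟩ := C.sext (i := 6) (j := 13) (k := 5) (l := 15) ⟨by decide, 4, 1028, by decide +kernel⟩
  have f : r n (dc 5) = dc 80 := by
    obtain ⟨i, j, -⟩ := C.Tp 1 (by omega)
    rw [← pl12.1, ← j, ← S.act _ b _ i, ← dua01 T, C.fs.cjd n (by decide), c, e, dua_eq T (n := 4) (by decide +kernel),
      (C.Tp 4 (by omega)).2.1]
    decide +kernel
  have i := hw.conj S (inv_mem a)
  have j := (hw'.conj S (inv_mem a)).conj S (inv_mem b)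
  rw [S.r_inv a, ← LinearEquiv.mul_apply, inv_mul_cancel] at i
  rw [S.r_inv a, S.r_inv b, ← LinearEquiv.mul_apply (r h)⁻¹, inv_mul_cancel, ← f, LinearEquiv.coe_one, id,
    ← LinearEquiv.mul_apply, inv_mul_cancel] at j
  obtain ⟨m, o⟩ := C.ptW U h2 D i
  obtain ⟨l, p⟩ := C.ptW U h2 D j
  have := C.commN U h2 D m (n * l)
  rw [o, show ((n * l : N[S.A]) : X) * d * ((n * l : N[S.A]) : X)⁻¹ = n * (l * d * (l : X)⁻¹) * (n : X)⁻¹ by
    push_cast; group, p] at this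
  simpa [mul_assoc] using (commute_conj_iff (h : X)).2 this

theorem exists_pt (hw : w ∈ conjugatesOf d) (hc : Commute w z) : ∃ u, Pt z r d w u ∧ ty (cd u) = 1 := by
  obtain ⟨g, rfl⟩ := exG h2 D hw
  obtain ⟨c, a, b⟩ := C.Y23_into U D (s := g⁻¹ * z * g⁻¹⁻¹) (commute_conj_left.1 hc) (conj_mul_self _ S.zz)
  obtain ⟨n, i, j⟩ := S.fusion (g := c * g⁻¹) S.z_A (by simpa only [mul_inv_rev, mul_assoc] using b)
  obtain ⟨m, k, l⟩ := C.sext' ((μ ⟨n, i⟩)⁻¹ • pt 0)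
  have e := (D.fx (⟨n, i⟩ * m)).2 (by rw [map_mul, mul_smul, l, smul_inv_smul])
  have f : (c * g⁻¹)⁻¹ * n * m ∈ C1[z] := mul_mem (mem_cent1.2 (commute_iff_conj.2 (by
    rw [mul_assoc _ n, mul_inv_rev _ n, ← mul_assoc, mul_assoc _ (n * z), j]; group))) k
  refine ⟨_, ⟨_, f, ?_, rfl⟩, (mem_N0.1 (S.memN _ f) _).trans (by decide +kernel)⟩
  calc _ = (g : X) * ((c : X)⁻¹ * ((⟨n, i⟩ * m : N[S.A]) * d * ((⟨n, i⟩ * m : N[S.A]) : X)⁻¹) * (c : X)⁻¹⁻¹) * (g : X)⁻¹ := by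
        push_cast; group
    _ = _ := by rw [commute_iff_conj.1 e.symm, commute_iff_conj.1 a.symm.inv_left]

omit [Finite X] C h2 in
theorem _root_.Cfsg.Agent.LF.Pt.mem (C : UD S x T μ σ δ) [Finite G] (hw : Pt z r d w u) :
    w ∈ conjugatesOf d ∧ Commute w z := by
  obtain ⟨h, a, rfl, -⟩ := hw
  have := ccoe.1 (mem_cent1.1 a)
  exact ⟨isConj_iff.2 ⟨_, rfl⟩, (this.mul_left (D.cK _ (U.Y C.zY))).mul_left this.inv_left⟩

omit [Finite X] C U h2 D in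
theorem _root_.Cfsg.Agent.LF.LB.ex_pt (S : LB Q z π r) {n : ℕ} (hn : n < 4096 ∧ ty n = 1) (d : X) :
    ∃ w, Pt z r d w (dc n) := by
  obtain ⟨k, a, b⟩ := K0_trans (u := dc 5) (v := dc n) (by rw [cd_dc hn.1, hn.2]; decide +kernel)
  obtain ⟨h, c, rfl⟩ := S.exK k a
  exact ⟨_, h, c, rfl, b⟩

theorem quad : ∃ y ∈ conjugatesOf d, ¬Commute d y ∧ ∃ e ∈ Fi.perp (conjugatesOf d) y ∩ Fi.perp (conjugatesOf d) d,
    ∃ f ∈ Fi.perp (conjugatesOf d) y ∩ Fi.perp (conjugatesOf d) d, ¬Commute e f ∧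
      (Fi.perp (Fi.perp (conjugatesOf d) y ∩ Fi.perp (conjugatesOf d) d) e ∩
        Fi.perp (Fi.perp (conjugatesOf d) y ∩ Fi.perp (conjugatesOf d) d) f).ncard ≠ 108 := by
  have p : Pt z r d d (dc 5) := ⟨1, one_mem _, by simp, by rw [S.r_one]; rfl⟩
  obtain ⟨y, py⟩ := S.ex_pt (n := 6) (by decide +kernel) d
  obtain ⟨e, pe⟩ := S.ex_pt (n := 80) (by decide +kernel) d
  obtain ⟨f, pf⟩ := S.ex_pt (n := 272) (by decide +kernel) d
  have a : ¬Commute d y := fun h => absurd (ort_iff.1 (C.ort_of U h2 D py p h)) (by decide +kernel)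
  have b : ¬Commute e f := fun h => absurd (ort_iff.1 (C.ort_of U h2 D pf pe h)) (by decide +kernel)
  have c : ∀ {w w' : X} {m n : ℕ}, (m, n) ∈ [(5, 272), (6, 80), (6, 272)] → Pt z r d w (dc m) → Pt z r d w' (dc n) →
      Commute w w' := fun h i j => let ⟨_, k, l, m⟩ := exists_lq h; C.comm_of U h2 D k (l ▸ i) (m ▸ j)
  have c1 := C.comm_of U h2 D (one_mem _) p pe
  have c2 := c (by simp) p pf
  have c3 := c (by simp) py pe
  have c4 := c (by simp) py pf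
  have m := fun {w u} (h : Pt z r d w u) => h.mem U D C
  refine ⟨y, (m py).1, a, e, ⟨⟨(m pe).1, fun h => a (h ▸ c1), c3⟩, (m pe).1, fun h => a (h ▸ c3.symm), c1⟩, f,
    ⟨⟨(m pf).1, fun h => a (h ▸ c2), c4⟩, (m pf).1, fun h => a (h ▸ c4.symm), c2⟩, b, fun h => ?_⟩
  have j : ∀ g : X, ∀ a ∈ conjugatesOf d, g * a * g⁻¹ ∈ conjugatesOf d := fun g a ha =>
    IsConj.trans ha (isConj_iff.2 ⟨g, rfl⟩)
  refine absurd (h ▸ (card_map_inj (subtype_injective G)).trans (S.card_pq N8) ▸ card_dvd_of_free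
    (R := (S.pq N8).map G.subtype) ?_ ?_) (by rw [card_N8]; decide)
  · rintro _ ⟨q, ⟨i, k⟩, rfl⟩ w hw
    have l := fun {w n} (h : Pt z r d w (dc n)) hn => (C.ax U D h i).2 ((N8_facts k).2 n hn)
    have o : ∀ {v}, v ∈ Fi.perp (conjugatesOf d) y ∩ Fi.perp (conjugatesOf d) d →
        (q : X) * v * (q : X)⁻¹ ∈ Fi.perp (conjugatesOf d) y ∩ Fi.perp (conjugatesOf d) d := fun h =>
      ⟨perp_conj j (l py (by simp)) h.1, perp_conj j (l p (by simp)) h.2⟩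
    have s : ∀ {v : X}, Commute v q → w ∈ Fi.perp (Fi.perp (conjugatesOf d) y ∩ Fi.perp (conjugatesOf d) d) v →
        (q : X) * w * (q : X)⁻¹ ∈ Fi.perp (Fi.perp (conjugatesOf d) y ∩ Fi.perp (conjugatesOf d) d) v := fun a b =>
      ⟨o b.1, fun e => b.2.1 ((conj_inj_iff _).1 (e.trans (commute_iff_conj.1 a.symm).symm)),
        (a.mul_right b.2.2).mul_right a.inv_right⟩
    exact ⟨s (l pe (by simp)) hw.1, s (l pf (by simp)) hw.2⟩
  · rintro _ ⟨q, ⟨i, k⟩, rfl⟩ w hw c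
    by_contra n
    obtain ⟨u, pu, tu⟩ := C.exists_pt U h2 D hw.1.1.1.1 (by
      rcases (N8_facts k).1 with e | e
      · exact ((S.ker q i).1 e).resolve_left (by simpa using n) ▸ c.symm
      · exact (S.sq q i).resolve_left (mt (S.sq' q i).1 e) ▸ c.symm.mul_right c.symm)
    refine no_common tu ?_
    simp only [List.forall_mem_cons]
    exact ⟨C.ort_of U h2 D pu p hw.1.1.2.2.2, C.ort_of U h2 D pu pe hw.1.2.2, C.ort_of U h2 D pu py hw.1.1.1.2.2,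
      C.ort_of U h2 D pu pf hw.2.2.2, by simp⟩

theorem stab_top {L : Subgroup X} (hL : ∀ g, Near (conjugatesOf d) d (g * d * g⁻¹) → g ∈ L) : L = ⊤ := by
  have k : ∀ g, Commute d (g * d * g⁻¹) → g ∈ L := fun g h => hL g (near_of_commute (IsConj.refl d) h)
  have p : Pt z r d d (dc 5) := ⟨1, one_mem _, by simp, by rw [S.r_one]; rfl⟩
  have k5 : ∀ h ∈ C1[z], r h (dc 5) = dc 5 → (h : X) ∈ L := fun h a b => by
    obtain ⟨m, e⟩ := C.ptW U h2 D ⟨h, a, rfl, b⟩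
    exact k _ (by simpa [e] using C.commN U h2 D 1 m)
  have := C.eq_top (L := L.subgroupOf G) (fun h a => ?_) (fun n a => k _ (by simpa using C.commN U h2 D 1 ⟨n, a⟩))
    fun c a => k _ ?_
  · refine eq_top_iff.2 fun g _ => ?_
    by_cases e : g ∈ G
    · exact this.ge (mem_top ⟨g, e⟩)
    · exact (mul_mem_cancel_left (k d (by simp))).1 (this.ge (mem_top ⟨d * g, by
        simp [mul_mem_iff_of_index_two h2, D.nm, e]⟩))
  · obtain ⟨g, b, c⟩ := lq_trans (u := r h (dc 5)) ((mem_N0.1 (S.memN _ a) _).trans (by decide +kernel))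
    obtain ⟨l, i, j, rfl⟩ := S.mem_im.1 (gen_le (H := S.im (L.subgroupOf G)) (fun g e => by
      obtain ⟨l, i, rfl⟩ := S.exK g (lq_facts e).1
      refine S.mem_im.2 ⟨l, (lq_facts e).2.elim (k5 l i) fun f => hL _ ?_, i, rfl⟩
      obtain ⟨e, pe⟩ := S.ex_pt (n := 80) (by decide +kernel) d
      obtain ⟨_, m, n, o⟩ := exists_lq (a := 6) (b := 80) (by simp)
      exact ⟨e, (pe.mem U D C).1, C.comm_of U h2 D (one_mem _) p pe,
        (C.comm_of U h2 D m ⟨l, i, rfl, f.trans n.symm⟩ (by rwa [o])).symm⟩) b)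
    exact (mul_mem_cancel_left i).1 (k5 _ (mul_mem j a) (by rw [S.rmul _ j _ a]; exact c))
  · by_cases e : c ∈ K
    · simp [commute_iff_conj.1 (D.cK c e).symm]
    · exact C.cT U h2 D a e ▸ (Commute.refl d).mul_right (C.dA U D (C.mem 1))

end UD

end Cfsg.Agent.LF
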