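import Cfsg.Agent.LF.Form

/-! # Weights of an elementary abelian `3`-group on a `12`-dimensional space over `𝔽₂` -/

set_option autoImplicit false

namespace Cfsg.Agent.LF

open Equiv Subgroup

variable {V1 : Type*} [AddCommGroup V1] [Module (ZMod 2) V1] {N : Type*} [Group N] {A : Subgroup N}
  {ρ : N →* (V1 ≃ₗ[ZMod 2] V1)}

variable (ρ) in
/-- Simultaneous eigenvectors. -/
def Eig (χ : A →* K4) (f : V1 →ₗ[ZMod 2] K4) : Prop := ∀ (a : A) v, f (ρ a v) = χ a * f v

variable (ρ A) in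
/-- The weights. -/
def Wts : Set (A →* K4) := {χ | ∃ f, f ≠ 0 ∧ Eig ρ χ f}

theorem rho_mul (a b : N) (v : V1) : ρ (a * b) v = ρ a (ρ b v) := by rw [map_mul]; rfl

theorem exists_eig [Finite A] (hc : ∀ a b : A, a * b = b * a) (h3 : ∀ a : A, a ^ 3 = 1) {v : V1}
    (hv : v ≠ 0) : ∃ (χ : A →* K4) (f : V1 →ₗ[ZMod 2] K4), Eig ρ χ f ∧ f v ≠ 0 := by
  classical
  have key : ∀ s : Finset A, ∃ f : V1 →ₗ[ZMod 2] K4, f v ≠ 0 ∧ ∀ a ∈ s, ∃ c, ∀ w, f (ρ a w) = c * f w := by
    intro s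
    induction s using Finset.induction_on with
    | empty =>
      obtain ⟨f, hf⟩ := Module.Projective.exists_dual_ne_zero (ZMod 2) hv
      exact ⟨Algebra.linearMap (ZMod 2) K4 ∘ₗ f, by simpa using hf, by simp⟩
    | insert a s _ ih =>
      obtain ⟨f, hf, h⟩ := ih
      obtain ⟨l, h1, h2⟩ := (show ∀ p q r : K4, p ≠ 0 → ∃ l : K4, l ^ 3 = 1 ∧ p + l ^ 2 * q + l * r ≠ 0 by
        decide) _ (f (ρ a v)) (f (ρ a (ρ a v))) hf
      refine ⟨f + l ^ 2 • f ∘ₗ (ρ a).toLinearMap + l • f ∘ₗ (ρ a).toLinearMap ∘ₗ (ρ a).toLinearMap, h2,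
        fun b hb => ?_⟩
      rcases Finset.mem_insert.1 hb with rfl | hb
      · refine ⟨l, fun w => ?_⟩
        have : ρ b (ρ b (ρ b w)) = w := by
          rw [← rho_mul, ← rho_mul, ← pow_three', ← Subgroup.coe_pow, h3]; simp
        change f _ + l ^ 2 * f _ + l * f (ρ b (ρ b (ρ b w))) = l * (f w + l ^ 2 * f (ρ b w) + l * f (ρ b (ρ b w)))
        rw [this]
        change f (ρ b w) + l ^ 2 * f (ρ b (ρ b w)) + l * f w = _
        linear_combination (-f (ρ b w)) * h1
      · obtain ⟨c, e⟩ := h b hb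
        have : ∀ w, ρ a (ρ b w) = ρ b (ρ a w) := fun w => by
          rw [← rho_mul, ← rho_mul, ← Subgroup.coe_mul, hc, Subgroup.coe_mul]
        refine ⟨c, fun w => ?_⟩
        change f (ρ b w) + l ^ 2 * f (ρ a (ρ b w)) + l * f (ρ a (ρ a (ρ b w))) =
          c * (f w + l ^ 2 * f (ρ a w) + l * f (ρ a (ρ a w)))
        rw [this, this, e, e, e]; ring
  have := Fintype.ofFinite A
  obtain ⟨f, hf, h⟩ := key Finset.univ
  choose c hc using fun a => h a (Finset.mem_univ a)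
  refine ⟨⟨⟨c, mul_right_cancel₀ hf ?_⟩, fun a b => mul_right_cancel₀ hf ?_⟩, f, hc, hf⟩
  · rw [← hc]; simp
  · rw [← hc, Subgroup.coe_mul, rho_mul, hc, hc, mul_assoc]

theorem eig_indep {ι : Type*} [Fintype ι] {χ : ι → A →* K4} (hχ : Function.Injective χ)
    {f : ι → V1 →ₗ[ZMod 2] K4} (h0 : ∀ i, f i ≠ 0) (h : ∀ i, Eig ρ (χ i) (f i)) : LinearIndependent K4 f := by
  refine Fintype.linearIndependent_iff.2 fun c hc i => ?_
  obtain ⟨v, hv⟩ : ∃ v, f i v ≠ 0 := by by_contra! e; exact h0 i (LinearMap.ext e)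
  refine (mul_eq_zero.1 (Fintype.linearIndependent_iff.1 ((linearIndependent_monoidHom A K4).comp χ hχ)
    (fun j => c j * f j v) (funext fun a => ?_) i)).resolve_right hv
  have := LinearMap.congr_fun hc (ρ a v)
  simp only [LinearMap.coe_sum, Finset.sum_apply, LinearMap.smul_apply, h _ a v, smul_eq_mul] at this
  simp only [Finset.sum_apply, Pi.smul_apply, smul_eq_mul, Function.comp]
  exact (Finset.sum_congr rfl fun j _ => by ring).trans this

theorem finrank_E (hV : Nat.card V1 = 4096) :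
    Module.Finite (ZMod 2) V1 ∧ Module.finrank K4 (V1 →ₗ[ZMod 2] K4) = 12 := by
  have : Finite V1 := Nat.finite_of_card_ne_zero (by omega)
  have h := Module.natCard_eq_pow_finrank (K := ZMod 2) (V := V1)
  rw [hV, Nat.card_zmod] at h
  refine ⟨inferInstance, ?_⟩
  rw [Module.finrank_linearMap, Module.finrank_self, mul_one]
  exact Nat.pow_right_injective le_rfl h.symm

theorem wts_card_le (hV : Nat.card V1 = 4096) {ι : Type*} [Finite ι] {χ : ι → A →* K4}
    (hχ : Function.Injective χ) (h : ∀ i, χ i ∈ Wts A ρ) : Nat.card ι ≤ 12 := by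
  have := Fintype.ofFinite ι
  obtain ⟨_, e⟩ := finrank_E hV
  choose f h0 h1 using h
  rw [← e, Nat.card_eq_fintype_card]
  exact (eig_indep hχ h0 h1).fintype_card_le_finrank

theorem eig_smul {ι : Type*} [Fintype ι] {χ : ι → A →* K4} (hχ : Function.Injective χ)
    {f : ι → V1 →ₗ[ZMod 2] K4} (h : ∀ i, Eig ρ (χ i) (f i)) (hs : Submodule.span K4 (Set.range f) = ⊤)
    {i : ι} {g : V1 →ₗ[ZMod 2] K4} (hg : Eig ρ (χ i) g) : ∃ c : K4, ∀ v, g v = c * f i v := by
  classical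
  obtain ⟨c, hc⟩ := (Submodule.mem_span_range_iff_exists_fun K4).1 (hs.ge (Submodule.mem_top (x := g)))
  refine ⟨c i, fun v => ?_⟩
  have := Fintype.linearIndependent_iff.1 ((linearIndependent_monoidHom A K4).comp χ hχ)
    (fun j => c j * f j v - if j = i then g v else 0) (funext fun a => ?_) i
  · simp only [if_true] at this; exact (sub_eq_zero.1 this).symm
  have := LinearMap.congr_fun hc (ρ a v)
  simp only [LinearMap.coe_sum, Finset.sum_apply, LinearMap.smul_apply, h _ a v, smul_eq_mul, hg a v] at this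
  simp only [Finset.sum_apply, Pi.smul_apply, smul_eq_mul, Function.comp, sub_mul, Finset.sum_sub_distrib,
    ite_mul, zero_mul, Finset.sum_ite_eq', Finset.mem_univ, if_true, Pi.zero_apply]
  rw [mul_comm (g v), ← this, sub_eq_zero]
  exact Finset.sum_congr rfl fun j _ => by ring

/-- Conjugate characters. -/
def cjc [A.Normal] (n : N) (χ : A →* K4) : A →* K4 := χ.comp (MulAut.conjNormal n⁻¹).toMonoidHom

theorem cjc_mul [A.Normal] (m n : N) (χ : A →* K4) : cjc (m * n) χ = cjc m (cjc n χ) :=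
  MonoidHom.ext fun _ => congrArg χ (Subtype.ext (by simp [mul_assoc]))

theorem cjc_fix [A.Normal] {n : N} (χ : A →* K4) {a : A} (h : n * a = a * n) : cjc n χ a = χ a :=
  congrArg χ (Subtype.ext (by simp [mul_assoc, ← h]))

theorem Eig.cj [A.Normal] {χ : A →* K4} {f : V1 →ₗ[ZMod 2] K4} (h : Eig ρ χ f) (n : N) :
    Eig ρ (cjc n⁻¹ χ) (f ∘ₗ (ρ n).toLinearMap) := fun a v => by
  refine Eq.trans ?_ (h (MulAut.conjNormal n⁻¹⁻¹ a) (ρ n v))
  change f (ρ n (ρ a v)) = _
  simp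

theorem comp_ne_zero {f : V1 →ₗ[ZMod 2] K4} (h : f ≠ 0) (n : N) : f ∘ₗ (ρ n).toLinearMap ≠ 0 := fun e =>
  h (LinearMap.ext fun v => by simpa using LinearMap.congr_fun e ((ρ n).symm v))

theorem cjc_mem [A.Normal] {χ : A →* K4} (h : χ ∈ Wts A ρ) (n : N) : cjc n χ ∈ Wts A ρ :=
  let ⟨_, a, b⟩ := h; ⟨_, comp_ne_zero a n⁻¹, by simpa using b.cj n⁻¹⟩

/-- The conjugate of a character. -/
def frc (χ : A →* K4) : A →* K4 := (starRingEnd K4).toMonoidHom.comp χ

/-- The conjugate of a functional. -/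
def frl (f : V1 →ₗ[ZMod 2] K4) : V1 →ₗ[ZMod 2] K4 := (starRingEnd K4).toAddMonoidHom.toZModLinearMap 2 ∘ₗ f

theorem frc_frc (χ : A →* K4) : frc (frc χ) = χ := MonoidHom.ext fun _ => star_star _

theorem Eig.fr {χ : A →* K4} {f : V1 →ₗ[ZMod 2] K4} (h : Eig ρ χ f) : Eig ρ (frc χ) (frl f) := fun a v => by
  change star (f _) = star (χ a) * star (f v)
  rw [h, star_mul']

theorem frl_ne_zero {f : V1 →ₗ[ZMod 2] K4} (h : f ≠ 0) : frl f ≠ 0 := fun e =>
  h (LinearMap.ext fun v => star_eq_zero.1 (LinearMap.congr_fun e v))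

theorem exists_frame [Finite N] [A.Normal] (hV : Nat.card V1 = 4096) (hρ : Function.Injective ρ)
    (hc : ∀ a b : A, a * b = b * a) (h3 : ∀ a : A, a ^ 3 = 1) (x : A) (hx : ∀ n : N, n * x = x * n)
    (hN : Nat.card N = 360 * Nat.card A) (hC : ∀ n : N, (∀ a ∈ A, n * a = a * n) → n ∈ A)
    (hA : ∀ χ : A →* K4, χ x = 1 → χ ≠ 1 → 13 ≤ (Set.range fun n : N => cjc n χ).ncard) :
    ∃ (e : V1 ≃ₗ[ZMod 2] V) (π : N →* Perm (Fin 6)), π.range = alternatingGroup (Fin 6) ∧
      (∀ a ∈ A, π a = 1) ∧ (∀ n, ∃ d, ∀ v, e (ρ n v) = mon d (π n) (e v)) ∧ ∀ v, e (ρ x v) = W (e v) := by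
  classical
  have : Finite (A →* K4) := Finite.of_injective _ DFunLike.coe_injective
  let S := {χ : A →* K4 // χ ∈ Wts A ρ ∧ χ x = om}
  have h1 : ∀ χ ∈ Wts A ρ, χ = 1 ∨ χ x = om ∨ frc χ x = om := fun χ hχ => by
    rcases (show ∀ a : K4, a ^ 3 = 1 → a = 1 ∨ a = om ∨ star a = om by decide) (χ x)
      (by rw [← map_pow, h3, map_one]) with e | e
    · refine .inl (by_contra fun e' => ?_)
      have := wts_card_le (ρ := ρ) hV (ι := Set.range fun n : N => cjc n χ) Subtype.val_injective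
        fun ⟨_, n, hn⟩ => by subst hn; exact cjc_mem hχ n
      have := hA χ e e'
      rw [← Nat.card_coe_set_eq] at this
      omega
    · exact .inr e
  let π0 : N →* Perm S := MonoidHom.toHomPerm
    { toFun n χ := ⟨cjc n χ.1, cjc_mem χ.2.1 n, (cjc_fix _ (hx n)).trans χ.2.2⟩
      map_one' := funext fun χ => Subtype.ext (MonoidHom.ext fun a => cjc_fix _ (by simp))
      map_mul' m n := funext fun χ => Subtype.ext (cjc_mul m n χ.1) }
  have hπ : ∀ n χ, (π0 n χ).1 = cjc n χ.1 := fun _ _ => rfl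
  have h2 : π0.ker = A := by
    ext n
    refine ⟨fun hn => hC n fun a ha => ?_, fun hn => Equiv.ext fun χ => Subtype.ext (MonoidHom.ext fun a =>
      cjc_fix _ (congrArg Subtype.val (hc ⟨n, hn⟩ a)))⟩
    have k : ∀ χ : S, cjc n χ.1 = χ.1 := fun χ => by rw [← hπ, hn]; rfl
    have : ρ (MulAut.conjNormal n⁻¹ (⟨a, ha⟩ : A)) = ρ a := LinearEquiv.ext fun v => by
      by_contra e
      obtain ⟨χ, f, a1, a2⟩ := exists_eig (ρ := ρ) hc h3 (sub_ne_zero.2 e)
      have a3 : χ ∈ Wts A ρ := ⟨f, by rintro rfl; exact a2 rfl, a1⟩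
      have : cjc n χ = χ := by
        rcases h1 χ a3 with rfl | e | e
        · rfl
        · exact k ⟨χ, a3, e⟩
        · obtain ⟨g, b1, b2⟩ := a3
          rw [← frc_frc χ]
          exact congrArg frc (k ⟨frc χ, ⟨_, frl_ne_zero b1, b2.fr⟩, e⟩)
      rw [map_sub, a1, a1 ⟨a, ha⟩, sub_ne_zero] at a2
      exact a2 (congrArg (· * f v) (DFunLike.congr_fun this ⟨a, ha⟩))
    have := hρ this
    rw [MulAut.conjNormal_apply, inv_inv, mul_assoc, inv_mul_eq_iff_eq_mul] at this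
    exact this.symm
  have h4 : Nat.card π0.range = 360 := by
    have := π0.ker.card_mul_index
    rw [index_ker, h2, hN, mul_comm] at this
    exact Nat.eq_of_mul_eq_mul_right Nat.card_pos this
  let χ : S ⊕ S → A →* K4 := Sum.elim Subtype.val fun ψ => frc ψ.1
  have hχ : Function.Injective χ := by
    have k : ∀ ψ ψ' : S, ψ.1 ≠ frc ψ'.1 := fun ψ ψ' e => by
      have := ψ.2.2
      rw [e] at this
      change star (ψ'.1 x) = _ at this
      rw [ψ'.2.2] at this
      exact absurd this (by decide)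
    rintro (a | a) (b | b) e
    · exact congrArg _ (Subtype.ext e)
    · exact absurd e (k a b)
    · exact absurd e.symm (k b a)
    · exact congrArg _ (Subtype.ext (by rw [← frc_frc a.1, ← frc_frc b.1]; exact congrArg frc e))
  choose f f0 f1 using fun ψ : S => ψ.2.1
  let F : S ⊕ S → V1 →ₗ[ZMod 2] K4 := Sum.elim f fun ψ => frl (f ψ)
  have F0 : ∀ i, F i ≠ 0 := fun | .inl ψ => f0 ψ | .inr ψ => frl_ne_zero (f0 ψ)
  have F1 : ∀ i, Eig ρ (χ i) (F i) := fun | .inl ψ => f1 ψ | .inr ψ => (f1 ψ).fr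
  have h5 : Nat.card S = 6 := by
    have a := wts_card_le (ρ := ρ) hV hχ fun i => ⟨_, F0 i, F1 i⟩
    have b := π0.range.card_subgroup_dvd_card
    rw [Nat.card_sum] at a
    rw [h4, Nat.card_perm] at b
    have : Nat.card S ≤ 6 := by omega
    interval_cases Nat.card S <;> first | rfl | exact absurd b (by decide)
  have := Fintype.ofFinite S
  obtain ⟨_, hE⟩ := finrank_E hV
  have hs : Submodule.span K4 (Set.range F) = ⊤ := (eig_indep hχ F0 F1).span_eq_top_of_card_eq_finrank'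
    (by rw [hE, Fintype.card_sum, ← Nat.card_eq_fintype_card, h5])
  let ε := Finite.equivFinOfCardEq h5
  let e0 : V1 →ₗ[ZMod 2] V := LinearMap.pi fun i => f (ε.symm i)
  have he : Function.Bijective e0 := by
    refine (Nat.bijective_iff_injective_and_card _).2 ⟨(injective_iff_map_eq_zero _).2 fun v hv => ?_,
      by rw [hV, card_V]⟩
    by_contra e
    obtain ⟨_, g, -, a⟩ := exists_eig (ρ := ρ) hc h3 e
    obtain ⟨c, rfl⟩ := (Submodule.mem_span_range_iff_exists_fun K4).1 (hs.ge (Submodule.mem_top (x := g)))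
    have k : ∀ ψ, f ψ v = 0 := fun ψ => by simpa [e0] using congrFun hv (ε ψ)
    refine a ?_
    rw [LinearMap.sum_apply]
    refine Finset.sum_eq_zero fun i _ => mul_eq_zero_of_right _ ?_
    rcases i with ψ | ψ
    · exact k ψ
    · exact star_eq_zero.2 (k ψ)
  refine ⟨LinearEquiv.ofBijective e0 he, ε.permCongrHom.toMonoidHom.comp π0, ?_, fun a ha => ?_, fun n => ?_,
    fun v => funext fun i => ?_⟩
  · refine Perm.eq_alternatingGroup_of_index_eq_two ?_
    have := (ε.permCongrHom.toMonoidHom.comp π0).range.card_mul_index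
    rw [MonoidHom.range_comp, card_map_of_injective ε.permCongrHom.injective, h4, Nat.card_perm,
      Nat.card_fin, ← MonoidHom.range_comp, show Nat.factorial 6 = 720 from rfl] at this
    omega
  · rw [MonoidHom.comp_apply, MonoidHom.mem_ker.1 (h2.ge ha), map_one]
  · have : ∀ i, ∃ c : K4ˣ, ∀ v, f (ε.symm i) (ρ n v) = c * f (π0 n⁻¹ (ε.symm i)) v := fun i => by
      obtain ⟨c, hc⟩ := eig_smul hχ F1 hs (i := .inl (π0 n⁻¹ (ε.symm i))) ((f1 _).cj n)
      refine ⟨Units.mk0 c ?_, hc⟩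
      rintro rfl
      exact comp_ne_zero (f0 _) n (LinearMap.ext fun v => (hc v).trans (zero_mul _))
    choose d hd using this
    refine ⟨d, fun v => funext fun i => (hd i v).trans ?_⟩
    rw [mon_apply, ← map_inv]
    change _ = _ * f (ε.symm (ε (π0 n⁻¹ (ε.symm i)))) v
    rw [ε.symm_apply_apply]
  · rw [W_apply]
    exact (f1 _ x v).trans (congrArg (· * _) (ε.symm i).2.2)

end Cfsg.Agent.LF
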