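import Cfsg.Agent.LF.Form
import Cfsg.Agent.Leech.Fix2

/-! # Stabilisers of class functions -/

set_option autoImplicit false

namespace Cfsg.Agent.LF

open Cfsg.Agent.M24 Cfsg.Agent.Cl Cfsg.Agent.Leech Equiv Subgroup

/-- Invariant check along a chain whose base points are the columns of `B`. -/
noncomputable def fullT (f : ℕ → ℕ) (B : ℕ) (Ls : List Lvl) : ℕ → Bool :=
  List.rec (motive := fun _ => ℕ → Bool) (fun i => Nat.beq i 12) (fun L _ ih i =>
    band (band (Nat.beq L.b (col B i)) (Nat.ble i 11)) (band (force (Nat.pow 2 i) fun N =>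
      ball (fun w => bor (L.t.has w) (nany N fun m => force (mm B m) fun u =>
        !Nat.beq (f (Nat.xor w u)) (f (Nat.xor L.b u)))) 12 0) (force (Nat.succ i) ih))) Ls

theorem fix_span {g : Γ} {B i : ℕ} (hi : i ≤ 12) (h : ∀ j < i, g (dc (col B j)) = dc (col B j)) :
    ∀ m < 2 ^ i, g (dc (mm B m)) = dc (mm B m) := by
  have : 2 ^ i ≤ 4096 := Nat.pow_le_pow_right (n := 2) (by norm_num) hi
  exact bits_ind i (by simp [mm_zero, dc_zero]) (fun j hj => by rw [mm_pow _ (by omega)]; exact h j hj)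
    fun x hx y hy a b => by rw [mm_xor _ (by omega) (by omega), dc_xor, map_add, a, b]

theorem fullT_sound {f : ℕ → ℕ} {B : ℕ} {Ls : List Lvl} {i : ℕ} (h : fullT f B Ls i = true) :
    (∀ j, i ≤ j → j < 12 → ∃ L ∈ Ls, L.b = col B j) ∧ ∀ H : Set Γ,
    (∀ g ∈ H, (∀ v, f (cd (g v)) = f (cd v)) ∧ ∀ j < i, g (dc (col B j)) = dc (col B j)) →
    Full (Set.univ : Set V) cd H Ls := by
  induction Ls generalizing i with
  | nil => exact ⟨fun j h1 h2 => by have := Nat.eq_of_beq_eq_true h; omega, fun _ _ => trivial⟩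
  | cons L Ls ih =>
    rw [show fullT f B (L :: Ls) i = band (band (Nat.beq L.b (col B i)) (Nat.ble i 11))
      (band (force (Nat.pow 2 i) fun N => ball (fun w => bor (L.t.has w) (nany N fun m =>
      force (mm B m) fun u => !Nat.beq (f (Nat.xor w u)) (f (Nat.xor L.b u)))) 12 0)
      (force (Nat.succ i) (fullT f B Ls))) from rfl] at h
    simp only [band_eq, force_eq, Bool.and_eq_true, Nat.beq_eq, Nat.ble_eq] at h
    obtain ⟨⟨h1, h2⟩, h3, h4⟩ := h
    obtain ⟨a, b⟩ := ih (i := i + 1) h4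
    refine ⟨fun j j1 j2 => ?_, fun H hH x _ hx => ⟨fun g hg => ?_, b _ fun g hg => ⟨(hH g hg.1).1, fun j hj => ?_⟩⟩⟩
    · rcases j1.eq_or_lt with rfl | j1
      · exact ⟨L, List.mem_cons_self, h1⟩
      · obtain ⟨L', c, d⟩ := a j j1 j2
        exact ⟨L', List.mem_cons_of_mem _ c, d⟩
    · have := forall_V h3 (g x)
      simp only [bor_eq, Bool.or_eq_true, nany_iff, Bool.not_eq_true'] at this
      rcases this with e | ⟨m, hm, e⟩
      · exact T.has_sound e
      · have e1 := fix_span (by omega) (hH g hg).2 m hm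
        have e2 := (hH g hg).1 (x + dc (mm B m))
        have e3 : m < 2 ^ 12 := hm.trans_le (Nat.pow_le_pow_right (n := 2) (by norm_num) (by omega))
        rw [map_add, e1, cd_add, cd_add, cd_dc (mm_vec_lt B m e3), hx] at e2
        exact absurd (Nat.beq_eq ▸ e2 : Nat.beq _ _ = true) (by rw [Bool.not_eq_true]; simpa using e)
    · rcases (Nat.lt_succ_iff.1 hj).eq_or_lt with rfl | hj
      · rw [← h1, ← hx, dc_cd]; exact hg.2
      · exact (hH g hg.1).2 j hj

/-- The automorphisms preserving a class function. -/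
def StF (f : ℕ → ℕ) : Subgroup Γ where
  carrier := {g | ∀ v, f (cd (g v)) = f (cd v)}
  one_mem' _ := rfl
  mul_mem' {a b} ha hb v := (ha (b v)).trans (hb v)
  inv_mem' {a} ha v := by rw [← ha (a⁻¹ v)]; exact congrArg (f ∘ cd) (a.apply_symm_apply v)

theorem eq_StF {f : ℕ → ℕ} {B : ℕ} {Ls : List Lvl} (h : chk Ls = true) (hB : isC B = true)
    (h1 : fullT f B Ls 0 = true) (h2 : invTab (gensOf Ls) f = true) : gen code (gensOf Ls) = StF f := by
  have hle : gen code (gensOf Ls) ≤ StF f := fun g hg => invTab_sound h2 hg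
  refine hle.antisymm fun g hg => ?_
  obtain ⟨a, b⟩ := fullT_sound h1
  obtain ⟨k, hk, e⟩ := (chk_sound h).2.1.reduce ac Ls.length hle
    (by rw [List.take_length]; exact b _ fun g hg => ⟨hg, by simp⟩) g hg
  obtain ⟨β, rfl⟩ := exists_code hB
  have : k * g * β = β := Γ_ext fun j hj => by
    obtain ⟨L, c, d⟩ := a j (by omega) hj
    exact e L (by rwa [List.take_length]) _ trivial (by rw [d, col_code _ hj]; rfl)
  rw [mul_eq_right, mul_eq_one_iff_eq_inv] at this
  exact (inv_mem_iff).1 (this ▸ hk)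

theorem gen_le_norm {l : List ℕ} {Ls : List Lvl} (h : chk Ls = true)
    (h1 : (lall l fun s => lall (gensOf Ls) fun k => force (mul s k) fun a => force (inv s) fun b =>
      force (mul a b) (sift mul one mm Ls)) = true) :
    gen code l ≤ normalizer (gen code (gensOf Ls) : Set Γ) := gen_le fun g hg =>
  mem_normalizer_fintype fun k hk => (show gen code (gensOf Ls) ≤
      (gen code (gensOf Ls)).comap (MulAut.conj g).toMonoidHom from gen_le fun k hk => by
    have := (lall_iff _ _).1 ((lall_iff _ _).1 h1 _ hg) _ hk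
    simp only [force_eq, ← gc.code_mul, ← gc.code_inv] at this
    exact ((chk_sound h).2.2.2 _).2 this) hk


end Cfsg.Agent.LF
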