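import Cfsg.Agent.M24.Perm

/-! # The space `K4 ^ 6` coded by 12-bit numbers, additive automorphisms coded by bit matrices -/

set_option autoImplicit false

namespace Cfsg.Agent.LF

open Cfsg.Agent.M24

instance factK4 : Fact (∀ r : ZMod 2, r ^ 2 ≠ 1 + 1 * r) := ⟨by decide⟩

/-- The field with four elements. -/
abbrev K4 : Type := QuadraticAlgebra (ZMod 2) 1 1

instance fintypeK4 : Fintype K4 := Fintype.ofEquiv _ (QuadraticAlgebra.equivProd 1 1).symm

theorem card_K4 : Fintype.card K4 = 4 := by decide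

/-- The space. -/
abbrev V : Type := Fin 6 → K4

/-- Its additive automorphisms. -/
abbrev Γ : Type := V ≃ₗ[ZMod 2] V

theorem card_V : Nat.card V = 4096 := by
  rw [Nat.card_eq_fintype_card, Fintype.card_fun, card_K4]; rfl

theorem K4_add_self (a : K4) : a + a = 0 := by revert a; decide

theorem V_add_self (v : V) : v + v = 0 := funext fun i => K4_add_self (v i)

theorem V_neg (v : V) : -v = v := neg_eq_of_add_eq_zero_left (V_add_self v)

theorem V_add_eq_zero {u v : V} : u + v = 0 ↔ u = v := by rw [add_eq_zero_iff_eq_neg, V_neg]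

/-- Code of a field element. -/
def c4 (a : K4) : ℕ := a.re.val + 2 * a.im.val

/-- Code of a vector. -/
def cd (v : V) : ℕ :=
  c4 (v 0) + 4 * c4 (v 1) + 16 * c4 (v 2) + 64 * c4 (v 3) + 256 * c4 (v 4) + 1024 * c4 (v 5)

/-- A bit as an element of the prime field. -/
def b2 (b : Bool) : ZMod 2 := if b then 1 else 0

/-- The vector of a code. -/
def dc (n : ℕ) : V := fun i => ⟨b2 (n.testBit (2 * i)), b2 (n.testBit (2 * i + 1))⟩

theorem c4_lt (a : K4) : c4 a < 4 := by revert a; decide

theorem cd_lt (v : V) : cd v < 4096 := by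
  have h := fun i => c4_lt (v i)
  have := h 0; have := h 1; have := h 2; have := h 3; have := h 4; have := h 5
  unfold cd; omega

theorem cd_dc {n : ℕ} (h : n < 4096) : cd (dc n) = n :=
  Nat.eq_of_beq_eq_true (ball_zero (f := fun n => Nat.beq (cd (dc n)) n) (d := 12) (by decide +kernel) n h)

theorem dc_cd (v : V) : dc (cd v) = v := by
  have : Function.Injective fun n : Fin 4096 => dc n := fun a b h =>
    Fin.ext (by rw [← cd_dc a.2, ← cd_dc b.2]; exact congrArg cd h)
  obtain ⟨n, rfl⟩ := (Nat.bijective_iff_injective_and_card _).2 ⟨this, by rw [card_V]; simp⟩ |>.2 v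
  simp only [cd_dc n.2]

theorem cd_inj : Function.Injective cd := fun u v h => by rw [← dc_cd u, h, dc_cd]

theorem dc_xor (a b : ℕ) : dc (a ^^^ b) = dc a + dc b := funext fun i => by
  have : ∀ x y : Bool, b2 (xor x y) = b2 x + b2 y := by decide
  ext <;> simp [dc, this]

theorem xor_lt {a b : ℕ} (ha : a < 4096) (hb : b < 4096) : a ^^^ b < 4096 :=
  Nat.xor_lt_two_pow (n := 12) ha hb

theorem cd_add (u v : V) : cd (u + v) = cd u ^^^ cd v := by
  rw [← cd_dc (xor_lt (cd_lt u) (cd_lt v)), dc_xor, dc_cd, dc_cd]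

theorem cd_zero : cd 0 = 0 := rfl

theorem dc_zero : dc 0 = 0 := by decide

theorem cd_eq_iff {v : V} {n : ℕ} (h : n < 4096) : cd v = n ↔ v = dc n :=
  ⟨fun e => by rw [← e, dc_cd], fun e => by rw [e, cd_dc h]⟩

theorem forall_V {f : ℕ → Bool} (h : ball f 12 0 = true) (v : V) : f (cd v) = true :=
  ball_zero h _ (cd_lt v)

theorem bits_ind {P : ℕ → Prop} (n : ℕ) (h0 : P 0) (hb : ∀ i < n, P (2 ^ i))
    (hx : ∀ x < 2 ^ n, ∀ y < 2 ^ n, P x → P y → P (x ^^^ y)) : ∀ x < 2 ^ n, P x := by
  have key : ∀ m ≤ n, ∀ x < 2 ^ m, P x := by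
    intro m
    induction m with
    | zero => intro _ x hx; obtain rfl : x = 0 := by omega
              exact h0
    | succ m ih =>
      intro hm x hlt
      have h1 : 2 ^ m < 2 ^ n := Nat.pow_lt_pow_right (by norm_num) (by omega)
      by_cases h : x < 2 ^ m
      · exact ih (by omega) x h
      · have h2 : x - 2 ^ m < 2 ^ m := by rw [pow_succ] at hlt; omega
        have : x = 2 ^ m ^^^ (x - 2 ^ m) := by
          have e : x = 2 ^ m + (x - 2 ^ m) := by omega
          refine Nat.eq_of_testBit_eq fun t => ?_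
          rw [Nat.testBit_xor, Nat.testBit_two_pow]
          rcases lt_trichotomy t m with ht | rfl | ht
          · rw [e, Nat.testBit_two_pow_add_gt ht]; simp [ht.ne']
          · rw [e, Nat.testBit_two_pow_add_eq]; simp [Nat.testBit_lt_two_pow h2]
          · have : 2 ^ (m + 1) ≤ 2 ^ t := Nat.pow_le_pow_right (by norm_num) ht
            rw [Nat.testBit_lt_two_pow (by omega), Nat.testBit_lt_two_pow (x := x - 2 ^ m) (by omega)]
            simp [ht.ne]
        rw [this]
        exact hx _ h1 _ (h2.trans h1) (hb m (by omega)) (ih (by omega) _ h2)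
  exact key n le_rfl

theorem V_ind {P : V → Prop} (h0 : P 0) (hb : ∀ i < 12, P (dc (2 ^ i)))
    (hx : ∀ u v, P u → P v → P (u + v)) (v : V) : P v := by
  rw [← dc_cd v]
  exact bits_ind (P := fun n => P (dc n)) 12 (by rw [dc_zero]; exact h0) hb
    (fun x _ y _ h h' => by rw [dc_xor]; exact hx _ _ h h') _ (cd_lt v)

theorem Γ_ext {g h : Γ} (H : ∀ i < 12, g (dc (2 ^ i)) = h (dc (2 ^ i))) : g = h :=
  LinearEquiv.ext fun v => V_ind (P := fun v => g v = h v) (by simp) H
    (fun u v a b => by rw [map_add, map_add, a, b]) v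

/-- A column of a bit matrix. -/
def col (A j : ℕ) : ℕ := apw (nat_lit 12) (nat_lit 4095) A j

theorem col_lt (A j : ℕ) : col A j < 4096 := apw_lt (w := 12) (mk := 4095) rfl A j

theorem col_def (A j : ℕ) : col A j = A / 4096 ^ j % 4096 := by
  change (A >>> (12 * j)) &&& (2 ^ 12 - 1) = _
  rw [Nat.and_two_pow_sub_one_eq_mod, Nat.shiftRight_eq_div_pow, pow_mul]; rfl

theorem col_xor (A B j : ℕ) : col (A ^^^ B) j = col A j ^^^ col B j := by
  change ((A ^^^ B) >>> (12 * j)) &&& 4095 = (A >>> (12 * j)) &&& 4095 ^^^ (B >>> (12 * j)) &&& 4095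
  rw [Nat.shiftRight_xor_distrib, Nat.and_xor_distrib_right]

theorem col_ext {A B : ℕ} (hA : A < 2 ^ 144) (hB : B < 2 ^ 144) (h : ∀ j < 12, col A j = col B j) : A = B := by
  refine Nat.eq_of_testBit_eq fun t => ?_
  by_cases ht : t < 144
  · have := congrArg (fun x => Nat.testBit x (t % 12)) (h (t / 12) (by omega))
    simp only [col, testBit_apw (w := 12) (mk := 4095) rfl] at this
    simpa [Nat.mod_lt, Nat.div_add_mod] using this
  · have : 2 ^ 144 ≤ 2 ^ t := Nat.pow_le_pow_right (by norm_num) (by omega)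
    rw [Nat.testBit_lt_two_pow (by omega), Nat.testBit_lt_two_pow (by omega)]

/-- The mask of the lowest bits of `n` columns. -/
def mkn : ℕ → ℕ
  | 0 => 0
  | n + 1 => 1 + 4096 * mkn n

theorem and_mkn (X n : ℕ) : X &&& mkn (n + 1) = X % 2 + 4096 * ((X / 4096) &&& mkn n) := by
  have h1 := Nat.and_div_two_pow (a := X) (b := mkn (n + 1)) (n := 12)
  have h2 := Nat.and_mod_two_pow (a := X) (b := mkn (n + 1)) (n := 12)
  have h3 : mkn (n + 1) / 2 ^ 12 = mkn n := by simp only [mkn]; omega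
  have h4 : mkn (n + 1) % 2 ^ 12 = 1 := by simp only [mkn]; omega
  rw [h3] at h1; rw [h4, Nat.and_one_is_mod] at h2
  have := Nat.mod_add_div (X &&& mkn (n + 1)) (2 ^ 12)
  norm_num at h1 h2 this ⊢
  omega

theorem spread {c : ℕ} (hc : c < 4096) (n X : ℕ) : (X &&& mkn n) * c < 4096 ^ n ∧
    ∀ j < n, col ((X &&& mkn n) * c) j = X / 4096 ^ j % 2 * c := by
  induction n generalizing X with
  | zero => simp [mkn]
  | succ n ih =>
    obtain ⟨h1, h2⟩ := ih (X / 4096)
    have h3 : X % 2 * c < 4096 := by rcases Nat.mod_two_eq_zero_or_one X with e | e <;> rw [e] <;> omega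
    rw [and_mkn, add_mul, mul_assoc]
    generalize (X / 4096 &&& mkn n) * c = Y at h1 h2
    refine ⟨by rw [pow_succ]; omega, fun j hj => ?_⟩
    cases j with
    | zero => rw [col_def]; simp only [pow_zero, Nat.div_one]; omega
    | succ j =>
      have := h2 j (by omega)
      rw [col_def] at this ⊢
      rw [pow_succ', ← Nat.div_div_eq_div_mul, ← Nat.div_div_eq_div_mul, ← this]
      congr 2; omega

/-- Product of bit matrices (also: matrix times vector). -/
def mm (A B : ℕ) : ℕ :=
  (Nat.xor (Nat.xor (Nat.xor (Nat.xor (Nat.xor (Nat.xor (Nat.xor (Nat.xor (Nat.xor (Nat.xor (Nat.xor (Nat.mul (Nat.land (Nat.shiftRight B (nat_lit 0)) (nat_lit 0x1001001001001001001001001001001001)) (Nat.land (Nat.shiftRight A (nat_lit 0)) (nat_lit 4095)))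
    (Nat.mul (Nat.land (Nat.shiftRight B (nat_lit 1)) (nat_lit 0x1001001001001001001001001001001001)) (Nat.land (Nat.shiftRight A (nat_lit 12)) (nat_lit 4095))))
    (Nat.mul (Nat.land (Nat.shiftRight B (nat_lit 2)) (nat_lit 0x1001001001001001001001001001001001)) (Nat.land (Nat.shiftRight A (nat_lit 24)) (nat_lit 4095))))
    (Nat.mul (Nat.land (Nat.shiftRight B (nat_lit 3)) (nat_lit 0x1001001001001001001001001001001001)) (Nat.land (Nat.shiftRight A (nat_lit 36)) (nat_lit 4095))))
    (Nat.mul (Nat.land (Nat.shiftRight B (nat_lit 4)) (nat_lit 0x1001001001001001001001001001001001)) (Nat.land (Nat.shiftRight A (nat_lit 48)) (nat_lit 4095))))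
    (Nat.mul (Nat.land (Nat.shiftRight B (nat_lit 5)) (nat_lit 0x1001001001001001001001001001001001)) (Nat.land (Nat.shiftRight A (nat_lit 60)) (nat_lit 4095))))
    (Nat.mul (Nat.land (Nat.shiftRight B (nat_lit 6)) (nat_lit 0x1001001001001001001001001001001001)) (Nat.land (Nat.shiftRight A (nat_lit 72)) (nat_lit 4095))))
    (Nat.mul (Nat.land (Nat.shiftRight B (nat_lit 7)) (nat_lit 0x1001001001001001001001001001001001)) (Nat.land (Nat.shiftRight A (nat_lit 84)) (nat_lit 4095))))
    (Nat.mul (Nat.land (Nat.shiftRight B (nat_lit 8)) (nat_lit 0x1001001001001001001001001001001001)) (Nat.land (Nat.shiftRight A (nat_lit 96)) (nat_lit 4095))))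
    (Nat.mul (Nat.land (Nat.shiftRight B (nat_lit 9)) (nat_lit 0x1001001001001001001001001001001001)) (Nat.land (Nat.shiftRight A (nat_lit 108)) (nat_lit 4095))))
    (Nat.mul (Nat.land (Nat.shiftRight B (nat_lit 10)) (nat_lit 0x1001001001001001001001001001001001)) (Nat.land (Nat.shiftRight A (nat_lit 120)) (nat_lit 4095))))
    (Nat.mul (Nat.land (Nat.shiftRight B (nat_lit 11)) (nat_lit 0x1001001001001001001001001001001001)) (Nat.land (Nat.shiftRight A (nat_lit 132)) (nat_lit 4095))))

/-- Product of the upper halves. -/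
def mmh (A B : ℕ) : ℕ :=
  (Nat.xor (Nat.xor (Nat.xor (Nat.xor (Nat.xor (Nat.xor (Nat.xor (Nat.xor (Nat.xor (Nat.xor (Nat.xor (Nat.mul (Nat.land (Nat.shiftRight B (nat_lit 144)) (nat_lit 0x1001001001001001001001001001001001)) (Nat.land (Nat.shiftRight A (nat_lit 144)) (nat_lit 4095)))
    (Nat.mul (Nat.land (Nat.shiftRight B (nat_lit 145)) (nat_lit 0x1001001001001001001001001001001001)) (Nat.land (Nat.shiftRight A (nat_lit 156)) (nat_lit 4095))))
    (Nat.mul (Nat.land (Nat.shiftRight B (nat_lit 146)) (nat_lit 0x1001001001001001001001001001001001)) (Nat.land (Nat.shiftRight A (nat_lit 168)) (nat_lit 4095))))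
    (Nat.mul (Nat.land (Nat.shiftRight B (nat_lit 147)) (nat_lit 0x1001001001001001001001001001001001)) (Nat.land (Nat.shiftRight A (nat_lit 180)) (nat_lit 4095))))
    (Nat.mul (Nat.land (Nat.shiftRight B (nat_lit 148)) (nat_lit 0x1001001001001001001001001001001001)) (Nat.land (Nat.shiftRight A (nat_lit 192)) (nat_lit 4095))))
    (Nat.mul (Nat.land (Nat.shiftRight B (nat_lit 149)) (nat_lit 0x1001001001001001001001001001001001)) (Nat.land (Nat.shiftRight A (nat_lit 204)) (nat_lit 4095))))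
    (Nat.mul (Nat.land (Nat.shiftRight B (nat_lit 150)) (nat_lit 0x1001001001001001001001001001001001)) (Nat.land (Nat.shiftRight A (nat_lit 216)) (nat_lit 4095))))
    (Nat.mul (Nat.land (Nat.shiftRight B (nat_lit 151)) (nat_lit 0x1001001001001001001001001001001001)) (Nat.land (Nat.shiftRight A (nat_lit 228)) (nat_lit 4095))))
    (Nat.mul (Nat.land (Nat.shiftRight B (nat_lit 152)) (nat_lit 0x1001001001001001001001001001001001)) (Nat.land (Nat.shiftRight A (nat_lit 240)) (nat_lit 4095))))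
    (Nat.mul (Nat.land (Nat.shiftRight B (nat_lit 153)) (nat_lit 0x1001001001001001001001001001001001)) (Nat.land (Nat.shiftRight A (nat_lit 252)) (nat_lit 4095))))
    (Nat.mul (Nat.land (Nat.shiftRight B (nat_lit 154)) (nat_lit 0x1001001001001001001001001001001001)) (Nat.land (Nat.shiftRight A (nat_lit 264)) (nat_lit 4095))))
    (Nat.mul (Nat.land (Nat.shiftRight B (nat_lit 155)) (nat_lit 0x1001001001001001001001001001001001)) (Nat.land (Nat.shiftRight A (nat_lit 276)) (nat_lit 4095))))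

theorem mmh_eq (A B : ℕ) : mmh A B = mm (A >>> 144) (B >>> 144) := by
  simp only [mm, mmh, Nat.shiftRight_eq, ← Nat.shiftRight_add]

/-- One term of the product. -/
def tm (A B k : ℕ) : ℕ := (B >>> k &&& mkn 12) * col A k

theorem mm_eq (A B : ℕ) : mm A B = tm A B 0 ^^^ tm A B 1 ^^^ tm A B 2 ^^^ tm A B 3 ^^^ tm A B 4 ^^^ tm A B 5 ^^^
    tm A B 6 ^^^ tm A B 7 ^^^ tm A B 8 ^^^ tm A B 9 ^^^ tm A B 10 ^^^ tm A B 11 := rfl

theorem tm_lt (A B k : ℕ) : tm A B k < 2 ^ 144 := (spread (col_lt A k) 12 _).1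

theorem mm_lt (A B : ℕ) : mm A B < 2 ^ 144 := by
  rw [mm_eq]
  repeat' apply Nat.xor_lt_two_pow
  all_goals exact tm_lt _ _ _

theorem tm_vec (A : ℕ) {x : ℕ} (hx : x < 4096) (k : ℕ) : tm A x k = x / 2 ^ k % 2 * col A k := by
  have : x / 2 ^ k / 4096 = 0 := Nat.div_eq_of_lt ((Nat.div_le_self _ _).trans_lt hx)
  rw [tm, and_mkn, Nat.shiftRight_eq_div_pow, this]; simp

theorem col_tm (A B : ℕ) {j k : ℕ} (hj : j < 12) (hk : k < 12) : col (tm A B k) j = tm A (col B j) k := by
  rw [tm_vec A (col_lt B j), tm, (spread (col_lt A k) 12 _).2 j hj, col_def B, Nat.shiftRight_eq_div_pow]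
  congr 1
  rw [Nat.div_div_eq_div_mul, mul_comm, ← Nat.div_div_eq_div_mul]
  generalize B / 4096 ^ j = y
  interval_cases k <;> omega

theorem col_mm (A B : ℕ) {j : ℕ} (hj : j < 12) : col (mm A B) j = mm A (col B j) := by
  simp only [mm_eq, col_xor]
  simp only [col_tm A B hj, Nat.reduceLT]

theorem mm_xor (A : ℕ) {x y : ℕ} (hx : x < 4096) (hy : y < 4096) : mm A (x ^^^ y) = mm A x ^^^ mm A y := by
  have : ∀ k, tm A (x ^^^ y) k = tm A x k ^^^ tm A y k := fun k => by
    rw [tm_vec A hx, tm_vec A hy, tm_vec A (xor_lt hx hy), ← Nat.toNat_testBit, ← Nat.toNat_testBit,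
      ← Nat.toNat_testBit, Nat.testBit_xor]
    cases x.testBit k <;> cases y.testBit k <;> simp
  simp only [mm_eq, this]
  ac_rfl

theorem mm_pow (A : ℕ) {i : ℕ} (hi : i < 12) : mm A (2 ^ i) = col A i := by
  have h : 2 ^ i < 4096 := Nat.pow_lt_pow_right (n := 12) (by norm_num) hi
  simp only [mm_eq, tm_vec A h]
  interval_cases i <;> simp

theorem mm_zero (A : ℕ) : mm A 0 = 0 := by simp [mm_eq, tm]

theorem mm_vec_lt (A : ℕ) : ∀ x < 2 ^ 12, mm A x < 4096 :=
  bits_ind 12 (by simp [mm_zero]) (fun i hi => by rw [mm_pow A hi]; exact col_lt A i)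
    fun x hx y hy h h' => by rw [mm_xor A hx hy]; exact xor_lt h h'

theorem mm_congr {A A' : ℕ} (h : ∀ j < 12, col A j = col A' j) (B : ℕ) : mm A B = mm A' B := by
  simp only [mm_eq, tm]
  simp only [h, Nat.reduceLT]

/-- The matrix of an additive map. -/
noncomputable def mat (g : Γ) : ℕ := pack 12 12 fun j => cd (g (dc (2 ^ j)))

theorem col_mat (g : Γ) {j : ℕ} (hj : j < 12) : col (mat g) j = cd (g (dc (2 ^ j))) :=
  apw_pack (w := 12) (mk := 4095) rfl (fun _ _ => cd_lt _) hj

theorem mat_lt (g : Γ) : mat g < 2 ^ 144 := Nat.lt_pow_two_of_testBit _ fun t ht => by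
  rw [← Bool.not_eq_true, mat, pack, testBit_orAll]
  rintro ⟨i, hi, h⟩
  change (_ <<< (12 * i)).testBit t = true at h
  rw [Nat.testBit_shiftLeft, Bool.and_eq_true, Nat.testBit_lt_two_pow ((cd_lt _).trans_le
    (Nat.pow_le_pow_right (n := 2) (i := 12) (by norm_num) (by omega)))] at h
  simp at h

theorem mm_of_col {A : ℕ} {g : Γ} (h : ∀ j < 12, col A j = cd (g (dc (2 ^ j)))) (v : V) :
    mm A (cd v) = cd (g v) :=
  V_ind (P := fun v => mm A (cd v) = cd (g v)) (by simp [cd_zero, mm_zero])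
    (fun i hi => by rw [cd_dc (Nat.pow_lt_pow_right (n := 12) (by norm_num) hi), mm_pow _ hi, h i hi])
    (fun u v a b => by rw [map_add, cd_add, cd_add, mm_xor _ (cd_lt u) (cd_lt v), a, b]) v

/-- The code of an automorphism: its matrix and the matrix of its inverse. -/
noncomputable def code (g : Γ) : ℕ := mat g ||| mat g⁻¹ <<< 144

/-- Product of codes. -/
def mul (p q : ℕ) : ℕ := Nat.lor (mm p q) (Nat.shiftLeft (mmh q p) (nat_lit 144))
/-- Inverse of a code. -/
def inv (p : ℕ) : ℕ := Nat.lor (Nat.shiftRight p (nat_lit 144))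
  (Nat.shiftLeft (Nat.land p (nat_lit 0xffffffffffffffffffffffffffffffffffff)) (nat_lit 144))
/-- Code of the identity. -/
def one : ℕ := nat_lit 0x800400200100080040020010008004002001800400200100080040020010008004002001

theorem lor_facts {a : ℕ} (ha : a < 2 ^ 144) (b : ℕ) : (a ||| b <<< 144) >>> 144 = b ∧
    (a ||| b <<< 144) &&& (2 ^ 144 - 1) = a ∧ ∀ j < 12, col (a ||| b <<< 144) j = col a j := by
  rw [Nat.or_comm, ← Nat.shiftLeft_add_eq_or_of_lt ha, Nat.shiftLeft_eq, Nat.shiftRight_eq_div_pow,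
    Nat.and_two_pow_sub_one_eq_mod]
  refine ⟨by omega, by omega, fun j hj => ?_⟩
  simp only [col_def]
  interval_cases j <;> omega

theorem col_code (g : Γ) {j : ℕ} (hj : j < 12) : col (code g) j = cd (g (dc (2 ^ j))) := by
  rw [code, (lor_facts (mat_lt g) _).2.2 j hj, col_mat g hj]

theorem mm_code (g : Γ) (v : V) : mm (code g) (cd v) = cd (g v) := mm_of_col (fun _ => col_code g) v

theorem mm_mat {A B : ℕ} {g h : Γ} (hA : ∀ j < 12, col A j = cd (g (dc (2 ^ j))))
    (hB : ∀ j < 12, col B j = cd (h (dc (2 ^ j)))) : mm A B = mat (g * h) :=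
  col_ext (mm_lt _ _) (mat_lt _) fun j hj => by
    rw [col_mm _ _ hj, hB j hj, mm_of_col hA, col_mat _ hj]; rfl

theorem gc : GC code mul inv one where
  inj g h e := Γ_ext fun i hi => cd_inj (by rw [← col_code g hi, e, col_code h hi])
  code_mul g h := by
    change _ = mm _ _ ||| mmh _ _ <<< 144
    rw [mmh_eq, mm_mat (fun _ => col_code g) (fun _ => col_code h), code, code, code,
      (lor_facts (mat_lt g) _).1, (lor_facts (mat_lt h) _).1,
      mm_mat (fun _ => col_mat h⁻¹) (fun _ => col_mat g⁻¹), mul_inv_rev]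
  code_inv g := by
    change _ = code g >>> 144 ||| (code g &&& (2 ^ 144 - 1)) <<< 144
    rw [code, code, (lor_facts (mat_lt g) _).1, (lor_facts (mat_lt g) _).2.1, inv_inv]
  code_one := by
    rw [code, inv_one]
    simp only [mat, LinearEquiv.coe_one, id]
    decide +kernel

theorem ac : AC code (Set.univ : Set V) cd mm where
  smul_mem _ _ _ := trivial
  inj := cd_inj.injOn
  ap_code g x _ := mm_code g x

/-- The additive map of a bit matrix. -/
def lin (A : ℕ) : V →ₗ[ZMod 2] V :=
  (AddMonoidHom.mk' (fun v => dc (mm A (cd v))) fun u v => by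
    rw [cd_add, mm_xor _ (cd_lt u) (cd_lt v), dc_xor]).toZModLinearMap 2

theorem cd_lin (A : ℕ) (v : V) : cd (lin A v) = mm A (cd v) := cd_dc (mm_vec_lt A _ (cd_lt v))

/-- `p` is the code of an automorphism. -/
noncomputable def isC (p : ℕ) : Bool := force (inv p) fun q =>
  band (Nat.beq (mul p q) one) (Nat.ble p (nat_lit 0xffffffffffffffffffffffffffffffffffffffffffffffffffffffffffffffffffffffff))

theorem exists_code {p : ℕ} (h : isC p = true) : ∃ g, code g = p := by
  simp only [isC, force_eq, band_eq, Bool.and_eq_true, Nat.beq_eq, Nat.ble_eq] at h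
  obtain ⟨h2, h3⟩ := h
  set q := p >>> 144 with hq
  have hq1 : q < 2 ^ 144 := by rw [hq, Nat.shiftRight_eq_div_pow]; omega
  have hi : inv p = q ||| (p % 2 ^ 144) <<< 144 := by
    rw [← Nat.and_two_pow_sub_one_eq_mod]; rfl
  have e1 : mm p (inv p) = one % 2 ^ 144 := by
    rw [← h2, ← Nat.and_two_pow_sub_one_eq_mod]; exact (lor_facts (mm_lt _ _) _).2.1.symm
  have c1 : ∀ i < 12, col (one % 2 ^ 144) i = 2 ^ i := by decide +kernel
  have hpow : ∀ i < 12, 2 ^ i < 4096 := fun i hi => Nat.pow_lt_pow_right (n := 12) (by norm_num) hi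
  have k1 : lin p ∘ₗ lin q = LinearMap.id := LinearMap.ext fun v =>
    V_ind (P := fun v => (lin p ∘ₗ lin q) v = LinearMap.id v) (by simp) (fun i hi' => cd_inj (by
      rw [LinearMap.comp_apply, cd_lin, cd_lin, LinearMap.id_apply, cd_dc (hpow i hi'), mm_pow _ hi',
        ← (lor_facts hq1 (p % 2 ^ 144)).2.2 i hi', ← hi, ← col_mm _ _ hi', e1, c1 i hi']))
      (fun u v a b => by rw [map_add, map_add, a, b]) v
  have k2 : lin q ∘ₗ lin p = LinearMap.id := mul_eq_one_comm.1 k1
  refine ⟨LinearEquiv.ofLinearMap (lin p) (lin q) k1 k2, ?_⟩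
  have m1 : mat (LinearEquiv.ofLinearMap (lin p) (lin q) k1 k2) = p % 2 ^ 144 :=
    col_ext (mat_lt _) (Nat.mod_lt _ (by positivity)) fun j hj => by
      rw [col_mat _ hj, LinearEquiv.coe_ofLinearMap, cd_lin, cd_dc (hpow j hj), mm_pow _ hj]
      simp only [col_def]; interval_cases j <;> omega
  have m2 : mat (LinearEquiv.ofLinearMap (lin p) (lin q) k1 k2)⁻¹ = q :=
    col_ext (mat_lt _) hq1 fun j hj => by
      rw [col_mat _ hj]
      change cd (lin q _) = _
      rw [cd_lin, cd_dc (hpow j hj), mm_pow _ hj]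
  rw [code, m1, m2, Nat.or_comm, ← Nat.shiftLeft_add_eq_or_of_lt (Nat.mod_lt _ (by positivity)), hq,
    Nat.shiftLeft_eq, Nat.shiftRight_eq_div_pow]
  omega

theorem valid_of {l : List ℕ} (h : lall l isC = true) : Valid code l :=
  fun s hs => exists_code ((lall_iff _ _).1 h s hs)

open Classical in
/-- The automorphism with a given code. -/
noncomputable def elt (p : ℕ) : Γ := if h : ∃ g, code g = p then h.choose else 1

theorem code_elt' {p : ℕ} (h : ∃ g, code g = p) : code (elt p) = p := by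
  rw [elt, dif_pos h]; exact h.choose_spec

theorem code_elt {p : ℕ} (h : isC p = true) : code (elt p) = p := code_elt' (exists_code h)

/-- Check of a stabiliser chain. -/
noncomputable def chk (Ls : List Lvl) : Bool :=
  band (band (lall (gensOf Ls) isC) (Ls.all fun L => Nat.ble L.b 4095)) (chainChk mul inv one mm 4096 Ls)

theorem chk_sound {Ls : List Lvl} (h : chk Ls = true) : Valid code (gensOf Ls) ∧
    ChainOk code (Set.univ : Set V) cd Ls ∧ Nat.card (gen code (gensOf Ls)) = chainSize Ls ∧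
    ∀ g, g ∈ gen code (gensOf Ls) ↔ sift mul one mm Ls (code g) = true := by
  simp only [chk, band_eq, Bool.and_eq_true, List.all_eq_true, Nat.ble_eq] at h
  obtain ⟨⟨h1, h2⟩, h3⟩ := h
  have hv := valid_of h1
  obtain ⟨a, -, c⟩ := chain_sound gc ac (fun L hL => ⟨dc L.b, trivial, cd_dc (Nat.lt_succ_of_le (h2 L hL))⟩) h3 hv
  exact ⟨hv, a, a.card, c⟩

theorem beq_code {g h : Γ} : Nat.beq (code g) (code h) = true ↔ g = h := by
  rw [Nat.beq_eq]; exact gc.inj.eq_iff

theorem gen_le_of_sift {Ls : List Lvl} (h : chk Ls = true) {l : List ℕ}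
    (hl : lall l (sift mul one mm Ls) = true) : gen code l ≤ gen code (gensOf Ls) :=
  gen_le fun g hg => ((chk_sound h).2.2.2 g).2 ((lall_iff _ _).1 hl _ hg)

theorem forall_enum {Ls : List Lvl} (h : chk Ls = true) {f : ℕ → Bool} (he : enum mul f Ls one = true) :
    ∀ g ∈ gen code (gensOf Ls), f (code g) = true := (chk_sound h).2.1.enum_one gc ac he

end Cfsg.Agent.LF
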