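import Cfsg.Agent.LF.Dat3
import Cfsg.Agent.Cl.OQuad

/-! # The stabiliser of a vector of the first singular orbit -/

set_option autoImplicit false

namespace Cfsg.Agent.LF

open Cfsg.Agent.M24 Cfsg.Agent.Cl Cfsg.Agent.Leech Equiv Subgroup

theorem X1_eq : gen code (gensOf cX1) = St H0 (dc 5) :=
  eq_St K0_le_H0 H0_le_N0 (by omega) chk_X1 (gen_le_H0 (by decide +kernel)) (by decide +kernel)
    (by rw [show ty 5 = 1 by decide +kernel, ncard_ty.1, card_H0]; decide +kernel)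

/-- The six-dimensional space. -/
abbrev V6 : Type := Orth.HV (ZMod 2) 2 (Fin 2 → ZMod 2)
/-- Codes of vectors. -/
def c6 (w : V6) : ℕ := (w.1 0).val + 2 * (w.1 1).val + 4 * (w.2.1 0).val + 8 * (w.2.1 1).val +
  16 * (w.2.2 0).val + 32 * (w.2.2 1).val
/-- Vectors from codes. -/
def d6 (n : ℕ) : V6 := (![(n : ZMod 2), (n / 2 : ℕ)], ![(n / 4 : ℕ), (n / 8 : ℕ)], ![(n / 16 : ℕ), (n / 32 : ℕ)])
/-- The form. -/
def q6 (w : V6) : ZMod 2 := w.1 0 * w.2.1 0 + w.1 1 * w.2.1 1 + (w.2.2 0 + w.2.2 0 * w.2.2 1 + w.2.2 1)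

theorem q6_eq (w : V6) : Orth.HS 2 (Orth.Q2 1 1) w = q6 w := by
  simp [Orth.HS_apply, Orth.Q2_apply, q6, dotProduct, ZMod.pow_card]

instance decV6 : DecidableEq V6 := inferInstance

theorem exists_OG6 {t : ℕ} (h : ∀ w, q6 (d6 (apw 6 63 t (c6 w))) = q6 w ∧ (d6 (apw 6 63 t (c6 w)) = 0 → w = 0) ∧
    c6 (d6 (apw 6 63 t (c6 w))) = apw 6 63 t (c6 w) ∧
    ∀ v, d6 (apw 6 63 t (c6 (w + v))) = d6 (apw 6 63 t (c6 w)) + d6 (apw 6 63 t (c6 v))) :
    ∃ σ : Orth.OG (Orth.HS 2 (Orth.Q2 (1 : ZMod 2) 1)), ∀ w, c6 (σ.1 w) = apw 6 63 t (c6 w) := by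
  let f := (AddMonoidHom.mk' (fun w => d6 (apw 6 63 t (c6 w))) fun w => (h w).2.2.2).toZModLinearMap 2
  exact ⟨⟨LinearEquiv.ofInjectiveEndo f ((injective_iff_map_eq_zero f).2 fun w => (h w).2.1), fun w => by
    rw [q6_eq, q6_eq]; exact (h w).1⟩, fun w => (h w).2.2.1⟩

theorem X1_equiv : Nonempty (St H0 (dc 5) ≃* isometryGroup (ZMod 2) (quadFormMinus 2 (ZMod 2) 1 1)) := by
  rw [← X1_eq]
  have c0 : ∀ w, q6 w = 1 → rep1 (c6 w) < 4096 ∧ lab1 (rep1 (c6 w)) = c6 w ∧ w ≠ 0 := by decide +kernel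
  have c1 : Function.Injective c6 := by decide +kernel
  obtain ⟨θ, hθ⟩ := exists_rel_hom (G := Γ) (L := Orth.OG (Orth.HS 2 (Orth.Q2 (1 : ZMod 2) 1)))
    (S := {g | code g ∈ gensOf cX1}) (R := {p : V × V6 | lab1 (cd p.1) = c6 p.2 ∧ p.2 ≠ 0}) (Set.toFinite _)
    (fun σ hσ => Orth.OG.ext' fun w => by
      have k : ∀ w, q6 w = 1 → σ.1 w = w := fun w hw => by
        obtain ⟨a, b, c⟩ := c0 w hw
        exact c1 ((hσ (dc (rep1 (c6 w)), w) ⟨by rw [cd_dc a, b], c⟩).1.symm.trans (by rw [cd_dc a, b]))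
      rcases (show ∀ w, q6 w = 1 ∨ ∃ a, q6 a = 1 ∧ q6 (w - a) = 1 by decide +kernel) w with e | ⟨a, b, c⟩
      · exact k w e
      · have := k _ c
        rw [map_sub, k a b] at this
        exact sub_left_injective this) fun g hg => by
    have k : ∀ t, (∃ σ : Orth.OG (Orth.HS 2 (Orth.Q2 (1 : ZMod 2) 1)), ∀ w, c6 (σ.1 w) = apw 6 63 t (c6 w)) →
        ball (fun v => force (lab1 v) fun a => bor (Nat.beq a 0)
          (Nat.beq (lab1 (mm (code g) v)) (apw 6 63 t a))) 12 0 = true → _ := fun t ⟨σ, a⟩ b =>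
      (⟨σ, fun p hp => ⟨by
        have := forall_V b p.1
        rw [force_eq, hp.1, bor_eq, Bool.or_eq_true, Nat.beq_eq, Nat.beq_eq, mm_code, ← a] at this
        exact this.resolve_left fun e => hp.2 (c1 e), σ.1.map_ne_zero_iff.2 hp.2⟩⟩ :
        ∃ σ : Orth.OG (Orth.HS 2 (Orth.Q2 (1 : ZMod 2) 1)), ∀ p ∈ {p : V × V6 | lab1 (cd p.1) = c6 p.2 ∧ p.2 ≠ 0},
          (g • p.1, σ • p.2) ∈ {p : V × V6 | lab1 (cd p.1) = c6 p.2 ∧ p.2 ≠ 0})
    rcases List.mem_pair.1 hg with e | e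
    · exact k (nat_lit 0xf06ad107b5ac2737a4d0e8d9e43b9413e4e93366e1c4b99c81adcd7672b056f0b8a12fc595fc886223f542a1fdb57e80) (exists_OG6 (by decide +kernel)) (by rw [e]; decide +kernel)
    · exact k (nat_lit 0xb2eef9967cb06d930e49014728875f0c1516f7faa8d368e134f6981064d1eb8b6fcf1926ae9f3e8a0d7771e2c9557080) (exists_OG6 (by decide +kernel)) (by rw [e]; decide +kernel)
  have hi : Function.Injective θ := (injective_iff_map_eq_one θ).2 fun g hg => by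
    have := forall_enum chk_X1 enum_X1 g g.2
    rw [bor_eq, Bool.or_eq_true, ← gc.code_one, beq_code, lany_iff] at this
    refine Subtype.ext (this.resolve_right fun ⟨a, b, c⟩ => ?_)
    obtain ⟨w, hw, rfl⟩ := (show ∀ a ∈ [5, 7, 10, 11, 16, 32], ∃ w, q6 w = 1 ∧ c6 w = a by decide +kernel) a b
    obtain ⟨a, b, d⟩ := c0 w hw
    have := ((hθ g 1).1 hg (dc (rep1 (c6 w)), w) ⟨by rw [cd_dc a, b], d⟩).1
    rw [show g.1 • dc (rep1 (c6 w)) = g.1 (dc (rep1 (c6 w))) from rfl, ← mm_code, cd_dc a, one_smul] at this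
    simp [this] at c
  have c2 : Nat.card (Orth.OG (Orth.HS 2 (Orth.Q2 (1 : ZMod 2) 1))) = 51840 := by
    rw [Orth.card_OG_minus Orth.aniso_one_one]; decide +kernel
  have := Nat.finite_of_card_ne_zero (c2.trans_ne (by omega))
  exact ⟨(MulEquiv.ofBijective θ ((Nat.bijective_iff_injective_and_card θ).2 ⟨hi,
    (chk_sound chk_X1).2.2.1.trans (by rw [c2]; decide +kernel)⟩)).trans
    (Orth.oMinus 2 1 1).symm⟩

end Cfsg.Agent.LF
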