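import Cfsg.Agent.LF.Uniq
import Cfsg.Agent.LF.Theta

/-! # The three classes of `3.U4(3)` in `SU6(2)` -/

set_option autoImplicit false

namespace Cfsg.Agent.LF

open Cfsg.Agent.M24 Cfsg.Agent.Cl Cfsg.Agent.Leech Equiv Subgroup

theorem simple_psu43 {F : Type} [Field F] [Fintype F] (hF : Fintype.card F = 9) : IsSimpleGroup (PSU 4 F 3) := by
  obtain ⟨_, h⟩ := Uni.exists_isFrob (F := F) (q := 3) hF
  exact h.simple_psu (by omega) (by omega)

theorem exists_ext0 (F : Type) [Field F] [Fintype F] (hF : Fintype.card F = 9) :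
    ∃ θ : K0 →* PSU 4 F 3, Ext3 θ θ ⟨W, W_mem⟩ := by
  obtain ⟨θ, h1, h2⟩ := exists_theta F hF
  exact ⟨θ, simple_psu43 hF, h1, h1, fun g => (h2 g).trans
    ⟨fun ⟨n, hn⟩ => ⟨n, Subtype.ext hn⟩, fun ⟨n, hn⟩ => ⟨n, congrArg Subtype.val hn⟩⟩, h2,
    (Subgroup.orderOf_mk _ _).trans orderOf_W⟩

theorem Ext3.center_eq {K U : Type*} [Group K] [Group U] {φ : K →* U} {θ : K0 →* U} {x : K}
    (E : Ext3 φ θ x) : center K = φ.ker := by
  have := E.simple
  refine le_antisymm (fun k hk => ?_) fun k hk => mem_center_iff.2 (E.z_comm (E.ker_eq.le hk))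
  rcases (inferInstance : (center U).Normal).eq_bot_or_eq_top with e | e
  · refine mem_bot.1 (e.le (mem_center_iff.2 fun u => ?_))
    obtain ⟨g, rfl⟩ := E.sφ u
    rw [← map_mul, mem_center_iff.1 hk, map_mul]
  · let := Group.commGroupOfCenterEqTop e
    exact absurd (E.cardU ▸ IsSimpleGroup.prime_card (α := U)) (by norm_num)

theorem norm_le_N0 {h : Γ} (h0 : ∀ v, Q0 (h v) = Q0 v) (h1 : K0.map (MulAut.conj h).toMonoidHom = K0) :
    h ∈ N0 := by
  have key : ∀ {h : Γ}, (∀ v, Q0 (h v) = Q0 v) → (∀ k ∈ K0, h⁻¹ * k * h ∈ K0) →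
      ∀ v, ty (cd v) = 1 → ty (cd (h v)) = 1 := fun {h} h0 h1 v hv => by
    by_contra e
    have a : ty (cd (h v)) ≠ 3 := Q0_eq_zero.1 ((h0 v).trans (Q0_eq_zero.2 (by omega)))
    have b : ty (cd (h v)) ≠ 0 := fun e => by
      have := ty_eq_zero.2 (h.map_eq_zero_iff.1 (ty_eq_zero.1 e)); omega
    have := ty_lt (cd (h v))
    have c : {v | ty (cd v) = 2} ⊆ h '' {v | ty (cd v) = 1} := fun w hw => by
      obtain ⟨k, c, rfl⟩ := K0_trans (u := h v) (v := w) (by rw [hw]; omega)
      exact ⟨_, (mem_N0.1 (K0_le_N0 (h1 k c)) v).trans hv, by simp⟩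
    have := (Set.ncard_le_ncard c).trans (Set.ncard_image_le (s := {v | ty (cd v) = 1}))
    rw [ncard_ty.1, ncard_ty.2] at this
    omega
  refine mem_N0.2 fun v => ty_congr h.map_eq_zero_iff ⟨fun e => ?_, key h0 (fun k hk => ?_) v⟩ (h0 v)
  · simpa using key (h := h⁻¹) (fun v => by rw [← h0]; simp) (fun k hk => h1.le ⟨k, hk, by simp⟩) _ e
  · obtain ⟨j, a, rfl⟩ := h1.ge hk
    simpa [mul_assoc] using a

theorem bnondeg_Q0 : Orth.BNondeg Q0 := fun u h => funext fun i => by
  have a : ∀ c : K4, nm (c + u i) + nm c + nm (u i) = 0 := fun c => by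
    rw [← h (Pi.single i c), B_eq, Q0_apply, Q0_apply, Q0_apply, ← Finset.sum_add_distrib,
      ← Finset.sum_add_distrib, Finset.sum_eq_single i (fun j _ hj => ?_) (by simp)]
    · simp
    · rw [Pi.add_apply, Pi.single_eq_of_ne hj]
      exact (show ∀ a : K4, nm (0 + a) + nm 0 + nm a = 0 by decide) _
  exact (show ∀ b : K4, (∀ c : K4, nm (c + b) + nm c + nm b = 0) → b = 0 by decide) _ a

/-- The special unitary group. -/
noncomputable def SG : Subgroup Γ := (Uni.udet (Uni.stdH K4 6)).ker.map res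

theorem res_mem_SG {u : UG0} : res u ∈ SG ↔ Uni.udet _ u = 1 := mem_map_iff_mem res_inj

theorem card_SG : Nat.card SG = 27590492160 := by
  have := frob4.card_ker_udet (n := 6) (by omega)
  rw [SG, card_map_of_injective res_inj]
  exact Nat.eq_of_mul_eq_mul_left (by decide : 0 < 2 + 1) (this.trans (card_UG0.trans (by norm_num)))

theorem K0_le_SG : K0 ≤ SG := fun g hg => by
  obtain ⟨θ, E⟩ := exists_ext0 U43.K9 U43.card_K9
  let ψ : K0 →* UG0 := (MonoidHom.ofInjective res_inj).symm.toMonoidHom.comp (inclusion K0_le_res)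
  have h : ∀ k, res (ψ k) = k := fun k => MonoidHom.apply_ofInjective_symm res_inj _
  refine ⟨ψ ⟨g, hg⟩, E.hom_triv ((Uni.udet _).comp ψ) ?_ (by rw [card_K4u]; omega) _, h _⟩
  rw [MonoidHom.comp_apply, res_inj (show _ = res (monU _ _) from h ⟨W, W_mem⟩), udet_monU]
  decide

theorem norm_le_SG {h : Γ} (h0 : h ∈ res.range) (h1 : K0.map (MulAut.conj h).toMonoidHom = K0) : h ∈ SG := by
  obtain ⟨u, rfl⟩ := h0
  have a : ∀ k ∈ K0, ∀ s, res u = k * s → s * W = W * s := fun k hk s e => by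
    rw [← mul_right_inj k, ← mul_assoc, ← mul_assoc, K0_W hk, mul_assoc W, ← e, res_W]
  obtain ⟨k, hk, e | e | e | e⟩ := N0_cases (norm_le_N0 (res_Q0 u) h1)
  · exact e ▸ K0_le_SG hk
  · exact e ▸ mul_mem (K0_le_SG hk) (res_mem_SG.2 ((udet_monU _ _).trans (by simp)))
  · exact absurd (congrArg code (a k hk _ e)) (by simp only [gc.code_mul, code_W, code_sg]; decide +kernel)
  · exact absurd (congrArg code (a k hk _ e)) (by simp only [gc.code_mul, code_W, code_uu]; decide +kernel)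

theorem exists_jSU (F : Type) [Field F] [Fintype F] (hF : Fintype.card F = 4) :
    ∃ j : SU 6 F 2 →* Γ, Function.Injective j ∧ j.range = SG := by
  let e := (suCongr (FiniteField.ringEquivOfCardEq (hF.trans card_K4.symm)) 6 2).trans (frob4.suEquiv 6)
  refine ⟨(res.comp (Subgroup.subtype _)).comp e.toMonoidHom,
    (res_inj.comp Subtype.val_injective).comp e.injective, ?_⟩
  rw [MonoidHom.range_comp, MonoidHom.range_eq_top.2 e.surjective, ← MonoidHom.range_eq_map,
    MonoidHom.range_comp, range_subtype, SG]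

theorem udet_dw : ∃ u, res u = dw ∧ Uni.udet _ u = omu := ⟨_, rfl, (udet_monU _ _).trans (by decide)⟩

theorem su_classes {S U : Type} [Group S] [Group U] {θ : K0 →* U} (E0 : Ext3 θ θ ⟨W, W_mem⟩) {j : S →* Γ}
    (hj : Function.Injective j) (hr : j.range = SG) : ∃ K : ℕ → Subgroup S,
      (∀ i, Nat.card (center (K i)) = 3 ∧ Nonempty (K i ⧸ center (K i) ≃* U)) ∧
      (∀ a < 3, ∀ b < 3, a ≠ b → ¬∃ g : S, (K a).map (MulAut.conj g).toMonoidHom = K b) ∧
      ∀ L : Subgroup S, Nat.card (center L) = 3 → Nonempty (L ⧸ center L ≃* U) →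
        ∃ g : S, ∃ i < 3, L.map (MulAut.conj g).toMonoidHom = K i := by
  obtain ⟨d, d1, d2⟩ := udet_dw
  have h1 : ∀ i : ℕ, K0.map (MulAut.conj (dw ^ i)).toMonoidHom ≤ j.range := by
    rintro i _ ⟨k, hk, rfl⟩
    obtain ⟨u, a, rfl⟩ := K0_le_SG hk
    rw [hr, ← d1]
    exact ⟨d ^ i * u * (d ^ i)⁻¹, (MonoidHom.normal_ker _).conj_mem _ a _, by rw [map_mul, map_mul, map_inv, map_pow]; rfl⟩
  have h2 : ∀ (L : Subgroup S) (g : S) (i : ℕ), L.map (MulAut.conj g).toMonoidHom =
      (K0.map (MulAut.conj (dw ^ i)).toMonoidHom).comap j ↔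
      (L.map j).map (MulAut.conj ((dw ^ i)⁻¹ * j g)).toMonoidHom = K0 := fun L g i => by
    rw [← (map_injective hj).eq_iff, map_comap_eq_self (h1 i),
      ← (map_injective (f := (MulAut.conj (dw ^ i)).toMonoidHom) (MulAut.conj _).injective).eq_iff (b := K0),
      map_map, map_map, map_map]
    rw [show j.comp (MulAut.conj g).toMonoidHom = ((MulAut.conj (dw ^ i)).toMonoidHom.comp
      (MulAut.conj ((dw ^ i)⁻¹ * j g)).toMonoidHom).comp j from MonoidHom.ext fun x => by
        change j (g * x * g⁻¹) = dw ^ i * ((dw ^ i)⁻¹ * j g * j x * ((dw ^ i)⁻¹ * j g)⁻¹) * (dw ^ i)⁻¹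
        rw [map_mul, map_mul, map_inv]; group]
  refine ⟨fun i => (K0.map (MulAut.conj (dw ^ i)).toMonoidHom).comap j, fun i => ?_, ?_, ?_⟩
  · let e := (K0.equivMapOfInjective (MulAut.conj (dw ^ i)).toMonoidHom (MulAut.conj _).injective).trans
      ((MulEquiv.subgroupCongr (map_comap_eq_self (h1 i)).symm).trans (equivMapOfInjective _ j hj).symm)
    refine ⟨?_, ⟨(quotCenterCongr e.symm).trans ((QuotientGroup.quotientMulEquivOfEq E0.center_eq).trans
      (QuotientGroup.quotientKerEquivOfSurjective θ E0.sθ))⟩⟩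
    rw [← Nat.card_congr (centerCongr e).toEquiv, E0.center_eq, E0.ker_eq, Nat.card_zpowers, E0.ox]
  · rintro a ha b hb hab ⟨g, hg⟩
    rw [h2, map_comap_eq_self (h1 a), map_map, show (MulAut.conj _).toMonoidHom.comp _ =
      (MulAut.conj ((dw ^ b)⁻¹ * j g * dw ^ a)).toMonoidHom from MonoidHom.ext fun x => by
        rw [map_mul _ _ (dw ^ a)]; rfl] at hg
    obtain ⟨u, c, e⟩ := hr.le ⟨g, rfl⟩
    rw [← e, ← d1, ← map_pow, ← map_pow, ← map_inv, ← map_mul, ← map_mul] at hg
    have := res_mem_SG.1 (norm_le_SG ⟨_, rfl⟩ hg)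
    rw [map_mul, map_mul, map_inv, map_pow, map_pow, d2, show Uni.udet _ u = 1 from c] at this
    interval_cases a <;> interval_cases b <;> first | exact hab rfl | exact absurd this (by decide)
  · rintro L hL ⟨e⟩
    have : Finite S := Finite.of_injective _ hj
    have cL : Nat.card L = 9797760 := by
      rw [← (center L).card_mul_index, hL, index, Nat.card_congr e.toEquiv, E0.cardU]
    obtain ⟨w, hw⟩ := hr.ge (K0_le_SG W_mem)
    have ow : orderOf w = 3 := by rw [← orderOf_injective j hj, hw, orderOf_W]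
    have cw : w ∈ center S := mem_center_iff.2 fun g => hj (by
      obtain ⟨u, -, c⟩ := hr.le ⟨g, rfl⟩
      rw [map_mul, map_mul, hw, ← c, res_W])
    have wL : w ∈ L := by
      by_contra h
      have : (zpowers w).Normal := ⟨fun k hk g => by
        rwa [mem_center_iff.1 (zpowers_le.2 cw hk) g, mul_inv_cancel_right]⟩
      have a := card_dvd_of_injective ((QuotientGroup.mk' (zpowers w)).comp L.subtype)
        ((injective_iff_map_eq_one _).2 fun k hk => by_contra fun e => h (by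
          have : Fact (Nat.card (zpowers w)).Prime := ⟨by rw [Nat.card_zpowers, ow]; decide⟩
          rcases (L.subgroupOf (zpowers w)).eq_bot_or_eq_top_of_prime_card with c | c
          · have := mem_bot.1 (c.le (show (⟨k, (QuotientGroup.eq_one_iff _).1 hk⟩ : zpowers w) ∈ _ from k.2))
            exact (e (Subtype.ext (congrArg Subtype.val this :))).elim
          · exact c.ge (mem_top ⟨w, mem_zpowers w⟩)))
      have b := (zpowers w).card_mul_index
      rw [Nat.card_zpowers, ow, Nat.card_congr (MonoidHom.ofInjective hj).toEquiv, hr, card_SG, index] at b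
      rw [cL, Nat.eq_of_mul_eq_mul_left (by decide : 0 < 3) (b.trans (show _ = 3 * 9196830720 by norm_num))] at a
      exact absurd a (by norm_num)
    have ow' : orderOf (⟨w, wL⟩ : L) = 3 := (Subgroup.orderOf_mk _ _).trans ow
    have zc : zpowers (⟨w, wL⟩ : L) = center L := eq_of_le_of_card_ge
      (zpowers_le.2 (mem_center_iff.2 fun g => Subtype.ext (mem_center_iff.1 cw g)))
      (by rw [hL, Nat.card_zpowers, ow'])
    have E : Ext3 (e.toMonoidHom.comp (QuotientGroup.mk' _)) θ ⟨w, wL⟩ := ⟨E0.simple,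
      e.surjective.comp (QuotientGroup.mk'_surjective _), E0.sθ, fun k => by
        rw [zc]; exact (map_eq_one_iff e e.injective).trans (QuotientGroup.eq_one_iff k), E0.kθ, ow'⟩
    obtain ⟨f, f1, f2, f3⟩ := E.uniq (ρ := j.comp L.subtype) card_V (hj.comp L.subtype_injective) (Q := Q0)
      bnondeg_Q0 fun k v => by
        obtain ⟨u, -, c⟩ := hr.le ⟨k, rfl⟩
        exact (congrArg (fun g : Γ => Q0 (g v)) c).symm.trans (res_Q0 u v)
    obtain ⟨u, rfl⟩ := exists_res (g := f) (fun v => by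
      rw [← W_apply, ← W_apply, ← trG_apply f, ← hw]; exact LinearEquiv.congr_fun (f2.trans hw.symm) _) f1
    obtain ⟨i, hi, c⟩ := (show ∀ a : K4ˣ, ∃ i < 3, omu ^ i * a = 1 by decide) (Uni.udet _ u)
    obtain ⟨g, hg⟩ := hr.ge (res_mem_SG.2 (show Uni.udet _ (d ^ i * u) = 1 by rw [map_mul, map_pow, d2, c]))
    refine ⟨g, i, hi, (h2 L g i).2 ?_⟩
    rw [hg, map_mul res, map_pow res, d1, inv_mul_cancel_left, ← f3, MonoidHom.range_comp, MonoidHom.range_comp,
      range_subtype]
    rfl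

end Cfsg.Agent.LF
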