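import Cfsg.Agent.LF.Cx
import Cfsg.Agent.PG.Frattini

/-! # Groups of large Fischer type: the subgroup `2³⁺¹² · (L3(2) × A6)` -/

set_option autoImplicit false

namespace Cfsg.Agent.LF

open Cfsg.Agent.M24 Cfsg.Agent.GT Cfsg.Agent.TT Cfsg.Agent.TT2 Cfsg.Agent.Cl Subgroup Matrix

theorem exists_prod_hom {L A B : Type*} [Group L] [Group A] [Group B] (α : L →* A) (θ : L → B)
    (hm : ∀ a b, α a = 1 → α b = 1 → θ (a * b) = θ a * θ b) (hs : ∀ b, ∃ c, α c = 1 ∧ θ c = b)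
    (hB : center B = ⊥) (hD : ∀ a, ∃ d, α d = a ∧ ∀ c, α c = 1 → θ (d * c * d⁻¹) = θ c) :
    ∃ β : L →* A × B, Function.Surjective β ∧ ∀ l, β l = 1 ↔ α l = 1 ∧ θ l = 1 := by
  have k : ∀ l c, α c = 1 → α (l * c * l⁻¹) = 1 := fun l c h => by simp [h]
  have i : ∀ l c, α l = 1 → α c = 1 → θ (l * c * l⁻¹) = θ l * θ c * (θ l)⁻¹ := fun l c a b => by
    rw [eq_mul_inv_iff_mul_eq, ← hm _ _ (k l c b) a, ← hm _ _ a b, inv_mul_cancel_right]
  have u : ∀ {b b'}, (∀ c, α c = 1 → b * θ c * b⁻¹ = b' * θ c * b'⁻¹) → b = b' := fun {b b'} h => by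
    rw [← inv_mul_eq_one, ← mem_bot, ← hB, mem_center_iff]
    intro y
    obtain ⟨c, a, rfl⟩ := hs y
    calc _ = b⁻¹ * (b * θ c * b⁻¹) * b' := by group
      _ = _ := by rw [h c a]; group
  have ex : ∀ l, ∃ b, ∀ c, α c = 1 → θ (l * c * l⁻¹) = b * θ c * b⁻¹ := fun l => by
    obtain ⟨d, a, b⟩ := hD (α l)
    refine ⟨θ (l * d⁻¹), fun c e => ?_⟩
    rw [← b c e, ← i _ _ (by simp [a]) (k d c e)]; congr 1; group
  choose f hf using ex
  have m : ∀ a b, f (a * b) = f a * f b := fun a b => u fun c e => by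
    rw [← hf _ c e, show a * b * c * (a * b)⁻¹ = a * (b * c * b⁻¹) * a⁻¹ by group, hf _ _ (k b c e), hf _ _ e]; group
  have j : ∀ l, α l = 1 → f l = θ l := fun l a => u fun c e => by rw [← hf _ c e, i l c a e]
  refine ⟨α.prod (MonoidHom.mk' f m), fun ⟨a, b⟩ => ?_, fun l => Prod.ext_iff.trans (and_congr_right fun a => by
    change f l = 1 ↔ _; rw [j l a])⟩
  obtain ⟨d, a1, a2⟩ := hD a
  obtain ⟨c, b1, rfl⟩ := hs b
  refine ⟨d * c, Prod.ext (by simp [a1, b1]) ?_⟩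
  change f (d * c) = θ c
  rw [m, j c b1, u (b := f d) (b' := 1) fun c e => by rw [← hf _ c e, a2 c e]; simp, one_mul]

/-- A totally singular line over the field with four elements. -/
def U0 : AddSubgroup V where
  carrier := {v | v ∈ P0 ∧ v 0 = v 2 ∧ v 4 = 0}
  zero_mem' := ⟨zero_mem _, rfl, rfl⟩
  add_mem' a b := ⟨add_mem a.1 b.1, congrArg₂ (· + ·) a.2.1 b.2.1, congrArg₂ (· + ·) a.2.2 b.2.2⟩
  neg_mem' a := by rwa [V_neg]

theorem mem_U0 {v : V} : v ∈ U0 ↔ lany [0, 85, 170, 255] (Nat.beq (cd v)) = true := by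
  have := forall_V (f := fun n => decide ((inP n = true ∧ dc n 0 = dc n 2 ∧ dc n 4 = 0) ↔
    lany [0, 85, 170, 255] (Nat.beq n) = true)) (by decide +kernel) v
  rwa [decide_eq_true_iff, dc_cd, ← mem_P0] at this

theorem card_U0 : Nat.card U0 = 4 :=
  (ncard_V (f := fun n => lany [0, 85, 170, 255] (Nat.beq n)) fun _ => mem_U0).trans (by decide +kernel)

theorem U0_cases {v : V} (h : v ∈ U0) : v = 0 ∨ v = dc 85 ∨ v = dc 170 ∨ v = dc 85 + dc 170 := by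
  obtain ⟨n, a, b⟩ := (lany_iff _ _).1 (mem_U0.1 h)
  rw [← dc_cd v, Nat.eq_of_beq_eq_true b]
  clear b; revert n; decide +kernel

theorem U0_85 : dc 85 ∈ U0 := mem_U0.2 (by decide +kernel)

theorem U0_170 : dc 170 ∈ U0 := mem_U0.2 (by decide +kernel)

theorem fix_U0 {g : Γ} (a : g (dc 85) = dc 85) (b : g (dc 170) = dc 170) {v : V} (h : v ∈ U0) : g v = v := by
  rcases U0_cases h with rfl | rfl | rfl | rfl
  exacts [map_zero _, a, b, by rw [map_add, a, b]]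

/-- The orthogonal complement. -/
def Up : AddSubgroup V where
  carrier := {v | ∀ u ∈ U0, Orth.B Q0 u v = 0}
  zero_mem' u _ := map_zero _
  add_mem' a b u h := by rw [map_add, a u h, b u h, add_zero]
  neg_mem' a := by rwa [V_neg]

theorem mem_Up {v : V} : v ∈ Up ↔ band (!bc 85 (cd v)) (!bc 170 (cd v)) = true := by
  rw [band_eq, Bool.and_eq_true, Bool.not_eq_true', Bool.not_eq_true', ← cd_dc (n := 85) (by omega),
    ← cd_dc (n := 170) (by omega), ← B_eq_zero, ← B_eq_zero]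
  refine ⟨fun h => ⟨h _ U0_85, h _ U0_170⟩, fun h u hu => ?_⟩
  rcases U0_cases hu with rfl | rfl | rfl | rfl
  exacts [by simp, h.1, h.2, by rw [map_add, LinearMap.add_apply, h.1, h.2, add_zero]]

theorem card_Up : Nat.card Up = 1024 :=
  (ncard_V (f := fun n => band (!bc 85 n) (!bc 170 n)) fun _ => mem_Up).trans (by decide +kernel)

theorem E0_85 {e : Γ} (h : e ∈ E0) : e ∈ St H0 (dc 85) := X0_eq.le (gen_le_of_sift chk_X0 (by decide +kernel) h)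

theorem E0_facts {e : Γ} (h : e ∈ E0) (a : e (dc 170) = dc 170) :
    (∀ v ∈ Up, e v + v ∈ U0) ∧ ((∀ v ∈ Up, e v = v) → e = 1) := by
  have := forall_enum chk_E (f := fun p => bor (!Nat.beq (mm p 170) 170) (band (ball (fun n =>
    bor (!band (!bc 85 n) (!bc 170 n)) (force (mm p n ^^^ n) fun m => lany [0, 85, 170, 255] (Nat.beq m))) 12 0)
    (bor (Nat.beq p one) (!band (Nat.beq (mm p 27) 27) (Nat.beq (mm p 256) 256))))) (by decide +kernel) e h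
  have k : ∀ n < 4096, e (dc n) = dc n → Nat.beq (mm (code e) n) n = true := fun n b c => by
    rw [Nat.beq_eq, ← cd_dc b, mm_code, c]
  rw [k _ (by omega) a, bor_eq, Bool.not_true, Bool.false_or, band_eq, Bool.and_eq_true] at this
  refine ⟨fun v hv => ?_, fun b => ?_⟩
  · have := forall_V this.1 v
    rwa [mem_Up.1 hv, bor_eq, Bool.not_true, Bool.false_or, force_eq, mm_code, ← cd_add, ← mem_U0] at this
  · have := this.2
    rwa [k _ (by omega) (b _ (mem_Up.2 (by decide +kernel))), k _ (by omega) (b _ (mem_Up.2 (by decide +kernel))),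
      bor_eq, band_eq, Bool.and_self, Bool.not_true, Bool.or_false, ← gc.code_one, beq_code] at this

theorem card_E1 : Nat.card (St E0 (dc 170)) = 16 := by
  obtain ⟨e, he⟩ := exists_code (p := nat_lit 0x300100c004000c004003001000c004003001300100c004000c004003001000c004003001) (by decide +kernel)
  have := card_inf_mul_relIndex (MulAction.stabilizer Γ (dc 170)) E0
  have k : ∀ g : Γ, g ∈ MulAction.stabilizer Γ (dc 170) ↔ Nat.beq (mm (code g) 170) 170 = true := fun g => by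
    rw [Nat.beq_eq, ← cd_dc (n := 170) (by omega), mm_code, cd_inj.eq_iff, cd_dc (by omega)]; rfl
  rw [card_E0, relIndex_eq_two_iff.2 ⟨e, by rw [mem_E0, he]; decide +kernel, fun b hb => by
    have := forall_enum chk_E (f := fun p => xor (Nat.beq (mm (mul p (code e)) 170) 170) (Nat.beq (mm p 170) 170))
      (by rw [he]; decide +kernel) b hb
    rw [k, k, gc.code_mul]
    revert this; cases Nat.beq _ _ <;> cases Nat.beq _ _ <;> simp⟩, inf_comm] at this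
  change Nat.card ↥(E0 ⊓ _) = _
  omega

theorem exists_theta1 : ∃ θ : Γ → alternatingGroup (Fin 6), (∀ a ∈ St H0 (dc 85), ∀ b ∈ St H0 (dc 85),
    θ (a * b) = θ a * θ b) ∧ (∀ a ∈ St H0 (dc 85), θ a = 1 ↔ a ∈ E0) ∧
    ∀ b, ∃ a ∈ St H0 (dc 85), a (dc 170) = dc 170 ∧ θ a = b := by
  classical
  obtain ⟨θ, a1, a2⟩ := exists_theta0
  obtain ⟨e, e1, e2⟩ := exists_e0
  have k : ∀ g ∈ St H0 (dc 85), g ∈ K0 → g (dc 170) = dc 170 := fun g a b => by
    rw [show dc 170 = W (dc 85) from cd_inj (by rw [← mm_code, code_W]; decide +kernel), ← LinearEquiv.mul_apply, K0_W b,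
      LinearEquiv.mul_apply, (mem_St.1 a).2]
  refine ⟨fun g => if h : g ∈ St H0 (dc 85) then θ ⟨g, h⟩ else 1, fun a h b h' => ?_, fun a h => ?_, fun b => ?_⟩
  · simp only [dif_pos h, dif_pos h', dif_pos (mul_mem h h'), ← map_mul]; rfl
  · simp only [dif_pos h, a2]
  obtain ⟨g, rfl⟩ := a1 b
  rcases g.2.1 with h | h
  · exact ⟨g, g.2, k _ g.2 h, dif_pos g.2⟩
  · have m := mul_mem g.2 (inv_mem (E0_85 e1))
    refine ⟨_, m, k _ m (by simpa using mul_mem h (inv_mem e2)), (dif_pos m).trans ?_⟩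
    rw [← mul_inv_cancel_right (θ g) (θ ⟨e, E0_85 e1⟩), (a2 ⟨e, _⟩).2 e1, mul_one, ← (a2 ⟨e, E0_85 e1⟩).2 e1,
      ← map_inv, ← map_mul]; rfl

theorem exists_U0 {v : V} (h : v ∈ U0) (h0 : v ≠ 0) : ∃ g ∈ H0, (∀ u, g u ∈ U0 ↔ u ∈ U0) ∧ g (dc 85) = v := by
  have k : ∀ u, W u ∈ U0 ↔ u ∈ U0 := fun u => by
    have := forall_V (f := fun n => lany [0, 85, 170, 255] (Nat.beq (mm cW n)) == lany [0, 85, 170, 255] (Nat.beq n))
      (by decide +kernel) u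
    rw [mem_U0, mem_U0, ← beq_iff_eq.1 this, mm_cW, W_apply]
  have m := K0_le_H0 W_mem
  rcases U0_cases h with rfl | rfl | rfl | rfl
  exacts [absurd rfl h0, ⟨1, one_mem _, fun _ => Iff.rfl, rfl⟩, ⟨W, m, k, by rw [W_apply]; decide +kernel⟩,
    ⟨W * W, mul_mem m m, fun u => (k _).trans (k u), by rw [LinearEquiv.mul_apply, W_apply, W_apply]; decide +kernel⟩]

theorem exists_sl3 {G : Type*} [Group G] {V : Subgroup G} (φ : (Fin 3 → ZMod 2) → G) (hi : Function.Injective φ)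
    (ha : ∀ u v, φ (u + v) = φ u * φ v) (hr : ∀ y, y ∈ V ↔ ∃ v, φ v = y) :
    ∃ α : N[V] →* SpecialLinearGroup (Fin 3) (ZMod 2), (∀ n, α n = 1 ↔ (n : G) ∈ C[V]) ∧
      ∀ D : Subgroup N[V], (∀ u ∈ V, ∀ a ∈ V, ∀ b ∈ V, u ≠ 1 → b ≠ 1 → b ≠ u → b ≠ a → b ≠ a * u →
        ∃ d ∈ D, (d : G) * u * (d : G)⁻¹ = u ∧ (d : G) * a * (d : G)⁻¹ = a ∧ (d : G) * b * (d : G)⁻¹ = b * u) →
        D.map α = ⊤ := by
  let _ := MulAction.compHom G ((MulAut.conj (G := G)).comp N[V].subtype)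
  obtain ⟨α, h⟩ := exists_hom_SL (G := N[V]) (· * ·) (fun g x y => map_mul (MulAut.conj (g : G)) x y) φ hi ha
    fun g v => let ⟨w, e⟩ := (hr _).1 (conj_mem_of_mem_norm g.2 ((hr _).2 ⟨v, rfl⟩)); ⟨w, e.symm⟩
  replace h : ∀ (g : N[V]) v, (g : G) * φ v * (g : G)⁻¹ = φ ((α g).1 *ᵥ v) := h
  have h0 : φ 0 = 1 := by simpa using ha 0 0
  refine ⟨α, fun n => ⟨fun e y hy => ?_, fun e => Subtype.ext (Matrix.ext_iff_mulVec.2 fun v => hi ?_)⟩, fun D hD =>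
    sl_eq_top_of_transvection_mem _ fun i j hij c => ?_⟩
  · obtain ⟨v, rfl⟩ := (hr y).1 hy
    exact (mul_inv_eq_iff_eq_mul.1 ((h n v).trans (e ▸ congrArg φ (one_mulVec v)))).symm
  · rw [← h, ← e _ ((hr _).2 ⟨v, rfl⟩), mul_inv_cancel_right]; exact congrArg φ (one_mulVec v).symm
  rcases Orth.zmod2_cases c with rfl | rfl
  · rw [show SpecialLinearGroup.transvection hij (0 : ZMod 2) = 1 from Subtype.ext (by simp)]; exact one_mem _
  obtain ⟨k, a, b⟩ := exists_ne_ne_of_three_le (by simp) i j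
  have m := fun v => (hr _).2 ⟨v, rfl⟩
  have := hD _ (m (Pi.single i 1)) _ (m (Pi.single k 1)) _ (m (Pi.single j 1))
  simp only [← h0, ← ha, hi.ne_iff, h, hi.eq_iff] at this
  obtain ⟨d, d1, d2⟩ := this (by clear * -; decide +revert) (by clear * -; decide +revert)
    (by clear * - hij; decide +revert) (by clear * - b; decide +revert) (by clear * - hij a b; decide +revert)
  refine ⟨d, d1, Subtype.ext (Matrix.ext fun x y => ?_)⟩
  have e : ∀ M : Matrix (Fin 3) (Fin 3) (ZMod 2), M x y = (M *ᵥ Pi.single y 1) x := fun M => by simp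
  refine (e _).trans (Eq.trans ?_ ((e _).symm.trans (congrFun₂ (SpecialLinearGroup.transvection_coe hij 1).symm x y)))
  rcases (by clear * - hij a b; decide +revert : y = i ∨ y = k ∨ y = j) with rfl | rfl | rfl
  · rw [d2.1]; clear * - hij; decide +revert
  · rw [d2.2.1]; clear * - b; decide +revert
  · rw [d2.2.2]; clear * - hij; decide +revert

theorem pCore_A6 : pCore 2 (alternatingGroup (Fin 6)) = ⊥ := by
  have := alternatingGroup.isSimpleGroup (α := Fin 6) (by simp)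
  refine (IsSimpleGroup.eq_bot_or_eq_top_of_normal _ inferInstance).resolve_right fun e => ?_
  obtain ⟨n, h⟩ := IsPGroup.iff_card.1 (pCore_isPGroup (p := 2) (G := alternatingGroup (Fin 6)))
  have := two_mul_nat_card_alternatingGroup (α := Fin 6)
  rw [e, card_top] at h
  rw [h, Nat.card_perm, Nat.card_fin, ← pow_succ'] at this
  exact absurd (Nat.prime_three.dvd_of_dvd_pow (this ▸ by decide : 3 ∣ 2 ^ (n + 1))) (by decide)

open scoped Pointwise in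
theorem FS.exists_elt {G : Type*} [Group G] {z : G} {A : Subgroup G} {T : ℕ → G} {μ : N[A] →* M24} (F : FS z A T μ)
    {p : ℕ} (hp : isM24 p = true) : ∃ n ∈ N[A], ∀ m {a b}, m < 2 ^ 24 ∧ Even (pc m) ∧ tv m = a ∧ tv (act p m) = b →
      n * T a * n⁻¹ = T b := by
  obtain ⟨n, hn⟩ := F.onto (M24.elt p)
  refine ⟨n, n.2, ?_⟩
  rintro m _ _ ⟨a, b, rfl, rfl⟩
  have := F.conj n (unmask m) (by rw [card_eq_pc, mask_unmask a]; exact b)
  rwa [← acSM.ap_code _ trivial, hn, mcode_elt hp, mask_unmask a] at this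

/-- Coordinates of the subgroup of order eight. -/
def enc8 (v : Fin 3 → ZMod 2) : ℕ := 5 * (v 0).val ^^^ 10 * (v 1).val ^^^ 1024 * (v 2).val

theorem enc8_facts : (∀ v, enc8 v < 2 ^ 11 ∧ cn (enc8 v) = 0 ∧ lany [0, 85, 170, 255] (Nat.beq (pl (enc8 v))) = true) ∧
    (∀ u v, enc8 u = enc8 v → u = v) ∧ ∀ u v, enc8 (u + v) = enc8 u ^^^ enc8 v := by decide +kernel

namespace LB

variable {G : Type*} [Group G] [Finite G] {Q : Subgroup G} {z : G} {π : G → V} {r : G → Γ} (S : LB Q z π r)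
  {a b c u : G}
include S

omit [Finite G] in
theorem V8_le : C[S.pq U0] ≤ C1[z] := cent_le_cent1 S.z_pq

theorem r_C (hc : c ∈ C[S.pq U0]) : r c ∈ St H0 (dc 85) ∧ r c (dc 170) = dc 170 := by
  have k : ∀ v ∈ U0, r c v = v := fun v hv => by
    obtain ⟨y, b, rfl⟩ := S.surj v
    rw [← S.act c (S.V8_le hc) y b, ← hc y ⟨b, hv⟩, mul_inv_cancel_right]
  exact ⟨⟨S.memH (S.V8_le hc), k _ U0_85⟩, k _ U0_170⟩

theorem ex_C {k : Γ} (h1 : k ∈ St H0 (dc 85)) (h2 : k (dc 170) = dc 170) : ∃ c ∈ C[S.pq U0], r c = k := by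
  obtain ⟨h, a, rfl⟩ := S.exH h1.1
  obtain ⟨q, b, c⟩ := S.exists_cent S.pq_le (S.z_pq (U := U0)) a fun y hy => fix_U0 h1.2 h2 hy.2
  exact ⟨_, c, by rw [S.rmul _ (S.le b) _ a, S.r_Q b, one_mul]⟩

omit [Finite G] in
theorem C_inf : C[S.pq U0] ⊓ Q = S.pq Up := le_antisymm (fun x hx => ⟨hx.2, fun u hu => by
    obtain ⟨y, a, rfl⟩ := S.surj u
    exact (S.comm y a x hx.2).1 (hx.1 y ⟨a, hu⟩).symm⟩)
  fun x hx => ⟨fun y hy => ((S.comm y hy.1 x hx.1).2 (hx.2 _ hy.2)).symm, hx.1⟩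

theorem card_R8 : Nat.card ↥(C[S.pq U0] ⊓ S.pb E0) = 2 ^ 15 := by
  rw [S.card_im (inf_le_left.trans S.V8_le), inf_assoc, inf_eq_right.2 S.le_pb, S.C_inf, S.card_pq, card_Up,
    show S.im (C[S.pq U0] ⊓ S.pb E0) = St E0 (dc 170) from Subgroup.ext fun k => S.mem_im.trans ⟨fun ⟨_, a, _, b⟩ =>
      b ▸ ⟨(S.mem_pb.1 a.2).2, (S.r_C a.1).2⟩, fun h => let ⟨a, b, c⟩ := S.ex_C (E0_85 h.1) h.2
      ⟨a, ⟨b, S.mem_pb.2 ⟨S.V8_le b, c ▸ h.1⟩⟩, S.V8_le b, c⟩⟩, card_E1]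
  rfl

theorem exists_θ : ∃ θ : G → alternatingGroup (Fin 6), (∀ a ∈ C[S.pq U0], ∀ b ∈ C[S.pq U0], θ (a * b) = θ a * θ b) ∧
    (∀ b, ∃ a ∈ C[S.pq U0], θ a = b) ∧ (∀ a ∈ C[S.pq U0], θ a = 1 ↔ a ∈ Op 2 C[S.pq U0]) ∧
    Op 2 C[S.pq U0] = C[S.pq U0] ⊓ S.pb E0 := by
  obtain ⟨θ, a1, a2, a3⟩ := exists_theta1
  have m : ∀ a ∈ C[S.pq U0], ∀ b ∈ C[S.pq U0], θ (r (a * b)) = θ (r a) * θ (r b) := fun a h b h' => by
    rw [S.rmul _ (S.V8_le h) _ (S.V8_le h'), a1 _ (S.r_C h).1 _ (S.r_C h').1]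
  have s : ∀ b, ∃ a ∈ C[S.pq U0], θ (r a) = b := fun b => by
    obtain ⟨k, b1, b2, rfl⟩ := a3 b
    obtain ⟨c, d, rfl⟩ := S.ex_C b1 b2
    exact ⟨c, d, rfl⟩
  let f : C[S.pq U0] →* _ := MonoidHom.mk' (fun a => θ (r a)) fun a b => m _ a.2 _ b.2
  have k : f.ker.map (Subgroup.subtype _) = C[S.pq U0] ⊓ S.pb E0 := Subgroup.ext fun a =>
    ⟨by rintro ⟨a, h, rfl⟩; exact ⟨a.2, S.mem_pb.2 ⟨S.V8_le a.2, (a2 _ (S.r_C a.2).1).1 h⟩⟩,
      fun h => ⟨⟨a, h.1⟩, (a2 _ (S.r_C h.1).1).2 (S.mem_pb.1 h.2).2, rfl⟩⟩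
  have e : pCore 2 C[S.pq U0] = f.ker := le_antisymm ((Subgroup.map_eq_bot_iff _).1 (le_bot_iff.1 (pCore_A6 ▸
    map_pCore_le f fun b => let ⟨a, h, e⟩ := s b; ⟨⟨a, h⟩, e⟩))) (le_pCore inferInstance (IsPGroup.of_card (n := 15) (by
      rw [← card_map_of_injective (subtype_injective _), k, S.card_R8])))
  exact ⟨fun a => θ (r a), m, s, fun a h => by rw [mem_Op_iff h, e]; rfl, by rw [Op, e, k]⟩

theorem exists_n8 : ∃ n ∈ N[S.pq U0], π (n * z * n⁻¹) = dc 85 ∧ ∃ φ : (Fin 3 → ZMod 2) → G, Function.Injective φ ∧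
    (∀ u v, φ (u + v) = φ u * φ v) ∧ ∀ y, y ∈ S.pq U0 ↔ ∃ v, φ v = y := by
  obtain ⟨x, X⟩ := S.exists_x
  obtain ⟨T, μ, C, F⟩ := S.exists_FS X
  obtain ⟨e1, e2, e3⟩ := enc8_facts
  have m : ∀ c < 2048, cn c = 0 → lany [0, 85, 170, 255] (Nat.beq (pl c)) = true → T c ∈ S.pq U0 := fun c a b d =>
    ⟨(C.πT a b).1, mem_U0.2 (by rw [(C.πT a b).2, cd_pl, d])⟩
  have m' : ∀ v, T (enc8 v) ∈ S.pq U0 := fun v => m _ (e1 v).1 (e1 v).2.1 (e1 v).2.2
  have i : Function.Injective fun v => T (enc8 v) := fun u v h => e2 u v (F.co.eq (e1 u).1 (e1 v).1 h)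
  have s : ∀ y ∈ S.pq U0, ∃ v, T (enc8 v) = y := fun y hy => by
    obtain ⟨v, e⟩ := ((Nat.bijective_iff_injective_and_card fun v => (⟨_, m' v⟩ : S.pq U0)).2
      ⟨fun u v h => i (congrArg Subtype.val h), by rw [S.card_pq, card_U0]; simp⟩).2 ⟨y, hy⟩
    exact ⟨v, congrArg Subtype.val e⟩
  obtain ⟨n, -, k⟩ := F.exists_elt (p := 478407027622432509984183047288887328) (by decide +kernel)
  have k1 : n * T 1024 * n⁻¹ = T 5 := k 4103 (by decide +kernel)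
  have k2 : n * T 5 * n⁻¹ = T 1029 := k 8259 (by decide +kernel)
  have k3 : n * T 10 * n⁻¹ = T 10 := k 101 (by decide +kernel)
  refine ⟨n, mem_normalizer_of_conj_le (conj_le_iff_forall.2 fun y hy => ?_), by
    rw [← C.Tz, k1, (C.πT (by omega) (by decide +kernel)).2]; decide +kernel, _, i, fun u v => by
      rw [← C.mul, e3], fun y => ⟨s y, by rintro ⟨v, rfl⟩; exact m' v⟩⟩
  obtain ⟨v, rfl⟩ := s y hy
  have p : ∀ (a : ZMod 2) c, T (c * a.val) = T c ^ a.val := fun a c => by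
    rcases Orth.zmod2_cases a with rfl | rfl
    exacts [by simpa using C.zero, by simp [ZMod.val_one]]
  simp only [enc8, C.mul, p, ← conj_mul, ← conj_pow, k1, k2, k3]
  refine mul_mem (mul_mem (pow_mem (m _ ?_ ?_ ?_) _) (pow_mem (m _ ?_ ?_ ?_) _)) (pow_mem (m _ ?_ ?_ ?_) _) <;>
    decide +kernel

omit [Finite G] in
theorem V8_sq (hu : u ∈ S.pq U0) : u * u = 1 := S.Ph_sq ⟨hu.1, hu.2.1⟩

theorem trio : IsSpecial 2 (Op 2 N[S.pq U0]) ∧ Nat.card (Op 2 N[S.pq U0]) = 2 ^ 15 ∧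
    Op 2 N[S.pq U0] ⊓ C[Op 2 N[S.pq U0]] = S.pq U0 ∧
    ∃ β : N[S.pq U0] →* SpecialLinearGroup (Fin 3) (ZMod 2) × alternatingGroup (Fin 6),
      Function.Surjective β ∧ ∀ l, β l = 1 ↔ (l : G) ∈ Op 2 N[S.pq U0] := by
  obtain ⟨n, n1, n2, φ, φ1, φ2, φ3⟩ := S.exists_n8
  obtain ⟨θ, θ1, θ2, θ3, θ4⟩ := S.exists_θ
  obtain ⟨α, α1, α2⟩ := exists_sl3 φ φ1 φ2 φ3
  have sV := conj_mem_of_mem_norm n1 S.z_pq
  have s0 : π (n * z * n⁻¹) ≠ 0 := by rw [n2]; decide +kernel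
  have sz : n * z * n⁻¹ ≠ z := fun e => s0 (by rw [e, S.π_z])
  have tr : ∀ u ∈ S.pq U0, u ≠ 1 → ∃ m ∈ N[S.pq U0], m * z * m⁻¹ = u := fun u a b => by
    by_cases c : π u = 0
    · exact ⟨1, one_mem _, by simp [((S.ker u a.1).1 c).resolve_left b]⟩
    obtain ⟨g, g1, g2, g3⟩ := exists_U0 a.2 c
    obtain ⟨h, h1, rfl⟩ := S.exH g1
    obtain ⟨k, k1, k2, k3⟩ := S.exists_conj h1 sV.1 a.1 c (n2 ▸ g3)
    exact ⟨k * n, mul_mem (S.norm_pq k1 (k2 ▸ g2)) n1, by rw [← k3]; group⟩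
  have VC : S.pq U0 ≤ C[S.pq U0] := fun a h b h' => (commute_of_elem (fun _ => S.V8_sq) h' h).eq
  have nR : N[S.pq U0] ≤ N[Op 2 C[S.pq U0]] := (norm_le_norm_cent _).trans (norm_le_norm_Op _)
  have e : Op 2 N[S.pq U0] = Op 2 C[S.pq U0] := by
    refine le_antisymm (le_Op (le_cent_symm fun u a => ?_) ((cent_le_norm _).trans (le_norm_Op _)) (Op_isPGroup _))
      (le_Op ((Op_le _).trans (cent_le_norm _)) nR (Op_isPGroup _))
    obtain ⟨w, w1, w2⟩ := exists_ne_one_of_ne_bot (PG.inf_cent_ne_bot (Op_isPGroup (p := 2) N[S.pq U0])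
      (isPGroup_of_elem fun _ => S.V8_sq) (Op_le _) (ne_bot_of_mem S.z_pq S.ne))
    by_cases b : u = 1
    · exact b ▸ one_mem _
    obtain ⟨m, m1, rfl⟩ := tr u a b
    obtain ⟨k, k1, rfl⟩ := tr w w1.1 w2
    have := conj_mem_of_le_norm (le_norm_cent (le_norm_Op _)) (mul_mem m1 (inv_mem k1)) w1.2
    rwa [show m * k⁻¹ * (k * z * k⁻¹) * (m * k⁻¹)⁻¹ = m * z * m⁻¹ by group] at this
  have QR : ∀ q ∈ C[S.pq U0], q ∈ Q → q ∈ Op 2 C[S.pq U0] := fun q a b => θ4 ▸ ⟨a, S.le_pb b⟩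
  have RC := Op_le (p := 2) C[S.pq U0]
  have rE : ∀ a ∈ Op 2 C[S.pq U0], r a ∈ E0 := fun a h => (S.mem_pb.1 (θ4.le h).2).2
  have up : ∀ q ∈ C[S.pq U0], q ∈ Q → π q ∈ Up := fun q a b => (S.C_inf.le ⟨a, b⟩).2
  have ze : Op 2 C[S.pq U0] ⊓ C[Op 2 C[S.pq U0]] = S.pq U0 := by
    refine le_antisymm (fun y hy => ?_) (le_inf (fun a h => QR a (VC h) h.1) (le_cent_symm RC))
    have a := S.V8_le (RC hy.1)
    have b := (S.r_eq_one a).1 ((E0_facts (rE y hy.1) (S.r_C (RC hy.1)).2).2 fun v hv => by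
      obtain ⟨q, c, rfl⟩ := S.surj v
      rw [← S.act y a q c, ← hy.2 q (QR q (S.C_inf.ge ⟨c, hv⟩).1 c), mul_inv_cancel_right])
    by_contra c
    obtain ⟨q, d, f, g⟩ := S.toES.exists_cent_not S.pq_le S.z_pq b c
    exact g (hy.2 q (QR q (fun w h => (f w h).eq.symm) d))
  have P := S.lp sV.1 sz
  have sq : ∀ a ∈ Op 2 C[S.pq U0], a * a ∈ S.pq U0 := fun a h => by
    obtain ⟨t, ⟨t1, -⟩, t2, t3⟩ := S.mem_im.1 ((S.im_R P (S.card_cj n) n2).1.ge (rE a h))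
    have tC : t ∈ C[S.pq U0] := fun y hy => by
      have c := (S.π_eq_iff hy.1 (S.conj_mem t2 hy.1)).1 (by
        rw [S.act t t2 y hy.1, t3, fix_U0 (S.r_C (RC h)).1.2 (S.r_C (RC h)).2 hy.2])
      have d := P.hS.conj t t1 y (conj_mono n S.pq_le ((conj_eq_self n1).ge hy))
      exact (mul_inv_eq_iff_eq_mul.1 (c.elim id fun c => d.elim id fun d => absurd (mul_left_cancel (d.symm.trans c)) sz)).symm
    have q1 : a * t⁻¹ ∈ Q := (S.r_eq_one (mul_mem (S.V8_le (RC h)) (inv_mem t2))).1 (by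
      rw [S.rmul _ (S.V8_le (RC h)) _ (inv_mem t2), S.r_inv t2, t3, mul_inv_cancel])
    have q2 := mul_mem (RC h) (inv_mem tC)
    have q3 := S.conj_mem t2 q1
    rw [show a * a = a * t⁻¹ * (t * (a * t⁻¹) * t⁻¹) * (t * t) by group]
    refine mul_mem ⟨mul_mem q1 q3, ?_⟩ ((P.hS.sq t t1).elim (· ▸ one_mem _) (· ▸ sV))
    rw [S.mul _ q1 _ q3, S.act t t2 _ q1, add_comm, t3]
    exact (E0_facts (rE a h) (S.r_C (RC h)).2).1 _ (up _ q2 q1)
  have c1 : ⁅Op 2 C[S.pq U0], Op 2 C[S.pq U0]⁆ ≤ S.pq U0 := commutator_le.2 fun a h b h' => by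
    rw [commutatorElement_def, show a * b * a⁻¹ * b⁻¹ = a * a * (a⁻¹ * b * (a⁻¹ * b)) * (b * b)⁻¹ by group]
    exact mul_mem (mul_mem (sq a h) (sq _ (mul_mem (inv_mem h) h'))) (inv_mem (sq b h'))
  have c2 : S.pq U0 ≤ ⁅Op 2 C[S.pq U0], Op 2 C[S.pq U0]⁆ := fun u a => by
    by_cases b : u = 1
    · exact b ▸ one_mem _
    obtain ⟨m, m1, rfl⟩ := tr u a b
    refine conj_mem_of_le_norm (le_norm_commutator nR nR) m1 ?_
    obtain ⟨p, p1, p2⟩ := S.surj (dc 5)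
    obtain ⟨q, q1, q2⟩ := S.surj (dc 34)
    have := commutator_mem_commutator (QR p (S.C_inf.ge ⟨p1, mem_Up.2 (by rw [p2]; decide +kernel)⟩).1 p1)
      (QR q (S.C_inf.ge ⟨q1, mem_Up.2 (by rw [q2]; decide +kernel)⟩).1 q1)
    rwa [commutatorElement_def, S.toES.conj_of_not p1 q1 fun e => absurd (B_eq_zero.1 ((S.comm p p1 q q1).1 e.eq.symm))
      (by rw [p2, q2]; decide +kernel), (S.zc q q1).eq.symm, mul_inv_cancel_right] at this
  let D : Subgroup N[S.pq U0] :=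
    { carrier := {d | ∀ c ∈ C[S.pq U0], θ (d * c * (d : G)⁻¹) = θ c}
      one_mem' := fun c _ => by simp
      mul_mem' := fun {a b} h h' c hc => by
        rw [← h' c hc, ← h _ (conj_mem_of_le_norm (norm_le_norm_cent _) b.2 hc)]; congr 1; simp [mul_assoc]
      inv_mem' := fun {a} h c hc => by
        rw [← h _ (conj_mem_of_le_norm (norm_le_norm_cent _) a⁻¹.2 hc)]; congr 1; simp [mul_assoc] }
  have hD := α2 D fun u u1 a a1 b b1 u2 b2 b3 b4 b5 => by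
    obtain ⟨m, m1, rfl⟩ := tr u u1 u2
    have E := S.toES.conj_ m
    have le := (conj_eq_self m1).ge.trans (conj_mono m S.pq_le)
    obtain ⟨q, q1, q2, q3⟩ := E.exists_cent_not (W := closure {m * z * m⁻¹, a})
      ((closure_le _).2 (by rintro _ (rfl | rfl); exacts [E.mem, le a1])) (subset_closure (.inl rfl)) (le b1)
      (by rw [mem_closure_pair E.zz (S.V8_sq a1) (E.zc a (le a1))]; tauto)
    have qn := E.le_norm le u1 q1
    refine ⟨⟨q, qn⟩, fun c hc => ?_, commute_iff_conj.1 (q2 _ (subset_closure (.inl rfl))),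
      commute_iff_conj.1 (q2 _ (subset_closure (.inr rfl))), E.conj_of_not q1 (le b1) q3⟩
    have c1 := conj_mem_of_le_norm (norm_le_norm_cent _) qn hc
    have c2 := mul_mem c1 (inv_mem hc)
    have c3 : q * c * q⁻¹ * c⁻¹ ∈ cj[m] Q := by
      rw [mul_assoc, mul_assoc, ← mul_assoc c]
      exact mul_mem q1 (conj_mem_of_le_norm (S.conj_ m).nQ (cent_le_cent1 u1 hc) (inv_mem q1))
    have c4 := conj_mem_of_le_norm nR m1 (QR _ (conj_mem_of_le_norm' (norm_le_norm_cent _) m1 c2) (mem_conj.1 c3))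
    rw [show m * (m⁻¹ * (q * c * q⁻¹ * c⁻¹) * m) * m⁻¹ = q * c * q⁻¹ * c⁻¹ by group, ← θ3 _ c2] at c4
    rw [← inv_mul_cancel_right (q * c * q⁻¹) c, θ1 _ c2 _ hc, c4, one_mul]
  obtain ⟨β, β1, β2⟩ := exists_prod_hom α (fun l => θ l) (fun a b h h' => θ1 _ ((α1 a).1 h) _ ((α1 b).1 h'))
    (fun b => let ⟨a, h, e⟩ := θ2 b; ⟨⟨a, cent_le_norm _ h⟩, (α1 _).2 h, e⟩)
    (alternatingGroup.center_eq_bot (by simp)) fun a => let ⟨d, h, e⟩ := hD.ge (mem_top a)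
      ⟨d, e, fun c hc => h _ ((α1 c).1 hc)⟩
  rw [e]
  refine ⟨⟨Op_isPGroup _, ?_, ?_⟩, θ4 ▸ S.card_R8, ze, β, β1, fun l => (β2 l).trans ⟨fun h =>
    (θ3 _ ((α1 l).1 h.1)).1 h.2, fun h => ⟨(α1 l).2 (RC h), (θ3 _ (RC h)).2 h⟩⟩⟩ <;>
    apply Subgroup.map_injective (subtype_injective _) <;> simp only [map_subtype_center, ze]
  · exact le_antisymm (PG.phi_le_of_elem Nat.prime_two (ze.ge.trans inf_le_left) c1 fun a h => pow_two a ▸ sq a h)
      (c2.trans (PG.commutator_le_phi (Op_isPGroup _)))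
  · rw [map_subtype_commutator']; exact le_antisymm c1 c2

end LB

end Cfsg.Agent.LF
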