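import Cfsg.Agent.LF.Cent3
import Cfsg.Agent.LF.Trio

/-! # Groups of large Fischer type: coordinates on `Q` -/

set_option autoImplicit false

namespace Cfsg.Agent.LF

open Cfsg.Agent.M24 Cfsg.Agent.GT Cfsg.Agent.TT Cfsg.Agent.TT2 Cfsg.Agent.Cl Subgroup

/-- The low twelve bits. -/
def lo (n : ℕ) : ℕ := Nat.land n (nat_lit 4095)
/-- The thirteenth bit. -/
noncomputable def hb (b : Bool) : ℕ := bif' b (nat_lit 4096) (nat_lit 0)
/-- Product in coordinates. -/
noncomputable def qm (a b : ℕ) : ℕ := force (lo a) fun u =>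
  Nat.xor (Nat.xor a b) (hb (bc (Nat.xor u (mm cW u)) (lo b)))
/-- Action in coordinates. -/
def qk (p n : ℕ) : ℕ := Nat.xor (mm p (lo n)) (Nat.land n (nat_lit 4096))
/-- `z` or `1`. -/
def zp {G : Type*} [Group G] (z : G) (b : Bool) : G := cond b z 1

theorem cd_dc' (n : ℕ) : cd (dc n) = lo n := by
  have : lo n < 4096 := Nat.and_lt_two_pow (n := 12) _ (by decide)
  rw [← cd_dc this]
  congr 1
  funext i
  have k : ∀ j < 12, (lo n).testBit j = n.testBit j := fun j hj => by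
    rw [show lo n = n &&& (2 ^ 12 - 1) from rfl, Nat.testBit_and, Nat.testBit_two_pow_sub_one]; simp [hj]
  simp only [dc, k _ (show 2 * (i : ℕ) < 12 by omega), k _ (show 2 * (i : ℕ) + 1 < 12 by omega)]

theorem bc_add (u u' v : V) : bc (cd (u + u')) (cd v) = xor (bc (cd u) (cd v)) (bc (cd u') (cd v)) := by
  have := B_bc (u + u') v
  rw [map_add, LinearMap.add_apply, B_bc, B_bc] at this
  revert this
  cases bc (cd (u + u')) (cd v) <;> cases bc (cd u) (cd v) <;> cases bc (cd u') (cd v) <;> decide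

theorem bc_om (u v : V) : bc (cd (om • u)) (cd (om • v)) = bc (cd u) (cd v) := by
  have := N0_B (K0_le_N0 W_mem) u v
  rw [W_apply, W_apply, B_bc, B_bc] at this
  revert this
  cases bc (cd (om • u)) (cd (om • v)) <;> cases bc (cd u) (cd v) <;> decide

theorem land12 (n : ℕ) : Nat.land n 4096 = hb (tbit n 12) := by
  rw [tbit_eq, show Nat.land n 4096 = n &&& 2 ^ 12 from rfl, Nat.and_two_pow]
  cases n.testBit 12 <;> rfl

theorem hb_facts (b : Bool) : dc (hb b) = 0 ∧ tbit (hb b) 12 = b := by cases b <;> decide +kernel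

theorem tbit_xor (a b i : ℕ) : tbit (a ^^^ b) i = xor (tbit a i) (tbit b i) := by
  simp only [tbit_eq, Nat.testBit_xor]

theorem tbit_cd (v : V) : tbit (cd v) 12 = false := by
  rw [tbit_eq]; exact Nat.testBit_lt_two_pow (cd_lt v)

section
variable {G : Type*} [Group G] {z : G}

theorem zp_xor (h : z * z = 1) (a b : Bool) : zp z (xor a b) = zp z a * zp z b := by
  cases a <;> cases b <;> simp [zp, h]

theorem zp_comm {y : G} (h : y ∈ C1[z]) (a : Bool) : Commute y (zp z a) := by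
  cases a
  exacts [Commute.one_right y, mem_cent1.1 h]

theorem N3_conj {x k : G} (h : k * x = x * k) (a : G) : N3 x (k * a * k⁻¹) = k * N3 x a * k⁻¹ := by
  have e : ∀ a, x * (k * a * k⁻¹) * x⁻¹ = k * (x * a * x⁻¹) * k⁻¹ := fun a => by
    calc _ = x * k * a * (x * k)⁻¹ := by group
      _ = _ := by rw [← h]; group
  rw [N3, N3, e, e, conj_mul, conj_mul]

end

/-- Coordinates on `Q`. -/
structure QS {G : Type*} [Group G] (Q : Subgroup G) (z : G) (π : G → V) (x : G) (σ : ℕ → G) : Prop where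
  mem : ∀ n, σ n ∈ Q
  pi : ∀ n, π (σ n) = dc n
  nm : ∀ n, N3 x (σ n) = zp z (tbit n 12)

namespace LB

variable {G : Type*} [Group G] {Q : Subgroup G} {z : G} {π : G → V} {r : G → Γ} (S : LB Q z π r)
  {a b k x y : G} {σ : ℕ → G} {m n : ℕ}
include S

theorem swap (ha : a ∈ Q) (hb : b ∈ Q) : b * a = a * b * zp z (bc (cd (π a)) (cd (π b))) := by
  have := (S.comm a ha b hb).trans B_eq_zero
  cases h : bc (cd (π a)) (cd (π b))
  · simpa [zp] using this.2 h
  · have e := S.toES.conj_of_not hb ha fun e => by simpa [h] using this.1 e.eq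
    rw [mul_inv_eq_iff_eq_mul.1 e, mul_assoc, (S.zc b hb).eq, ← mul_assoc]; rfl

variable (X : LX z r x)
include X

theorem N3_mulQ (ha : a ∈ Q) (hb : b ∈ Q) :
    N3 x (a * b) = N3 x a * N3 x b * zp z (bc (cd (π a + om • π a)) (cd (π b))) := by
  have a1 := S.conj_mem X.xH ha
  have a2 := S.conj_mem X.xH a1
  have b1 := S.conj_mem X.xH hb
  have b2 := S.conj_mem X.xH b1
  have e1 := S.swap a1 hb
  have e2 := S.swap a2 (mul_mem hb b1)
  rw [S.mul _ hb _ b1, S.π_x X a1, S.π_x X hb, V_add_eq_zero.1 (om_om (π b)), bc_om, S.π_x X ha, bc_om] at e2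
  rw [S.π_x X ha] at e1
  rw [bc_add, zp_xor S.zz, N3, N3, N3, ← conj_mul (a := a), ← conj_mul (a := x * a * x⁻¹)]
  have c1 := (zp_comm (S.le (mul_mem (mul_mem b1 a2) b2)) (bc (cd (om • π a)) (cd (π b)))).eq
  have c2 := (zp_comm (S.le b2) (bc (cd (π a)) (cd (π b)))).eq
  clear a1 a2 b1 b2
  generalize x * (x * a * x⁻¹) * x⁻¹ = a2 at *
  generalize x * (x * b * x⁻¹) * x⁻¹ = b2 at *
  generalize x * a * x⁻¹ = a1 at *
  generalize x * b * x⁻¹ = b1 at *
  generalize zp z (bc (cd (om • π a)) (cd (π b))) = w at *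
  calc _ = a * (b * a1) * (b1 * a2 * b2) := by group
    _ = a * a1 * (b * b1 * a2) * b2 * w := by rw [e1, mul_assoc a, mul_assoc (a1 * b), ← c1]; group
    _ = _ := by rw [e2, mul_assoc (a * a1), mul_assoc (a2 * _), ← c2]; group

theorem N3_cases (ha : a ∈ Q) : N3 x a = 1 ∨ N3 x a = z := by
  have c := S.conj_mem X.xH ha
  exact (S.ker _ (mul_mem (mul_mem ha c) (S.conj_mem X.xH c))).1 (by
    rw [S.mul _ (mul_mem ha c) _ (S.conj_mem X.xH c), S.mul _ ha _ c, S.π_x X c, S.π_x X ha, om_om])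

theorem N3_z (ha : a ∈ Q) : N3 x (a * z) = N3 x a * z := by
  rw [S.N3_mulQ X ha S.mem, S.π_z, N3_of_comm (S.z_comm X.xH), S.zz, one_mul,
    B_eq_zero.1 (map_zero _)]
  exact mul_one _

theorem exists_QS : ∃ σ, QS Q z π x σ := by
  have : ∀ n, ∃ y ∈ Q, π y = dc n ∧ N3 x y = zp z (tbit n 12) := fun n => by
    obtain ⟨y, a, b⟩ := S.surj (dc n)
    have c := S.N3_z X a
    have d : π (y * z) = dc n := (S.π_mul_z a).trans b
    rcases S.N3_cases X a with e | e <;> cases tbit n 12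
    exacts [⟨y, a, b, e⟩, ⟨_, mul_mem a S.mem, d, by rw [c, e, one_mul]; rfl⟩,
      ⟨_, mul_mem a S.mem, d, by rw [c, e, S.zz]; rfl⟩, ⟨y, a, b, e⟩]
  choose σ a b c using this
  exact ⟨σ, a, b, c⟩

variable (R : QS Q z π x σ)
include R

theorem σ_eq (hy : y ∈ Q) (h1 : π y = dc n) (h2 : N3 x y = zp z (tbit n 12)) : y = σ n :=
  ((S.π_eq_iff (R.mem n) hy).1 ((R.pi n).trans h1.symm)).resolve_right fun e => by
    rw [e, S.N3_z X (R.mem n), R.nm] at h2
    exact S.mul_z_ne h2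

theorem exists_σ (hy : y ∈ Q) : ∃ n, y = σ n := by
  have k : ∀ b, N3 x y = zp z b → y = σ (cd (π y) ^^^ hb b) := fun b h => S.σ_eq X R hy
    (by rw [dc_xor, dc_cd, (hb_facts b).1, add_zero]) (by rw [tbit_xor, tbit_cd, (hb_facts b).2, h]; simp)
  exact (S.N3_cases X hy).elim (fun h => ⟨_, k false h⟩) fun h => ⟨_, k true h⟩

theorem σ_mul (m n : ℕ) : σ m * σ n = σ (qm m n) := by
  refine S.σ_eq X R (mul_mem (R.mem m) (R.mem n)) ?_ ?_
  · simp only [qm, force_eq, Nat.xor_eq, dc_xor, (hb_facts _).1, add_zero, S.mul _ (R.mem m) _ (R.mem n), R.pi]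
  · simp only [qm, force_eq, Nat.xor_eq, tbit_xor, (hb_facts _).2, zp_xor S.zz, S.N3_mulQ X (R.mem m) (R.mem n),
      R.nm, R.pi, cd_add, ← mm_cW, cd_dc']

theorem σ_conj (hk : k ∈ C1[z]) (e : k * x = x * k) (n : ℕ) : k * σ n * k⁻¹ = σ (qk (code (r k)) n) := by
  refine S.σ_eq X R (S.conj_mem hk (R.mem n)) ?_ ?_ <;>
    simp only [qk, Nat.xor_eq, land12, ← cd_dc', mm_code]
  · rw [dc_xor, (hb_facts _).1, add_zero, dc_cd, S.act _ hk _ (R.mem n), R.pi]
  · rw [tbit_xor, tbit_cd, (hb_facts _).2, N3_conj e, R.nm, (zp_comm hk _).eq]; simp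

theorem σ_zero : σ 0 = 1 := (S.σ_eq X R (one_mem _) (S.π_one.trans dc_zero.symm) (by simp [N3, zp, tbit_eq])).symm

theorem σ_z : σ 4096 = z := (S.σ_eq X R S.mem (S.π_z.trans (hb_facts true).1.symm)
  (by rw [N3_of_comm (S.z_comm X.xH), S.zz, one_mul]; rfl)).symm

end LB

end Cfsg.Agent.LF
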