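import Cfsg.Agent.LF.Dat5
import Cfsg.Agent.LF.Stab
import Cfsg.Agent.TT2.Thom

/-! # A totally singular subspace, its stabilisers, and the offenders of a Sylow `2`-subgroup -/

set_option autoImplicit false

namespace Cfsg.Agent.LF

open Cfsg.Agent.M24 Cfsg.Agent.Cl Cfsg.Agent.Leech Equiv Subgroup

/-- A totally singular subspace. -/
def P0 : AddSubgroup V where
  carrier := {v | v 0 = v 1 ∧ v 2 = v 3 ∧ v 4 = v 5}
  zero_mem' := ⟨rfl, rfl, rfl⟩
  add_mem' a b := ⟨congrArg₂ (· + ·) a.1 b.1, congrArg₂ (· + ·) a.2.1 b.2.1, congrArg₂ (· + ·) a.2.2 b.2.2⟩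
  neg_mem' a := by rwa [V_neg]

theorem mem_P0 {v : V} : v ∈ P0 ↔ inP (cd v) = true := by
  have := forall_V (f := fun n => decide ((dc n 0 = dc n 1 ∧ dc n 2 = dc n 3 ∧ dc n 4 = dc n 5) ↔ inP n = true))
    (by decide +kernel) v
  rwa [decide_eq_true_iff, dc_cd] at this

theorem card_P0 : Nat.card P0 = 64 := (ncard_V fun _ => mem_P0).trans (by decide +kernel)

theorem pl_lt (p : ℕ) : pl p < 4096 := J4.lin_lt _ _

theorem pl_xor (a b : ℕ) : pl (a ^^^ b) = pl a ^^^ pl b := J4.lin_xor _ _ _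

theorem cd_pl (p : ℕ) : cd (dc (pl p)) = pl p := cd_dc (pl_lt p)

theorem P0_facts {v : V} (h : v ∈ P0) : pcd (cd v) < 64 ∧ dc (pl (pcd (cd v))) = v ∧ Q0 v = 0 := by
  have := forall_V (f := fun n => bor (!inP n) (decide (pcd n < 64 ∧ pl (pcd n) = n ∧ ty n ≠ 3)))
    (by decide +kernel) v
  rw [mem_P0.1 h, bor_eq, Bool.not_true, Bool.false_or, decide_eq_true_iff] at this
  exact ⟨this.1, by rw [this.2.1, dc_cd], Q0_eq_zero.2 this.2.2⟩

theorem pl_facts : ∀ p < 64, inP (pl p) = true ∧ pcd (pl p) = p := by decide +kernel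

theorem pl_mem {p : ℕ} (h : p < 64) : dc (pl p) ∈ P0 := mem_P0.2 (by rw [cd_pl]; exact (pl_facts p h).1)

theorem forall_P0 {f : ℕ → Bool} (h : (nall 64 fun i => f (pl i)) = true) {v : V} (hv : v ∈ P0) :
    f (cd v) = true := by
  have := (nall_iff _ _).1 h _ (P0_facts hv).1
  rwa [← cd_pl, (P0_facts hv).2.1] at this

theorem P0_B {u v : V} (hu : u ∈ P0) (hv : v ∈ P0) : Orth.B Q0 u v = 0 := by
  rw [B_eq, (P0_facts hu).2.2, (P0_facts hv).2.2, (P0_facts (add_mem hu hv)).2.2]; rfl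

theorem exists_basis {l : List ℕ} (hl : lall l (fun b => band (Nat.ble b 4095) (inP b)) = true) {f : ℕ → Bool}
    (h : lany l f = true) : ∃ u ∈ P0, f (cd u) = true := by
  obtain ⟨b, a, c⟩ := (lany_iff _ _).1 h
  have := (lall_iff _ _).1 hl b a
  simp only [band_eq, Bool.and_eq_true, Nat.ble_eq] at this
  have e := cd_dc (n := b) (by omega)
  exact ⟨dc b, mem_P0.2 (e.symm ▸ this.2), e.symm ▸ c⟩

theorem mem_P0_of_perp {v : V} (h : ∀ u ∈ P0, Orth.B Q0 u v = 0) : v ∈ P0 := by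
  have := forall_V (f := fun n => bor (inP n) (lany [5, 10, 80, 160, 1280, 2560] fun b => bc b n))
    (by decide +kernel) v
  rw [bor_eq, Bool.or_eq_true, ← mem_P0] at this
  refine this.resolve_right fun e => ?_
  obtain ⟨u, a, b⟩ := exists_basis (by decide +kernel) e
  simp [B_eq_zero.1 (h u a)] at b

theorem om_P0 {v : V} (h : v ∈ P0) : om • v ∈ P0 :=
  ⟨congrArg (om * ·) h.1, congrArg (om * ·) h.2.1, congrArg (om * ·) h.2.2⟩

theorem om_om (v : V) : v + om • v + om • om • v = 0 :=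
  funext fun i => (show ∀ a : K4, a + om * a + om * (om * a) = 0 by decide) _

theorem eq_zero_of_om {v : V} (h : om • v = v) : v = 0 := by
  have := om_om v
  rwa [h, h, V_add_self, zero_add] at this

/-- The pointwise stabiliser. -/
noncomputable def A0 : Subgroup Γ := H0 ⊓ fixingSubgroup Γ (P0 : Set V)

theorem mem_A0 {g : Γ} : g ∈ A0 ↔ g ∈ H0 ∧ ∀ v ∈ P0, g v = v := and_congr_right' (mem_fixingSubgroup_iff Γ)

/-- The stabiliser. -/
noncomputable def Y0 : Subgroup Γ where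
  carrier := {g | g ∈ H0 ∧ ∀ v, g v ∈ P0 ↔ v ∈ P0}
  one_mem' := ⟨one_mem _, fun _ => Iff.rfl⟩
  mul_mem' a b := ⟨mul_mem a.1 b.1, fun v => (a.2 _).trans (b.2 v)⟩
  inv_mem' {g} a := ⟨inv_mem a.1, fun v => (a.2 _).symm.trans (by simp)⟩

theorem mem_Y0 {g : Γ} (h1 : g ∈ H0) (h2 : ∀ v ∈ P0, g v ∈ P0) : g ∈ Y0 :=
  ⟨h1, fun v => ⟨fun h => mem_P0_of_perp fun u hu => by
    rw [← N0_B (H0_le_N0 h1)]; exact P0_B (h2 u hu) h, h2 v⟩⟩

/-- Membership test. -/
noncomputable def inY (p : ℕ) : Bool := band (inH p) (nall 64 fun i => inP (mm p (pl i)))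

theorem mem_Y0_of {g : Γ} (h : inY (code g) = true) : g ∈ Y0 := by
  rw [inY, band_eq, Bool.and_eq_true] at h
  refine mem_Y0 (mem_H0.2 h.1) fun v hv => mem_P0.2 ?_
  rw [← mm_code]; exact forall_P0 (f := fun n => inP (mm (code g) n)) h.2 hv

theorem card_Y0 : 34560 ≤ Nat.card Y0 :=
  ((chk_sound chk_Y).2.2.1.trans (by decide +kernel)).ge.trans (card_le_of_le (gen_le fun _ hg =>
    mem_Y0_of ((lall_iff _ _).1 (show lall (gensOf cY) inY = true by decide +kernel) _ hg)))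

/-- A Sylow `2`-subgroup. -/
noncomputable def T0 : Subgroup Γ := gen code (gensOf cT)

theorem card_T0 : Nat.card T0 = 256 := (chk_sound chk_T).2.2.1.trans (by decide +kernel)

theorem T0_le : T0 ≤ H0 := gen_le_H0 (by decide +kernel)

/-- The elements of the pointwise stabiliser. -/
noncomputable def ag (c : ℕ) : Γ := elt (lget lA one c)

theorem code_ag {c : ℕ} (h : c < 16) : code (ag c) = lget lA one c :=
  code_elt ((nall_iff _ _).1 (show (nall 16 fun c => isC (lget lA one c)) = true by decide +kernel) c h)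

theorem ag_K0 {c : ℕ} (h : c < 16) : ag c ∈ K0 := by
  rw [mem_K0, code_ag h]; revert c; decide +kernel

theorem ag_mem {c : ℕ} (h : c < 16) : ag c ∈ A0 := mem_A0.2 ⟨K0_le_H0 (ag_K0 h), fun v hv => cd_inj (by
  rw [← mm_code, code_ag h]
  have := (nall_iff _ _).1 (show (nall 16 fun c => force (lget lA one c) fun p =>
    nall 64 fun i => Nat.beq (mm p (pl i)) (pl i)) = true by decide +kernel) c h
  rw [force_eq] at this
  exact Nat.eq_of_beq_eq_true (forall_P0 (f := fun n => Nat.beq (mm (lget lA one c) n) n) this hv))⟩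

theorem ag_xor {a b : ℕ} (ha : a < 16) (hb : b < 16) : ag (a ^^^ b) = ag a * ag b := gc.inj (by
  rw [gc.code_mul, code_ag ha, code_ag hb, code_ag (Nat.xor_lt_two_pow (n := 4) ha hb)]
  exact (show ∀ a < 16, ∀ b < 16, lget lA one (a ^^^ b) = mul (lget lA one a) (lget lA one b) by
    decide +kernel) a ha b hb)

theorem ag_zero : ag 0 = 1 := gc.inj (by rw [code_ag (by omega), gc.code_one]; decide +kernel)

theorem ag_inj {a b : ℕ} (ha : a < 16) (hb : b < 16) (h : ag a = ag b) : a = b :=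
  (show ∀ a < 16, ∀ b < 16, lget lA one a = lget lA one b → a = b by decide +kernel) a ha b hb
    (by rw [← code_ag ha, h, code_ag hb])

theorem ag_sq {c : ℕ} (h : c < 16) : ag c * ag c = 1 := by rw [← ag_xor h h, Nat.xor_self, ag_zero]

theorem exists_ag_of {g : Γ} (h : lany lA (Nat.beq (code g)) = true) : ∃ c < 16, g = ag c := by
  obtain ⟨p, a, b⟩ := (lany_iff _ _).1 h
  obtain ⟨c, d, e⟩ := (show ∀ p ∈ lA, ∃ c < 16, p = lget lA one c by decide +kernel) p a
  exact ⟨c, d, gc.inj (by rw [code_ag d, ← e, Nat.eq_of_beq_eq_true b])⟩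

theorem exists_ag {g : Γ} (h : g ∈ A0) : ∃ c < 16, g = ag c := by
  have := forall_enum chk_X0 enum_A g (X0_eq.ge ⟨h.1, (mem_A0.1 h).2 _ (mem_P0.2 (by decide +kernel))⟩)
  rw [bor_eq, Bool.or_eq_true] at this
  refine exists_ag_of (this.resolve_left fun e => ?_)
  obtain ⟨u, a, b⟩ := exists_basis (by decide +kernel) e
  simp [mm_code, (mem_A0.1 h).2 u a] at b

theorem card_A0 : Nat.card A0 = 16 := by
  refine (Nat.card_eq_of_bijective (fun c : Fin 16 => (⟨ag c, ag_mem c.2⟩ : A0))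
    ⟨fun a b h => Fin.ext (ag_inj a.2 b.2 (congrArg Subtype.val h)), fun g => ?_⟩).symm.trans (by simp)
  obtain ⟨c, a, b⟩ := exists_ag g.2
  exact ⟨⟨c, a⟩, Subtype.ext b.symm⟩

theorem A0_le_K0 : A0 ≤ K0 := fun _ h => let ⟨_, a, b⟩ := exists_ag h; b ▸ ag_K0 a

theorem mem_P0_of_fix {v : V} (h : ∀ g ∈ A0, g v = v) : v ∈ P0 := by
  have := forall_V (f := fun n => bor (inP n) (lany [1, 2, 4, 8] fun c => !Nat.beq (mm (lget lA one c) n) n))
    (by decide +kernel) v
  rw [bor_eq, Bool.or_eq_true, ← mem_P0, lany_iff] at this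
  refine this.resolve_right fun ⟨c, a, b⟩ => ?_
  have e : c < 16 := by clear b; revert c; decide
  simp [← code_ag e, mm_code, h _ (ag_mem e)] at b

theorem exists_yc {c : ℕ} (h : c < 16) (h0 : c ≠ 0) : ∃ y ∈ Y0 ⊓ K0, y * ag 1 * y⁻¹ = ag c := by
  obtain ⟨a, b, d, e⟩ := (show ∀ c < 16, c ≠ 0 → isC (lget lY 0 c) = true ∧ inY (lget lY 0 c) = true ∧
    sift mul one mm cK (lget lY 0 c) = true ∧ mul (mul (lget lY 0 c) (lget lA one 1)) (inv (lget lY 0 c)) =
      lget lA one c by decide +kernel) c h h0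
  obtain ⟨y, hy⟩ := exists_code a
  rw [← hy] at b d e
  exact ⟨y, ⟨mem_Y0_of b, mem_K0.2 d⟩, gc.inj (by
    rw [gc.code_mul, gc.code_mul, gc.code_inv, code_ag h, code_ag (by omega), e])⟩

theorem le_A0 {B : Subgroup Γ} (hB : B ≤ T0) (h2 : ∀ e ∈ B, e * e = 1) {U : AddSubgroup V}
    (hU : ∀ u ∈ U, Q0 u = 0) (hf : ∀ e ∈ B, ∀ u ∈ U, e u = u) (h16 : 16 ≤ Nat.card B)
    (hc : 1024 ≤ Nat.card U * Nat.card B) : B ≤ A0 := by
  classical
  intro d hd
  have k : ∀ e ∈ B, ∃ i < 72, code e = lget L72 0 i := fun e he => by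
    have := forall_enum chk_T enum_T e (hB he)
    simpa [← gc.code_mul, h2 e he, gc.code_one] using this
  obtain ⟨i, hi, e⟩ := k d hd
  have := off_all hi
  rw [← e, off, bor_eq, Bool.or_eq_true, lfil_eq, Nat.ble_eq, bsum_zero] at this
  refine this.elim (fun h => let ⟨_, a, b⟩ := exists_ag_of h; b ▸ ag_mem a) fun h => absurd hc (not_le.2 ?_)
  generalize hI : L72.filter _ = I at h
  have := Fintype.ofFinite U
  have := Fintype.ofFinite B
  refine Nat.lt_succ_of_le (le_trans ?_ h)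
  rw [Nat.card_eq_fintype_card (α := U), ← smul_eq_mul, ← Finset.card_univ, ← Finset.sum_const]
  refine le_trans ?_ (Finset.sum_le_sum_of_subset (s := Finset.univ.image fun u : U => cd u) fun n hn => ?_)
  · rw [Finset.sum_image fun a _ b _ h => Subtype.ext (cd_inj h)]
    refine Finset.sum_le_sum fun u _ => ?_
    have a : Nat.card B ≤ lcnt I fun e => Nat.beq (mm e (cd u.1)) (cd u.1) := by
      rw [lcnt_eq, Nat.card_eq_fintype_card, ← Finset.card_univ, ← Finset.card_image_of_injective _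
        (f := fun e : B => code e) fun a b h => Subtype.ext (gc.inj h)]
      refine (Finset.card_le_card fun n hn => ?_).trans (List.toFinset_card_le _)
      obtain ⟨e, -, rfl⟩ := Finset.mem_image.1 hn
      obtain ⟨j, hj, b⟩ := k e e.2
      rw [List.mem_toFinset, List.mem_filter, ← hI, List.mem_filter, mm_code, hf e e.2 u u.2, ← gc.code_mul,
        ← gc.code_mul, (TT2.commute_of_elem h2 e.2 hd).eq, b]
      exact ⟨⟨(show ∀ j < 72, lget L72 0 j ∈ L72 by decide +kernel) j hj, Nat.beq_refl _⟩, Nat.beq_refl _⟩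
    have b : qc (cd u.1) = false := by
      have := Q0_qc u.1
      rw [hU u u.2] at this
      revert this; cases qc (cd u.1) <;> decide
    rw [offW, b, mm_code, hf d hd u u.2, force_eq, Nat.ble_eq_true_of_le (h16.trans a), Nat.beq_refl]
    exact a
  · obtain ⟨u, -, rfl⟩ := Finset.mem_image.1 hn
    exact Finset.mem_range.2 (cd_lt _)

end Cfsg.Agent.LF
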