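import Cfsg.Agent.LF.Det
import Cfsg.Agent.LF.Syl

/-! # Groups of large Fischer type: the subgroup `2¹¹` -/

set_option autoImplicit false

namespace Cfsg.Agent.LF

open Cfsg.Agent.GT Cfsg.Agent.TT Cfsg.Agent.TT2 Cfsg.Agent.Cl Subgroup

theorem sq_cj {G : Type*} [Group G] {F : Subgroup G} (h : ∀ x ∈ F, x * x = 1) (g : G) :
    ∀ x ∈ cj[g] F, x * x = 1 := fun x hx => by
  obtain ⟨y, hy, rfl⟩ := mem_conj_iff_exists.1 hx
  rw [conj_mul, h y hy]; simp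

theorem W_Y0 : W ∈ Y0 := mem_Y0 (K0_le_H0 W_mem) fun _ => om_P0

theorem anti_of_sq {G : Type*} [Group G] {a b z : G} (hz : z * z = 1) (h1 : a * a = z) (h2 : b * b = z)
    (h3 : a * b * (a * b) = z) : b * a = a * b * z := by
  have e1 : z * b = b * z := by rw [← h2, mul_assoc]
  have e2 : z * a = a * z := by rw [← h1, mul_assoc]
  calc b * a = z * z * b * a := by rw [hz, one_mul]
    _ = (a * a) * (b * a) * (b * b) := by rw [h1, h2, mul_assoc z z, e1]; simp only [mul_assoc, e2]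
    _ = a * (a * b * (a * b)) * b := by group
    _ = _ := by rw [h3, mul_assoc, e1, mul_assoc]

namespace LB

variable {G : Type*} [Group G] {Q : Subgroup G} {z : G} {π : G → V} {r : G → Γ} (S : LB Q z π r)
  {F F' T : Subgroup G} {a b g h x y : G}
include S

/-- Preimage in `Q` of a subspace. -/
def pq (U : AddSubgroup V) : Subgroup G where
  carrier := {x | x ∈ Q ∧ π x ∈ U}
  one_mem' := ⟨one_mem _, S.π_one ▸ zero_mem _⟩
  mul_mem' a b := ⟨mul_mem a.1 b.1, S.mul _ a.1 _ b.1 ▸ add_mem a.2 b.2⟩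
  inv_mem' a := ⟨inv_mem a.1, S.π_inv a.1 ▸ a.2⟩

theorem pq_le {U : AddSubgroup V} : S.pq U ≤ Q := fun _ h => h.1

theorem z_pq {U : AddSubgroup V} : z ∈ S.pq U := ⟨S.mem, S.π_z ▸ zero_mem _⟩

theorem card_pq (U : AddSubgroup V) : Nat.card (S.pq U) = 2 * Nat.card U := by
  have := S.card_wq_of_mem (S.z_pq (U := U))
  rwa [inf_eq_left.2 S.pq_le, show S.wq (S.pq U) = U from AddSubgroup.ext fun v => S.mem_wq.trans
    ⟨fun ⟨_, a, _, b⟩ => b ▸ a.2, fun h => let ⟨x, a, b⟩ := S.surj v; ⟨x, ⟨a, b ▸ h⟩, a, b⟩⟩] at this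

theorem norm_pq {U : AddSubgroup V} (hh : h ∈ C1[z]) (e : ∀ v, r h v ∈ U ↔ v ∈ U) : h ∈ N[S.pq U] :=
  mem_normalizer_iff.2 fun x => ⟨fun a => ⟨S.conj_mem hh a.1, S.act h hh x a.1 ▸ (e _).2 a.2⟩, fun a =>
    have := (mem_normalizer_iff.1 (S.nQ hh) x).2 a.1; ⟨this, (e _).1 (S.act h hh x this ▸ a.2)⟩⟩

theorem exists_cent [Finite G] {E : Subgroup G} (hE : E ≤ Q) (hz : z ∈ E) (hh : h ∈ C1[z])
    (e : ∀ y ∈ E, r h (π y) = π y) : ∃ q ∈ Q, q * h ∈ C[E] := by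
  have k : ∀ y ∈ E, y ∉ C1[h] → h * y * h⁻¹ = y * z := fun y hy a =>
    ((S.π_eq_iff (hE hy) (S.conj_mem hh (hE hy))).1 (by rw [S.act h hh y (hE hy), e y hy])).resolve_left
      fun b => a (mem_cent1.2 (mul_inv_eq_iff_eq_mul.1 b).symm)
  by_cases c : E ≤ C1[h]
  · exact ⟨1, one_mem _, fun y hy => by simpa using mem_cent1.1 (c hy)⟩
  obtain ⟨x, a, b⟩ := SetLike.not_le_iff_exists.1 c
  obtain ⟨q, d, f, g⟩ := S.toES.exists_cent_not (W := E ⊓ C1[h]) (inf_le_left.trans hE)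
    ⟨hz, mem_cent1_comm.1 hh⟩ (hE a) fun e => b e.2
  refine ⟨q, d, fun y hy => ?_⟩
  by_cases i : y ∈ C1[h]
  · rw [mul_assoc, ← mem_cent1.1 i, ← mul_assoc, ← mul_assoc, (f y ⟨hy, i⟩).eq]
  have j : ¬Commute q y := fun j => g (by
    have := f (y⁻¹ * x) ⟨E.mul_mem (inv_mem hy) a, mem_cent1.2 (mul_inv_eq_iff_eq_mul.1 ?_).symm⟩
    · simpa using j.mul_right this
    rw [← conj_mul, ← conj_inv, k y hy i, k x a b, mul_inv_rev, S.toES.inv, ← mul_assoc,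
      (S.zc _ (inv_mem (hE hy))).eq, mul_assoc _ z, (S.zc _ (hE a)).eq, mul_assoc, mul_assoc, S.zz, mul_one])
  rw [← mul_inv_eq_iff_eq_mul.1]
  calc q * h * y * (q * h)⁻¹ = q * (h * y * h⁻¹) * q⁻¹ := by group
    _ = _ := by
      rw [k y hy i, ← conj_mul, S.toES.conj_of_not d (hE hy) j, ← (S.zc q d).eq, mul_inv_cancel_right, mul_assoc,
        S.zz, mul_one]

/-- The subgroup `2¹¹`. -/
def A : Subgroup G := C[S.pq P0]

theorem A_le : S.A ≤ C1[z] := fun _ h => mem_cent1.2 (h z S.z_pq).symm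

theorem Ph_sq (hx : x ∈ S.pq P0) : x * x = 1 := (S.sq' x hx.1).2 (P0_facts hx.2).2.2

theorem A_inf : S.A ⊓ Q = S.pq P0 := le_antisymm (fun x hx => ⟨hx.2, mem_P0_of_perp fun u hu => by
    obtain ⟨y, a, rfl⟩ := S.surj u
    exact (S.comm y a x hx.2).1 (hx.1 y ⟨a, hu⟩).symm⟩)
  fun x hx => ⟨fun y hy => (S.comm x hx.1 y hy.1).2 (P0_B hx.2 hy.2), hx.1⟩

theorem Ph_le : S.pq P0 ≤ S.A := S.A_inf.ge.trans inf_le_left

theorem z_A : z ∈ S.A := S.Ph_le S.z_pq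

theorem norm_A (hh : h ∈ C1[z]) (e : r h ∈ Y0) : h ∈ N[S.A] := by
  rw [← conj_eq_self_iff, A, conj_centralizer, conj_eq_self_iff.2 (S.norm_pq hh e.2)]

variable [Finite G]

theorem r_A (ha : a ∈ S.A) : r a ∈ A0 := mem_A0.2 ⟨S.memH (S.A_le ha), fun v hv => by
  obtain ⟨y, b, rfl⟩ := S.surj v
  rw [← S.act a (S.A_le ha) y b, ← ha y ⟨b, hv⟩, mul_inv_cancel_right]⟩

theorem exA {k : Γ} (hk : k ∈ A0) : ∃ a ∈ S.A, r a = k := by
  obtain ⟨h, a, rfl⟩ := S.exH hk.1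
  obtain ⟨q, b, c⟩ := S.exists_cent S.pq_le (S.z_pq (U := P0)) a fun y hy => (mem_A0.1 hk).2 _ hy.2
  exact ⟨_, c, by rw [S.rmul _ (S.le b) _ a, S.r_Q b, one_mul]⟩

theorem card_A : Nat.card S.A = 2 ^ 11 := by
  rw [S.card_im S.A_le, S.A_inf, S.card_pq, card_P0, show S.im S.A = A0 from Subgroup.ext fun k => S.mem_im.trans
    ⟨fun ⟨_, a, _, b⟩ => b ▸ S.r_A a, fun h => let ⟨a, b, c⟩ := S.exA h; ⟨a, b, S.A_le b, c⟩⟩, card_A0]
  rfl

theorem mem_Ph (ha : a ∈ S.A) (e : r a = 1) : a ∈ S.pq P0 := S.A_inf.le ⟨ha, (S.r_eq_one (S.A_le ha)).1 e⟩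

theorem sq_conj (ha : a ∈ S.A) (hb : b ∈ S.A) (hh : h ∈ C1[z]) (hY : r h ∈ Y0)
    (e : r h * r a * (r h)⁻¹ = r b) : b * b = h * (a * a) * h⁻¹ := by
  have c := conj_mem_of_mem_norm (S.norm_A hh hY) ha
  have d := S.A_inf.le ⟨S.A.mul_mem (inv_mem c) hb, (S.r_eq (S.A_le c) (S.A_le hb)).1 (by
    rw [S.r_conj hh (S.A_le ha), e])⟩
  rw [← conj_mul]
  generalize h * a * h⁻¹ = a at c d
  calc b * b = a * ((a⁻¹ * b) * a) * (a⁻¹ * b) := by group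
    _ = _ := by rw [c _ d, ← mul_assoc a a, mul_assoc (a * a), S.Ph_sq d, mul_one]

theorem A_sq : ∀ a ∈ S.A, a * a = 1 := fun a ha => by
  obtain ⟨c, c1, c2⟩ := exists_ag (S.r_A ha)
  obtain ⟨w, w1, w2⟩ := S.exK W W_mem
  have p := S.mem_Ph (mul_mem ha ha) (by rw [S.rmul _ (S.A_le ha) _ (S.A_le ha), c2, ag_sq c1])
  have e := congrArg π (S.sq_conj ha ha w1 (w2 ▸ W_Y0) (by rw [w2, c2, ← K0_W (ag_K0 c1), mul_inv_cancel_right]))
  rw [S.act w w1 _ p.1, w2] at e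
  refine ((S.ker _ p.1).1 (eq_zero_of_om e.symm)).resolve_right fun e => S.ne ?_
  obtain ⟨t, t1, t2⟩ := S.exA (ag_mem (c := 1) (by omega))
  have k : ∀ c < 16, c ≠ 0 → ∀ b ∈ S.A, r b = ag c → ∃ h ∈ C1[z], b * b = h * (t * t) * h⁻¹ := fun c c1 c0 b b1 b2 => by
    obtain ⟨y, y1, y2⟩ := exists_yc c1 c0
    obtain ⟨h, h1, rfl⟩ := S.exK y y1.2
    exact ⟨h, h1, S.sq_conj t1 b1 h1 y1.1 (by rw [t2, y2, b2])⟩
  obtain ⟨h, h1, h2⟩ := k c c1 (by
    rintro rfl; exact S.ne (e.symm.trans (S.Ph_sq (S.mem_Ph ha (c2.trans ag_zero))))) a ha c2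
  have tz : t * t = z := by
    rw [e, eq_mul_inv_iff_mul_eq, ← S.z_comm h1] at h2
    exact (mul_left_cancel h2).symm
  have k' : ∀ c < 16, c ≠ 0 → ∀ b ∈ S.A, r b = ag c → b * b = z := fun c c1 c0 b b1 b2 => by
    obtain ⟨h, h1, h2⟩ := k c c1 c0 b b1 b2
    rw [h2, tz, S.z_comm h1, mul_inv_cancel_right]
  have m : ∀ {a b} {c d : ℕ}, a ∈ S.A → b ∈ S.A → c < 16 → d < 16 → r a = ag c → r b = ag d →
      r (a * b) = ag (c ^^^ d) := fun a b c d e f => by rw [S.rmul _ (S.A_le a) _ (S.A_le b), e, f, ag_xor c d]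
  have n : ∀ {b} {d : ℕ}, b ∈ S.A → d < 16 → d ≠ 0 → d ≠ 1 → r b = ag d → b * t = t * b * z := fun a b c d e =>
    anti_of_sq S.zz tz (k' _ b c _ a e) (k' _ (Nat.xor_lt_two_pow (n := 4) (by omega) b)
      (by rw [Ne, Nat.xor_eq_zero_iff]; omega) _ (mul_mem t1 a) (m t1 a (by omega) b t2 e))
  obtain ⟨u, u1, u2⟩ := S.exA (ag_mem (c := 2) (by omega))
  obtain ⟨v, v1, v2⟩ := S.exA (ag_mem (c := 4) (by omega))
  have f := n (mul_mem u1 v1) (by decide) (by decide) (by decide) (m u1 v1 (by omega) (by omega) u2 v2)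
  rw [mul_assoc, n v1 (by omega) (by omega) (by omega) v2, ← mul_assoc, ← mul_assoc,
    n u1 (by omega) (by omega) (by omega) u2, mul_assoc _ z, ← S.z_comm (S.A_le v1)] at f
  simpa [mul_assoc] using f

theorem cent_A : C[S.A] = S.A := le_antisymm (centralizer_le S.Ph_le)
  fun _ a _ b => (commute_of_elem S.A_sq b a).eq

theorem eq_A_of_le (hF : ∀ x ∈ F, x * x = 1) (hc : 2 ^ 11 ≤ Nat.card F) (h : F ≤ S.pb T0) : F = S.A := by
  have a := S.card_im (h.trans S.pb_le)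
  have b := S.card_wq_le F
  have s := S.wq_sing (E := F) fun x hx _ => hF x hx
  have c := card_sing_le _ s
  have f : ∀ e ∈ S.im F, ∀ u ∈ S.wq F, e u = u := fun e he u hu => by
    obtain ⟨k, k1, k2, rfl⟩ := S.mem_im.1 he
    obtain ⟨x, x1, x2, rfl⟩ := S.mem_wq.1 hu
    rw [← S.act k k2 x x2, (commute_of_elem hF k1 x1).eq, mul_inv_cancel_right]
  have d := le_A0 (B := S.im F) (fun e he => let ⟨_, k1, _, k2⟩ := S.mem_im.1 he; k2 ▸ (S.mem_pb.1 (h k1)).2)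
    (fun e he => by
      obtain ⟨k, k1, k2, rfl⟩ := S.mem_im.1 he
      rw [← S.rmul k k2 k k2, hF k k1, S.r_one]) s f (by nlinarith) (by nlinarith)
  have e := card_le_of_le d
  rw [card_A0] at e
  rw [eq_of_le_of_card_ge d (by rw [card_A0]; nlinarith)] at f
  have g : F ⊓ Q = S.pq P0 := eq_of_le_of_card_ge (fun x hx => ⟨hx.2, mem_P0_of_fix fun k hk =>
    f k hk _ (S.mem_wq.2 ⟨x, hx.1, hx.2, rfl⟩)⟩) (by rw [S.card_pq, card_P0]; nlinarith)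
  exact eq_of_le_of_card_ge (fun x hx y hy => (commute_of_elem hF (g.ge hy).1 hx).eq) (by rwa [S.card_A])

theorem syl : IsPiHallOf {2} (S.pb T0) C1[z] ∧ IsPiHallOf {2} (S.pb T0) ⊤ := by
  have a := S.card_pb (T0_le.trans S.range_eq.ge)
  have b := card_mul_relIndex (S.pb_le (Y := T0))
  rw [card_T0] at a
  rw [a, S.cardH] at b
  have c := syl_mk Nat.prime_two S.pb_le (IsPGroup.of_card (n := 21) a) (by omega)
  refine ⟨c, syl_top_of_norm_le Nat.prime_two c fun g hg => mem_cent1.2 (mul_inv_eq_iff_eq_mul.1 ?_)⟩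
  have d : g * z * g⁻¹ ∈ C[Q] := fun y hy => by
    have := S.z_comm (S.pb_le (conj_mem_of_mem_norm (inv_mem hg) (S.le_pb hy)))
    calc _ = g * (g⁻¹ * y * g⁻¹⁻¹ * z) * g⁻¹ := by group
      _ = _ := by rw [this]; group
  exact (S.cent _ (S.cQ d) fun y hy => (d y hy).symm).resolve_left (by simpa using S.ne)

theorem uniq11 (hT : IsPGroup 2 T) (hF : ∀ x ∈ F, x * x = 1) (hc : 2 ^ 11 ≤ Nat.card F) (h : F ≤ T)
    (hF' : ∀ x ∈ F', x * x = 1) (hc' : 2 ^ 11 ≤ Nat.card F') (h' : F' ≤ T) : F = F' := by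
  obtain ⟨g, -, hg⟩ := syl_exists_conj_le Nat.prime_two S.syl.2 hT le_top
  rw [← conj_inj (g := g), S.eq_A_of_le (sq_cj hF g) (by rwa [card_conj]) ((conj_mono g h).trans hg),
    S.eq_A_of_le (sq_cj hF' g) (by rwa [card_conj]) ((conj_mono g h').trans hg)]

theorem fusion (ha : a ∈ S.A) (hb : g * a * g⁻¹ ∈ S.A) : ∃ n ∈ N[S.A], n * a * n⁻¹ = g * a * g⁻¹ := by
  have hc : ∀ x ∈ S.A, S.A ≤ C1[x] := fun x hx y hy => mem_cent1.2 (commute_of_elem S.A_sq hy hx).eq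
  obtain ⟨P, hP, h1⟩ := exists_syl_ge Nat.prime_two (isPGroup_of_elem S.A_sq) (hc _ hb)
  obtain ⟨c, hc', h2⟩ := syl_exists_conj_le Nat.prime_two hP (isPGroup_of_elem (sq_cj S.A_sq g))
    (by rw [← conj_cent1]; exact conj_mono g (hc a ha))
  rw [← mul_conj] at h2
  refine ⟨c * g, conj_eq_self_iff.1 (S.uniq11 (syl_isPGroup Nat.prime_two hP) (sq_cj S.A_sq _)
    (by rw [card_conj, S.card_A]) h2 S.A_sq S.card_A.ge h1), ?_⟩
  rw [mul_inv_rev, mul_assoc c, mul_assoc c, ← mul_assoc _ g⁻¹, ← mul_assoc c, mem_cent1.1 hc', mul_inv_cancel_right]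

omit [Finite G] in
theorem conj_ (g : G) :
    LB (cj[g] Q) (g * z * g⁻¹) (fun x => π (g⁻¹ * x * g)) fun h => r (g⁻¹ * h * g) := by
  have e : ∀ x y : G, g⁻¹ * (x * y) * g = g⁻¹ * x * g * (g⁻¹ * y * g) := fun x y => by group
  have c : ∀ {h}, h ∈ C1[g * z * g⁻¹] ↔ g⁻¹ * h * g ∈ C1[z] := by intro h; rw [← conj_cent1, mem_conj]
  have i : ∀ x y : G, g⁻¹ * x * g = y ↔ x = g * y * g⁻¹ := fun x y => by
    rw [mul_assoc, inv_mul_eq_iff_eq_mul, eq_mul_inv_iff_mul_eq]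
  refine ⟨S.toLQ.conj_ g, fun x a y b => by rw [e, S.mul _ (mem_conj.1 a) _ (mem_conj.1 b)], fun v => ?_,
    fun x a => by rw [S.ker _ (mem_conj.1 a), i, i]; simp, fun x a => by rw [← S.sq' _ (mem_conj.1 a), ← e, i]; simp,
    fun x a y b => by rw [← S.comm _ (mem_conj.1 a) _ (mem_conj.1 b), ← e, ← e]; simp,
    fun x a y b => by rw [e, S.rmul _ (c.1 a) _ (c.1 b)],
    fun h a x b => by rw [← S.act _ (c.1 a) _ (mem_conj.1 b)]; congr 1; group, fun k hk => ?_,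
    fun h a => S.memN _ (c.1 a), by rw [card_conj, S.cardQ], by rw [← conj_cent1, card_conj, S.cardH], ?_⟩
  · obtain ⟨x, a, b⟩ := S.surj v
    exact ⟨g * x * g⁻¹, by simpa [mul_assoc], by simpa [mul_assoc]⟩
  · obtain ⟨x, a, b⟩ := S.exK k hk
    exact ⟨g * x * g⁻¹, c.2 (by simpa [mul_assoc]), by simpa [mul_assoc]⟩
  · obtain ⟨k, a, b⟩ := S.wc
    exact ⟨g * k * g⁻¹, by simpa [mul_assoc] using a, fun e => b (by rw [← conj_inj_iff g, ← e]; group)⟩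

omit [Finite G] in
theorem A_conj (g : G) : (S.conj_ g).A = cj[g] S.A := by
  rw [A, A, conj_centralizer]; congr 2
  exact Subgroup.ext fun x => (and_congr_left' mem_conj).trans (mem_conj (H := S.pq P0)).symm

theorem exists_thompson (T : Sylow 2 G) : ∃ g, thompsonSubgroupOf 2 (T : Subgroup G) = (S.conj_ g).A := by
  obtain ⟨g, -, hg⟩ := syl_exists_conj_le Nat.prime_two (syl_top_of_sylow Nat.prime_two T)
    (isPGroup_of_elem S.A_sq) le_top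
  rw [← S.A_conj] at hg
  exact ⟨g, thompson_eq hg (S.conj_ g).A_sq fun B a b c => S.uniq11 T.isPGroup' b ((S.conj_ g).card_A ▸ c) a
    (S.conj_ g).A_sq (S.conj_ g).card_A.ge hg⟩

end LB

end Cfsg.Agent.LF
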