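import Cfsg.Agent.LF.SU6

/-! # The group `3.U4(3).2`, stabilisers and labelled blocks -/

set_option autoImplicit false

namespace Cfsg.Agent.LF

open Cfsg.Agent.M24 Cfsg.Agent.Cl Cfsg.Agent.Leech Equiv Subgroup

theorem uu_uu : uu * uu = 1 := gc.inj (by rw [gc.code_mul, code_uu, gc.code_one]; decide +kernel)

theorem uu_not_mem : uu ∉ K0 := by rw [mem_K0, code_uu]; decide +kernel

/-- The group `3.U4(3).2`. -/
noncomputable def H0 : Subgroup Γ where
  carrier := {g | g ∈ K0 ∨ g * uu ∈ K0}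
  one_mem' := .inl (one_mem _)
  mul_mem' := by
    rintro a b (ha | ha) (hb | hb)
    · exact .inl (mul_mem ha hb)
    · exact .inr (by rw [mul_assoc]; exact mul_mem ha hb)
    · refine .inr ?_
      have := mul_mem ha (N0_norm uu_mem hb)
      rwa [← mul_assoc, ← mul_assoc, mul_assoc a, uu_uu, mul_one, inv_eq_of_mul_eq_one_right uu_uu] at this
    · refine .inl ?_
      have := mul_mem ha (N0_norm uu_mem hb)
      rwa [← mul_assoc uu, mul_inv_cancel_right, ← mul_assoc, mul_assoc a, uu_uu, mul_one] at this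
  inv_mem' := by
    rintro a (ha | ha)
    · exact .inl (inv_mem ha)
    · refine .inr ?_
      have := N0_norm uu_mem (inv_mem ha)
      rwa [mul_inv_rev, mul_inv_cancel_left, inv_eq_of_mul_eq_one_right uu_uu] at this

theorem K0_le_H0 : K0 ≤ H0 := fun _ => .inl

theorem uu_mem_H0 : uu ∈ H0 := .inr (uu_uu ▸ one_mem _)

theorem H0_le {G : Subgroup Γ} (h1 : K0 ≤ G) (h2 : uu ∈ G) : H0 ≤ G := fun _ h =>
  h.elim (fun a => h1 a) fun a => (mul_mem_cancel_right h2).1 (h1 a)

theorem H0_le_N0 : H0 ≤ N0 := H0_le K0_le_N0 uu_mem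

theorem card_H0 : Nat.card H0 = 2 * 9797760 := by
  have := (K0.subgroupOf H0).card_mul_index
  rw [Nat.card_congr (subgroupOfEquivOfLe K0_le_H0).toEquiv, card_K0, index_eq_two_iff.2 ⟨⟨uu, uu_mem_H0⟩,
    fun b => (xor_iff_not_iff _ _).2 fun h => uu_not_mem (by
      have a : b.1 ∈ K0 := b.2.elim id h.1
      exact (mul_mem_cancel_left a).1 (h.2 a))⟩] at this
  omega

/-- Membership test. -/
noncomputable def inH (p : ℕ) : Bool :=
  bor (sift mul one mm cK p) (force (mul p (nat_lit 0xc004003001000c004003001000300100c004c004003001000c004003001000300100c004)) (sift mul one mm cK))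

theorem mem_H0 {g : Γ} : g ∈ H0 ↔ inH (code g) = true := by
  rw [inH, bor_eq, force_eq, Bool.or_eq_true, ← mem_K0, ← code_uu, ← gc.code_mul, ← mem_K0]; rfl

theorem gen_le_H0 {l : List ℕ} (h : lall l inH = true) : gen code l ≤ H0 :=
  gen_le fun _ hg => mem_H0.2 ((lall_iff _ _).1 h _ hg)

/-- Stabiliser of a vector. -/
def St (G : Subgroup Γ) (v : V) : Subgroup Γ := G ⊓ MulAction.stabilizer Γ v

theorem mem_St {G : Subgroup Γ} {v : V} {g : Γ} : g ∈ St G v ↔ g ∈ G ∧ g v = v := Iff.rfl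

theorem eq_St {G : Subgroup Γ} (h1 : K0 ≤ G) (h2 : G ≤ N0) {n : ℕ} (hn : n < 4096) {Ls : List Lvl}
    (h : chk Ls = true) (h3 : gen code (gensOf Ls) ≤ G)
    (h4 : (lall (gensOf Ls) fun p => Nat.beq (mm p n) n) = true)
    (h5 : chainSize Ls * {v | ty (cd v) = ty n}.ncard = Nat.card G) : gen code (gensOf Ls) = St G (dc n) := by
  refine eq_of_le_of_card_ge (le_inf h3 (gen_le fun g hg => cd_inj ?_)) ?_
  · have := Nat.eq_of_beq_eq_true ((lall_iff _ _).1 h4 _ hg)
    rwa [← cd_dc hn, mm_code] at this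
  have e := (MulAction.stabilizer G (dc n)).card_mul_index
  have e1 : MulAction.orbit G (dc n) = {v | ty (cd v) = ty n} := Set.ext fun v => ⟨by
    rintro ⟨g, rfl⟩; exact (mem_N0.1 (h2 g.2) _).trans (by rw [cd_dc hn]), fun hv =>
    let ⟨g, a, b⟩ := K0_trans (u := dc n) (v := v) (by rw [cd_dc hn, hv]); ⟨⟨g, h1 a⟩, b⟩⟩
  rw [MulAction.index_stabilizer, e1, ← h5, show MulAction.stabilizer G (dc n) = (St G (dc n)).subgroupOf G from
    Subgroup.ext fun g => ⟨fun h => ⟨g.2, h⟩, fun h => h.2⟩,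
    Nat.card_congr (subgroupOfEquivOfLe (H := St G (dc n)) inf_le_left).toEquiv] at e
  rw [(chk_sound h).2.2.1]
  exact (Nat.eq_of_mul_eq_mul_right ((Set.ncard_pos (Set.toFinite _)).2 ⟨dc n, by simp [cd_dc hn]⟩) e).le

/-- The generators permute the labelled blocks. -/
noncomputable def labT (l : List ℕ) (n : ℕ) (lab rep : ℕ → ℕ) : Bool :=
  band (nall n fun i => band (Nat.ble (rep i) 4095) (Nat.beq (lab (rep i)) i)) (lall l fun p =>
    band (nall n fun i => force (lab (mm p (rep i))) fun a => band (Nat.ble (Nat.succ a) n)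
      (nall i fun j => !Nat.beq (lab (mm p (rep j))) a))
    (ball (fun v => force (lab v) fun a => bor (Nat.ble n a) (Nat.beq (lab (mm p v)) (lab (mm p (rep a))))) 12 0))

theorem exists_labT {l : List ℕ} {n : ℕ} {lab rep : ℕ → ℕ} (h : labT l n lab rep = true) :
    ∃ θ : gen code l →* Perm (Fin n), (∀ g (i : Fin n), (θ g i : ℕ) = lab (mm (code g.1) (rep i))) ∧
      ∀ g v (i : Fin n), lab (cd v) = i → lab (cd (g.1 v)) = θ g i := by
  simp only [labT, band_eq, force_eq, Bool.and_eq_true, nall_iff, lall_iff, Nat.ble_eq, Nat.beq_eq,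
    Bool.not_eq_true', bor_eq] at h
  have e : ∀ i : Fin n, cd (dc (rep i)) = rep i := fun i => cd_dc (by have := (h.1 i i.2).1; omega)
  obtain ⟨θ, hθ⟩ := exists_rel_hom (G := Γ) (L := Perm (Fin n)) (S := {g | code g ∈ l})
    (R := {p : V × Fin n | lab (cd p.1) = p.2}) (Set.toFinite _)
    (fun σ hσ => Equiv.ext fun i => Fin.ext ((hσ (dc (rep i), i) ((congrArg lab (e i)).trans
      (h.1 i i.2).2)).symm.trans ((congrArg lab (e i)).trans (h.1 i i.2).2))) fun g hg => by
    obtain ⟨a, b⟩ := h.2 _ hg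
    refine ⟨Equiv.ofBijective (fun i => ⟨lab (mm (code g) (rep i)), (a i i.2).1⟩)
      (Finite.injective_iff_bijective.1 fun i j hij => by_contra fun c => ?_), fun p hp => ?_⟩
    · have := congrArg Fin.val hij
      rcases Fin.lt_or_lt_of_ne c with d | d
      · exact absurd ((a j j.2).2 i d) (by simpa using this)
      · exact absurd ((a i i.2).2 j d) (by simpa using this.symm)
    · have := forall_V b p.1
      rw [show lab (cd p.1) = p.2 from hp, Bool.or_eq_true, Nat.ble_eq, Nat.beq_eq, mm_code] at this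
      exact this.resolve_left (by have := p.2.2; omega)
  have k : ∀ g v (i : Fin n), lab (cd v) = i → lab (cd (g.1 v)) = θ g i := fun g v i hv =>
    (hθ g _).1 rfl (v, i) hv
  exact ⟨θ, fun g i => (k g (dc (rep i)) i (by rw [e, (h.1 i i.2).2])).symm.trans (by rw [← mm_code, e]), k⟩

theorem labT_one {l : List ℕ} {n : ℕ} {lab rep : ℕ → ℕ} {θ : gen code l →* Perm (Fin n)}
    (h : ∀ g (i : Fin n), (θ g i : ℕ) = lab (mm (code g.1) (rep i))) (g : gen code l) :
    θ g = 1 ↔ (nall n fun i => Nat.beq (lab (mm (code g.1) (rep i))) i) = true := by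
  simp only [nall_iff, Nat.beq_eq, Equiv.ext_iff, Fin.ext_iff, h, Fin.forall_iff]; rfl

end Cfsg.Agent.LF
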