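import Cfsg.Agent.TT2.Cov22
import Cfsg.Agent.GT.Notation

/-! # Recognising a class of unitary transvections from its local structure -/

set_option autoImplicit false
set_option maxRecDepth 100000

namespace Cfsg.Agent.LF

open Cfsg.Agent.M24 Cfsg.Agent.GT Cfsg.Agent.TT Cfsg.Agent.TT2 Subgroup

variable {G : Type*} [Group G] {τ : P → G} {D : Set G} {a b g y : G}

/-- The points acting correctly. -/
def Good (τ : P → G) : Set P := {i | τ i * τ i = 1 ∧ ∀ j, τ i * τ j * τ i = τ (op i j)}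

theorem good_op : ∀ g ∈ Good τ, ∀ a ∈ Good τ, op g a ∈ Good τ := fun g hg a ha => by
  refine ⟨?_, fun j => ?_⟩ <;> rw [← hg.2]
  · calc _ = τ g * τ a * (τ g * τ g) * τ a * τ g := by group
      _ = _ := by rw [hg.1, mul_one, mul_assoc (τ g), ha.1, mul_one, hg.1]
  · rw [show op (op g a) j = op g (op a (op g j)) by rw [op_distrib, op_op], ← hg.2, ← ha.2, ← hg.2]; group

theorem good_conj {i : P} (h : i ∈ Good τ) (j : P) : τ i * τ j * (τ i)⁻¹ = τ (op i j) := by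
  rw [inv_of_sq h.1, h.2]

theorem good_lift {S : Set P} (h : ∀ i ∈ S, i ∈ Good τ) {σ : Equiv.Perm P} (hσ : σ ∈ TG S) :
    ∃ g ∈ closure (τ '' S), ∀ j, g * τ j * g⁻¹ = τ (σ j) := by
  induction hσ using closure_induction with
  | mem x hx => obtain ⟨i, hi, rfl⟩ := hx; exact ⟨τ i, subset_closure ⟨i, hi, rfl⟩, good_conj (h i hi)⟩
  | one => exact ⟨1, one_mem _, fun j => by simp⟩
  | mul x y _ _ hx hy =>
    obtain ⟨g, hg, h1⟩ := hx
    obtain ⟨g', hg', h2⟩ := hy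
    exact ⟨g * g', mul_mem hg hg', fun j => by rw [Equiv.Perm.mul_apply, ← h1, ← h2]; group⟩
  | inv x _ hx =>
    obtain ⟨g, hg, h1⟩ := hx
    exact ⟨g⁻¹, inv_mem hg, fun j => by conv_lhs => rw [← x.apply_symm_apply j, ← h1]
                                        change _ = τ (x.symm j); group⟩

theorem eq_of_braid {i j : P} (hi : i ∈ Good τ) (hj : j ∈ Good τ) (h : ¬perp i j) (hc : Commute (τ i) (τ j)) :
    τ i = τ j := by
  have := hi.2 j
  rw [op_comm h, ← hj.2, hc.eq, mul_assoc, hi.1, ← hc.eq, mul_assoc, hj.1] at this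
  simpa using this.symm

theorem rep_of_good (h : ∀ i, i ∈ Good τ) (hi : ∀ j, perp 0 j → τ 0 = τ j → j = 0) : Rep τ := by
  refine ⟨fun i j e => ?_, fun i => (h i).1, fun i => (h i).2⟩
  obtain ⟨σ, hσ, rfl⟩ := trans0 i
  obtain ⟨j, rfl⟩ := σ.surjective j
  obtain ⟨g, -, k⟩ := good_lift (fun i _ => h i) hσ
  rw [← k, ← k, mul_left_inj, mul_right_inj] at e
  refine congrArg σ (hi j (by_contra fun hn => ?_) e).symm
  have : ∀ k : P, perp 0 k → k ≠ 0 → perp k j := fun k a b => by_contra fun c => b (hi k a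
    (e.trans (eq_of_braid (h k) (h j) c (by
      have := good_conj (h 0) k
      rw [show op 0 k = k from a] at this
      exact e ▸ (commute_iff_conj.2 this).symm)).symm))
  exact hn (line_perp (a := 1) (b := 2) (by decide) (by decide) (by decide) (this 1 (by decide) (by decide))
    (this 2 (by decide) (by decide)) (by decide))

theorem word_t {X : Type*} [Group X] {t : P → X} (R : Rep τ) (U : U6 t) (w w' : List P)
    (h : (w.map τ).prod = (w'.map τ).prod) : (w.map t).prod = (w'.map t).prod := by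
  rw [← mul_inv_eq_one]
  refine U.eq_one fun i _ => ?_
  obtain ⟨j, rfl⟩ := (U.act (w'.map t).prod).surjective i
  rw [← Equiv.Perm.mul_apply, ← map_mul, inv_mul_cancel_right, U.act_word, U.act_word]
  exact R.inj (by rw [← R.conj_word, h, R.conj_word])

/-- The local structure of a class of unitary transvections. -/
structure UL (D : Set G) (τ : P → G) : Prop extends Rep τ where
  line : (([0, 1, 2, 3, 4] : List P).map τ).prod = 1
  mem : ∀ i, τ i ∈ D
  cj : ∀ g, ∀ a ∈ D, g * a * g⁻¹ ∈ D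
  tr : ∀ a ∈ D, ∃ g, g * τ 0 * g⁻¹ = a
  loc : ∀ y ∈ D, Commute (τ 0) y → ∃ i, τ i = y

namespace UL

variable (h : UL D τ)
include h

theorem conjg (g : G) : UL D fun i => g * τ i * g⁻¹ := by
  refine ⟨⟨fun i j e => h.inj (by simpa using e), fun i => by rw [conj_mul, h.sq]; simp, fun i j => by
    rw [conj_mul, conj_mul, h.conj]⟩, ?_, fun i => h.cj g _ (h.mem i), h.cj, fun a ha => ?_, fun y hy hc => ?_⟩
  · have := congrArg (fun a => g * a * g⁻¹) h.line
    simpa [mul_assoc] using this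
  · obtain ⟨k, rfl⟩ := h.tr a ha
    exact ⟨k * g⁻¹, by group⟩
  · obtain ⟨i, e⟩ := h.loc _ (h.cj g⁻¹ y hy) ((commute_conj_iff g).1 (by simpa [mul_assoc] using hc))
    exact ⟨i, by rw [e]; group⟩

theorem comp {σ : Equiv.Perm P} (hσ : σ ∈ TG Set.univ) : UL D (τ ∘ σ) := by
  obtain ⟨g, -, e⟩ := h.lift hσ
  exact (funext e : _ = τ ∘ σ) ▸ h.conjg g

theorem loc' (i : P) (hy : y ∈ D) (hc : Commute (τ i) y) : ∃ j, τ j = y := by
  obtain ⟨σ, hσ, rfl⟩ := trans0 i
  exact let ⟨j, e⟩ := (h.comp hσ).loc y hy hc; ⟨_, e⟩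

theorem pt (ha : a ∈ D) : ∃ ρ, UL D ρ ∧ ρ 0 = a :=
  let ⟨g, e⟩ := h.tr a ha; ⟨_, h.conjg g, e⟩

theorem pt2 (ha : a ∈ D) (hb : b ∈ D) (hc : Commute a b) (hne : a ≠ b) : ∃ ρ, UL D ρ ∧ ρ 0 = a ∧ ρ 1 = b := by
  obtain ⟨ρ, H, rfl⟩ := h.pt ha
  obtain ⟨i, rfl⟩ := H.loc b hb hc
  obtain ⟨σ, hσ, e, rfl⟩ := pair_trans (H.commute_iff.1 hc) fun e => hne (by rw [e])
  exact ⟨_, H.comp hσ, congrArg ρ e, rfl⟩

theorem near_iff (hy : y ∈ D) : Near D (τ 0) y ↔ ∃ i, τ i = y := by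
  refine ⟨fun ⟨e, he, h1, h2⟩ => ?_, ?_⟩
  · obtain ⟨k, rfl⟩ := h.loc e he h1
    exact h.loc' k hy h2
  · rintro ⟨i, rfl⟩
    obtain ⟨k, h1, h2⟩ := line_exists i
    exact ⟨_, h.mem k, h.comm21 0 k (by decide) (by omega), h.commute h2⟩

theorem lc3 : Lc3 D := by
  refine ⟨fun a ha => ?_, h.cj, fun x hx y hy hn => ?_, fun x hx y hy w hw hn hc => ?_⟩
  · obtain ⟨ρ, H, rfl⟩ := h.pt ha
    exact H.sq 0
  all_goals
    obtain ⟨ρ, H, rfl⟩ := h.pt hx
    obtain ⟨i, rfl⟩ := (H.near_iff hy).1 hn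
  · by_cases hp : perp 0 i
    exacts [.inl (H.commute hp), .inr (H.cube hp)]
  · exact (H.near_iff hw).2 (H.loc' i hw hc)

theorem gl3 [Finite G] : Gl3 D := by
  obtain ⟨X, _, t, U⟩ := exists_rep
  refine ⟨h.lc3, fun h1 => ?_, fun x hx y hy hc hxy => ?_, fun x hx y hy v hv w hw hc hne h1 h2 e => ?_,
    fun x hx s hs hn => ?_, fun x hx y hy hc hne => ?_, fun v hv w hw w' hw' h1 h2 h3 n1 n2 n3 => ?_,
    fun x hx => ?_⟩
  · obtain ⟨ρ, H, e⟩ := h.pt h1
    exact H.ne_one 0 e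
  · obtain ⟨ρ, H, rfl⟩ := h.pt hx
    obtain ⟨i, rfl⟩ := H.loc y hy hc
    obtain ⟨k, e⟩ := H.loc _ hxy ((Commute.refl _).mul_right hc)
    by_cases o : 0 = i
    · exact H.ne_one k (by rw [e, ← o, H.sq])
    · exact U.mul_ne (H.commute_iff.1 hc) o k (by simpa using word_t H.toRep U [0, i] [k] (by simpa using e.symm))
  · obtain ⟨ρ, H, rfl, rfl⟩ := h.pt2 hx hy hc hne
    obtain ⟨k, rfl⟩ := H.loc v hv h1.symm
    obtain ⟨l, rfl⟩ := H.loc w hw (by
      rw [← sq_cancel (H.sq k) w, ← e]; exact h1.symm.mul_right ((Commute.refl _).mul_right hc))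
    exact (U.mul_eq_mul (i := 0) (j := 1) (by decide) (by decide) (H.commute_iff.1 h1.symm) (H.commute_iff.1 h2.symm)
      (by simpa using word_t H.toRep U [0, 1] [k, l] (by simpa using e))).imp (by rintro ⟨rfl, -⟩; rfl)
      (by rintro ⟨rfl, -⟩; rfl)
  · obtain ⟨ρ, H, rfl⟩ := h.pt hx
    obtain ⟨_, ⟨i, rfl⟩, e⟩ := exists_fix_of_odd (W := Set.range ρ) (by
      rw [← Set.image_univ, Set.ncard_image_of_injective _ H.inj, Set.ncard_univ]; simp; decide) hs (by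
      rintro _ ⟨i, rfl⟩
      exact (H.near_iff (h.cj s _ (H.mem i))).1 (h.lc3.stab_near hx hn (H.mem i) ((H.near_iff (H.mem i)).2 ⟨i, rfl⟩)))
    exact ⟨_, H.mem i, (H.near_iff (H.mem i)).2 ⟨i, rfl⟩, e⟩
  · obtain ⟨ρ, H, rfl, rfl⟩ := h.pt2 hx hy hc hne
    refine ⟨_, by simp; decide, H.line, fun s hs => ?_⟩
    obtain ⟨i, hi, rfl⟩ := List.mem_map.1 hs
    have : (i : ℕ) < 21 := (by decide : ∀ i ∈ ([0, 1, 2, 3, 4] : List P), (i : ℕ) < 21) i hi
    exact ⟨H.mem i, H.comm21 0 i (by decide) this, H.comm21 1 i (by decide) this⟩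
  · obtain ⟨ρ', H', rfl, rfl⟩ := h.pt2 hv hw h1 n1
    obtain ⟨k', rfl⟩ := H'.loc w' hw' h2
    have p1 := H'.commute_iff.1 h1
    have p2 := H'.commute_iff.1 h2
    have p3 := H'.commute_iff.1 h3
    obtain ⟨σ, hσ, s0, s1, s2⟩ := clique_pair (Y := {0, 1, k'}) (i := 0) (j := 1) (by
      simp [perp_refl, p1, p2, p3, p1.symm, p2.symm, p3.symm]) (by simp) (by simp) (by decide)
    obtain ⟨ρ, H, e0, e1, k, hk, ek⟩ : ∃ ρ, UL D ρ ∧ ρ 0 = ρ' 0 ∧ ρ 1 = ρ' 1 ∧ ∃ k : P, (k : ℕ) < 21 ∧ ρ k = ρ' k' :=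
      ⟨_, H'.comp (inv_mem hσ), by conv_lhs => rw [← s0]
                                   simp, by conv_lhs => rw [← s1]
                                            simp, σ k', s2 _ (by simp), by simp⟩
    rw [← e0, ← e1, ← ek]
    rw [← ek, ← e0] at n2
    rw [← ek, ← e1] at n3
    obtain ⟨x, a, b, c⟩ := (show ∀ k ∈ U21, k ≠ 0 → k ≠ 1 → ∃ x ∈ U21,
      (∀ l ∈ U21, ∀ l' ∈ U21, xm [x, 0, 1, k] ≠ xm [l, l']) ∧ (nall 693 fun m => bor (Nat.ble m 20)
        (!band (pp 0 m) (band (pp 1 m) (band (pp k m) (pp x m))))) = true by decide +kernel) k (mem_U21.2 hk)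
      (fun e => n2 (by rw [e])) fun e => n3 (by rw [e])
    have hx := mem_U21.1 a
    refine ⟨_, H.mem x, H.comm21 x 0 hx (by decide), H.comm21 x 1 hx (by decide), H.comm21 x k hx hk,
      fun y hy y' hy' _ _ hall e => ?_⟩
    have key : ∀ y ∈ D, (∀ a ∈ [ρ x, ρ 0, ρ 1, ρ k], Commute a y) → ∃ l : P, (l : ℕ) < 21 ∧ ρ l = y := fun y hy hc => by
      obtain ⟨l, rfl⟩ := H.loc y hy (hc _ (by simp))
      have := forallP c l
      simp only [List.forall_mem_cons, H.commute_iff, ← pp_iff] at hc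
      rw [show pp 0 l = true from hc.2.1, show pp 1 l = true from hc.2.2.1, hc.1, hc.2.2.2.1] at this
      exact ⟨l, Nat.lt_succ_of_le (by simpa using this), rfl⟩
    obtain ⟨l, hl, rfl⟩ := key y hy fun a ha => (hall a ha).1
    obtain ⟨l', hl', rfl⟩ := key y' hy' fun a ha => (hall a ha).2
    exact b l (mem_U21.2 hl) l' (mem_U21.2 hl') ((U.prod_eq_iff (by simp [hx, hk]) (by simp [hl, hl'])).1
      (word_t H.toRep U _ _ (by simpa using e)))
  · obtain ⟨ρ, H, rfl⟩ := h.pt hx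
    exact ⟨_, H.mem 1, H.comm21 0 1 (by decide) (by decide), H.inj.ne (by decide)⟩

theorem range_eq [Finite G] : D = Set.range τ :=
  Set.ext fun y => ⟨fun hy => (h.near_iff hy).1 (h.gl3.near_all (h.mem 0) hy), by rintro ⟨i, rfl⟩; exact h.mem i⟩

theorem main [Finite G] {E : Subgroup G} (hE : E ≤ center G) (h4 : Nat.card E = 4)
    (hg : E ≤ closure (Set.range τ)) (hc : Nat.card C1[τ 0] ≤ 4 * 13271040) {X : Type*} [Group X] {t : P → X}
    (U : U6 t) : center G = E ∧ Group.IsPerfect G ∧ closure (Set.range τ) = ⊤ ∧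
      ∃ ψ : G →* X, Function.Surjective ψ ∧ ψ.ker = E ∧ ∀ i, ψ (τ i) = t i := by
  let R : Subgroup (G × X) :=
    { carrier := {p | ∀ j, p.1 * τ j * p.1⁻¹ = τ (U.act p.2 j)}
      one_mem' := fun j => by simp
      mul_mem' := fun {a b} ha hb j => by
        rw [Prod.snd_mul, map_mul, Equiv.Perm.mul_apply, ← ha, ← hb, Prod.fst_mul]; group
      inv_mem' := fun {a} ha j => by
        conv_lhs => rw [← (U.act a.2).apply_symm_apply j, ← ha, Prod.fst_inv]
        rw [Prod.snd_inv, map_inv]; change _ = τ ((U.act a.2).symm j); group }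
  let f := (MonoidHom.fst G X).comp R.subtype
  let s := (MonoidHom.snd G X).comp R.subtype
  have fi : Function.Injective f := (injective_iff_map_eq_one f).2 fun p hp => Subtype.ext (Prod.ext hp
    (U.eq_one fun i _ => h.inj (by rw [← p.2 i, show p.1.1 = 1 from hp]; simp)))
  have m : ∀ i, (τ i, t i) ∈ R := fun i j => by rw [U.act_t, h.conj']
  have ss : Function.Surjective s := MonoidHom.range_eq_top.1 (by
    rw [eq_top_iff, ← U.gen, closure_le]; rintro _ ⟨i, rfl⟩; exact ⟨⟨_, m i⟩, rfl⟩)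
  have := U.finite
  have k : E ≤ s.ker.map f := fun e he => ⟨⟨(e, 1), fun j => by simp [← mem_center_iff.1 (hE he)]⟩, rfl, rfl⟩
  have c1 := card_le_of_le k
  have c2 := s.ker.card_mul_index
  have c3 := card_conj_orbit ⊤ (τ 0)
  have c4 := Nat.card_le_card_of_injective f fi
  have c5 := card_map_of_injective (K := s.ker) fi
  rw [index_ker, MonoidHom.range_eq_top.2 ss, card_top, U.card] at c2
  rw [card_top, top_inf_eq, show {y | ∃ g ∈ (⊤ : Subgroup G), g * τ 0 * g⁻¹ = y} = D from Set.ext fun y =>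
    ⟨by rintro ⟨g, -, rfl⟩; exact h.cj g _ (h.mem 0), fun hy => let ⟨g, e⟩ := h.tr y hy; ⟨g, trivial, e⟩⟩,
    h.range_eq, ← Set.image_univ, Set.ncard_image_of_injective _ h.inj, Set.ncard_univ, Nat.card_fin] at c3
  let e := MulEquiv.ofBijective f ((Nat.bijective_iff_injective_and_card f).2 ⟨fi, by omega⟩)
  let ψ := s.comp e.symm.toMonoidHom
  have e1 : ∀ p, ψ (f p) = s p := fun p => congrArg s (e.symm_apply_apply p)
  have e2 : ψ.ker = E := (eq_of_le_of_card_ge k (by omega)).symm ▸ Subgroup.ext fun g => by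
    obtain ⟨p, rfl⟩ := e.surjective g
    exact ⟨fun a => ⟨p, (e1 p).symm.trans a, rfl⟩, fun ⟨q, a, b⟩ => (congrArg ψ b).symm.trans ((e1 q).trans a)⟩
  have e3 : ∀ i, ψ (τ i) = t i := fun i => e1 ⟨_, m i⟩
  have e4 : Function.Surjective ψ := ss.comp e.symm.surjective
  have e5 : closure (Set.range τ) = ⊤ := by
    rw [← comap_map_eq_self (H := closure (Set.range τ)) (f := ψ) (e2 ▸ hg), MonoidHom.map_closure,
      ← Set.range_comp, show ψ ∘ τ = t from funext e3, U.gen, comap_top]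
  refine ⟨le_antisymm (fun z hz => e2 ▸ mem_bot.1 (U.center ▸ mem_center_iff.2 fun u => ?_)) hE,
    perfect_of_odd e5 ?_ (by rintro _ ⟨i, rfl⟩; exact h.sq i) (by simp) (by simp; decide) h.line, e5, ψ, e4, e2, e3⟩
  · rintro _ ⟨i, rfl⟩ _ ⟨j, rfl⟩
    exact (isConj_iff.2 (h.tr _ (h.mem i))).symm.trans (isConj_iff.2 (h.tr _ (h.mem j)))
  · obtain ⟨g, rfl⟩ := e4 u
    rw [← map_mul, mem_center_iff.1 hz, map_mul]

end UL

end Cfsg.Agent.LF
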