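import Cfsg.Agent.LF.Dat7
import Cfsg.Agent.LF.U6g

/-! # Groups of large Fischer type: the local structure of the centraliser of a four-group -/

set_option autoImplicit false
set_option maxRecDepth 100000

namespace Cfsg.Agent.LF

open Cfsg.Agent.M24 Cfsg.Agent.GT Cfsg.Agent.TT Cfsg.Agent.TT2 Cfsg.Agent.Cl Subgroup

theorem X2_eq : gen code (gensOf cX2) = St K0 (dc 5) :=
  eq_St le_rfl K0_le_N0 (by omega) chk_X2 (gen_le_of_sift chk_K (by decide +kernel)) (by decide +kernel)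
    (by rw [show ty 5 = 1 by decide +kernel, ncard_ty.1, card_K0]; decide +kernel)

theorem mem_X2 {g : Γ} : g ∈ St K0 (dc 5) ↔ sift mul one mm cX2 (code g) = true :=
  X2_eq ▸ (chk_sound chk_X2).2.2.2 g

theorem card_X2 : Nat.card (St K0 (dc 5)) = 25920 := X2_eq ▸ (chk_sound chk_X2).2.2.1.trans (by decide +kernel)

theorem om5 : om • dc 5 = dc 10 ∧ om • dc 10 = dc 15 := by decide +kernel

theorem pl12 : pl 1 = 5 ∧ pl 2 = 10 := by decide +kernel

theorem X2_fix {g : Γ} (h : g ∈ St K0 (dc 5)) : g (dc 10) = dc 10 := by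
  rw [← om5.1, K0_smul h.1, show g (dc 5) = dc 5 from h.2]

theorem mem_K0_of_fix {g : Γ} (h : g ∈ H0) {v : V} (h0 : g v ≠ 0) (e : g (om • v) = om • g v) : g ∈ K0 :=
  h.elim id fun a => by
    have b : ∀ u, uu (om • u) = om • om • uu u := fun u => by
      rw [← W_apply, ← W_apply, ← W_apply]
      exact LinearEquiv.congr_fun (show uu * W = W * W * uu from gc.inj (by
        simp only [gc.code_mul, code_W, code_uu]; decide +kernel)) u
    have c : ∀ u, g u = (g * uu) (uu u) := fun u => by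
      rw [← LinearEquiv.mul_apply, mul_assoc, uu_uu, mul_one]
    rw [c, b, K0_smul a, K0_smul a, ← c] at e
    exact absurd (eq_zero_of_om e) (smul_ne_zero (by decide) h0)

theorem exists_l27 {p : ℕ} (h : p ∈ l27) : ∃ k ∈ St K0 (dc 5), code k = p := by
  have := (lall_iff _ _).1 chk_l27 p h
  rw [band_eq, Bool.and_eq_true] at this
  obtain ⟨k, rfl⟩ := exists_code this.1
  exact ⟨k, mem_X2.2 this.2, rfl⟩

theorem exists_into_A0 {g : Γ} (h : g ∈ St K0 (dc 5)) (h2 : g * g = 1) :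
    ∃ k ∈ St K0 (dc 5), ∃ c < 16, k * g * k⁻¹ = ag c := by
  have := forall_enum chk_X2 enum_X2 g (X2_eq.ge h)
  rw [← gc.code_inv, inv_of_sq h2, Nat.beq_refl, Bool.not_true, bor_eq, Bool.false_or, lany_iff] at this
  obtain ⟨p, a, b⟩ := this
  obtain ⟨k, c, rfl⟩ := exists_l27 a
  simp only [force_eq, ← gc.code_mul, ← gc.code_inv] at b
  exact ⟨k, c, exists_ag_of b⟩

theorem exists_into_P0 {c : ℕ} (hc : c < 16) {v : V} (h1 : inU (cd v) = true) (h2 : Q0 v = 0) (h3 : ag c v = v) :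
    ∃ k ∈ St K0 (dc 5), k v ∈ P0 ∧ ∃ c' < 16, k * ag c * k⁻¹ = ag c' := by
  have := (nall_iff _ _).1 chk_st2 c hc
  rw [force_eq, ← code_ag hc] at this
  have := forall_V this v
  have q : qc (cd v) = false := by
    rw [Q0_qc] at h2; revert h2; cases qc (cd v) <;> decide
  simp only [h1, q, mm_code, h3, Nat.beq_refl, bor_eq, Bool.not_true, Bool.false_or, lany_iff] at this
  obtain ⟨p, a, b⟩ := this
  obtain ⟨k, d, rfl⟩ := exists_l27 a
  simp only [force_eq, ← gc.code_mul, ← gc.code_inv, band_eq, Bool.and_eq_true, mm_code] at b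
  exact ⟨k, d, mem_P0.2 b.1, exists_ag_of b.2⟩

/-- The orthogonal complement of the point. -/
def U1p : AddSubgroup V where
  carrier := {v | Orth.B Q0 (dc 5) v = 0 ∧ Orth.B Q0 (dc 10) v = 0}
  zero_mem' := ⟨map_zero _, map_zero _⟩
  add_mem' a b := ⟨by rw [map_add, a.1, b.1, add_zero], by rw [map_add, a.2, b.2, add_zero]⟩
  neg_mem' a := by rwa [V_neg]

theorem mem_U1p {v : V} : v ∈ U1p ↔ inU (cd v) = true := by
  rw [inU, band_eq, Bool.and_eq_true, Bool.not_eq_true', Bool.not_eq_true', ← cd_dc (n := 5) (by omega),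
    ← cd_dc (n := 10) (by omega), ← B_eq_zero, ← B_eq_zero]
  rfl

theorem card_U1p : Nat.card U1p = 1024 := (ncard_V (f := inU) fun _ => mem_U1p).trans (by decide +kernel)

/-- The centraliser of the four-group. -/
def Yg {G : Type*} [Group G] (T : ℕ → G) : Subgroup G := C1[T 1] ⊓ C1[T 2]

/-- The class. -/
def Dg {G : Type*} [Group G] (z : G) (T : ℕ → G) : Set G := {y | ∃ g ∈ Yg T, g * z * g⁻¹ = y}

/-- The base points. -/
def bs {G : Type*} (z c : G) (δ : ℕ → G) (b : ℕ) : G := if b < 45 then δ b else if b = 45 then z else c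

/-- The points. -/
def tp3 {G : Type*} [Group G] (z c : G) (σ δ : ℕ → G) (i : P) : G := σ (trn i) * bs z c δ (trb i) * (σ (trn i))⁻¹

/-- The data for the centraliser of the four-group. -/
structure UD {G : Type*} [Group G] {Q : Subgroup G} {z : G} {π : G → V} {r : G → Γ} (S : LB Q z π r) (x : G)
    (T : ℕ → G) (μ : N[S.A] →* M24) (σ δ : ℕ → G) : Prop extends CA S x T where
  fs : FS z S.A T μ
  qs : QS Q z π x σ
  dl : ∀ j < 45, code (r (δ j)) = rh j ∧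
    ∃ k ∈ C1[z], k * x = x * k ∧ r k ∈ St K0 (dc 5) ∧ δ j = k * T 1152 * k⁻¹

theorem LB.exists_UD {G : Type*} [Group G] [Finite G] {Q : Subgroup G} {z : G} {π : G → V} {r : G → Γ}
    (S : LB Q z π r) : ∃ x T μ σ δ, UD S x T μ σ δ := by
  obtain ⟨x, X⟩ := S.exists_x
  obtain ⟨T, μ, C, F⟩ := S.exists_FS X
  obtain ⟨σ, R⟩ := S.exists_QS X
  have : ∀ j, j < 45 → ∃ d, code (r d) = rh j ∧
      ∃ k ∈ C1[z], k * x = x * k ∧ r k ∈ St K0 (dc 5) ∧ d = k * T 1152 * k⁻¹ := fun j hj => by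
    have := (nall_iff _ _).1 chk_kp j hj
    simp only [force_eq, band_eq, Bool.and_eq_true, Nat.beq_eq] at this
    obtain ⟨κ, e⟩ := exists_code this.1
    rw [← e, ← mem_X2, ← code_ag (by omega)] at this
    obtain ⟨k, a, rfl, b⟩ := S.cent_lift X this.2.1.1
    exact ⟨_, by rw [S.r_conj a (S.A_le (C.mem _)), C.rT (by omega), gc.code_mul, gc.code_mul, gc.code_inv,
      ← this.2.2]; rfl, k, a, b, this.2.1, rfl⟩
  choose! δ h using this
  exact ⟨x, T, μ, σ, δ, C, F, R, h⟩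

section
variable {G : Type*} [Group G] {z g y : G} {T : ℕ → G}

theorem mem_Yg : g ∈ Yg T ↔ Commute g (T 1) ∧ Commute g (T 2) := and_congr mem_cent1 mem_cent1

theorem Dg_conj (hg : g ∈ Yg T) (hy : y ∈ Dg z T) : g * y * g⁻¹ ∈ Dg z T :=
  let ⟨k, a, b⟩ := hy; ⟨g * k, mul_mem hg a, by rw [← b]; group⟩

theorem z_Dg : z ∈ Dg z T := ⟨1, one_mem _, by simp⟩

theorem Dg_isConj (hy : y ∈ Dg z T) : IsConj z y := let ⟨k, _, b⟩ := hy; isConj_iff.2 ⟨k, b⟩

end

namespace UD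

variable {G : Type*} [Group G] {Q : Subgroup G} {z : G} {π : G → V} {r : G → Γ} {S : LB Q z π r}
  {a b c h k q x y : G} {T : ℕ → G} {μ : N[S.A] →* M24} {σ δ : ℕ → G} {j m n : ℕ} (C : UD S x T μ σ δ)
include C

theorem Tσ (h : n < 64) : T n = σ (pl n) := S.σ_eq C.toLX C.qs (C.Tp n h).1 (C.Tp n h).2.1
  (by rw [(C.Tp n h).2.2, ← cd_pl, tbit_cd]; rfl)

theorem fixT (hk : k ∈ C1[z]) (e : k * x = x * k) (h : n < 64) (f : r k (dc (pl n)) = dc (pl n)) : Commute k (T n) := by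
  refine commute_iff_conj.2 ((S.σ_eq C.toLX C.qs (S.conj_mem hk (C.Tp n h).1) ?_ ?_).trans (C.Tσ h).symm)
  · rw [S.act _ hk _ (C.Tp n h).1, (C.Tp n h).2.1, f]
  · rw [N3_conj e, (C.Tp n h).2.2, ← cd_pl, tbit_cd]; simp [zp]

theorem memY (hk : k ∈ C1[z]) (e : k * x = x * k) (h : r k ∈ St K0 (dc 5)) : k ∈ Yg T :=
  mem_Yg.2 ⟨C.fixT hk e (by omega) (pl12.1 ▸ h.2), C.fixT hk e (by omega) (pl12.2 ▸ X2_fix h)⟩

theorem memYQ (hq : q ∈ Q) : q ∈ Yg T ↔ π q ∈ U1p := by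
  obtain ⟨a, b, -⟩ := C.Tp 1 (by omega)
  obtain ⟨c, d, -⟩ := C.Tp 2 (by omega)
  exact mem_Yg.trans (and_congr ((S.comm _ a _ hq).trans (by rw [b, pl12.1])) ((S.comm _ c _ hq).trans (by rw [d, pl12.2])))

theorem commT (hg : h ∈ Yg T) (hn : n < 4) : Commute h (T n) := by
  obtain ⟨a, b⟩ := mem_Yg.1 hg
  interval_cases n
  exacts [C.zero ▸ Commute.one_right h, a, b, C.mul 1 2 ▸ a.mul_right b]

variable [Finite G]

theorem TY (n : ℕ) : T n ∈ Yg T :=
  mem_Yg.2 ⟨commute_of_elem S.A_sq (C.mem _) (C.mem _), commute_of_elem S.A_sq (C.mem _) (C.mem _)⟩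

theorem zY : z ∈ Yg T := C.Tz ▸ C.TY 1024

theorem DY (hy : y ∈ Dg z T) : y ∈ Yg T := let ⟨_, a, b⟩ := hy; b ▸ mul_mem (mul_mem a C.zY) (inv_mem a)

theorem rY (hh : h ∈ C1[z]) (hY : h ∈ Yg T) : r h ∈ St K0 (dc 5) := by
  have k : ∀ n < 4, r h (dc (pl n)) = dc (pl n) := fun n hn => by
    obtain ⟨a, b, -⟩ := C.Tp n (by omega)
    rw [← b, ← S.act _ hh _ a, commute_iff_conj.1 (C.commT hY hn)]
  have k1 : r h (dc 5) = dc 5 := pl12.1 ▸ k 1 (by omega)
  exact ⟨mem_K0_of_fix (S.memH hh) (v := dc 5) (by rw [k1]; decide +kernel)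
    (by rw [k1, om5.1]; exact pl12.2 ▸ k 2 (by omega)), k1⟩

theorem decY (hh : h ∈ C1[z]) (hY : h ∈ Yg T) :
    ∃ k ∈ C1[z], k * x = x * k ∧ r k = r h ∧ k ∈ Yg T ∧ k⁻¹ * h ∈ Q := by
  obtain ⟨k, a, b, c⟩ := S.cent_lift C.toLX (C.rY hh hY).1
  exact ⟨k, a, c, b, C.memY a c (b ▸ C.rY hh hY), (S.r_eq a hh).1 b⟩

theorem eqx (ha : a ∈ C1[z]) (hb : b ∈ C1[z]) (h1 : a * x = x * a) (h2 : b * x = x * b) (e : r a = r b) :
    b = a ∨ b = a * z :=
  (S.eq_of_comm_x C.toLX ((S.r_eq ha hb).1 e) (Commute.mul_left (Commute.inv_left h1) h2)).imp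
    (fun e => (inv_mul_eq_one.1 e).symm) fun e => inv_mul_eq_iff_eq_mul.1 e

theorem Tx (h : n < 2048) (e : n % 64 = 0) : T n * x = x * T n := by
  rw [C.dec h, e, C.zero, one_mul]
  refine Commute.mul_left (C.Tc _ (dec11 h).2.2).2.symm ?_
  rcases C.Tzb (tbit n 10) with e | e <;> rw [e]
  exacts [Commute.one_left _, (S.z_comm C.xH).symm]

theorem exists_n : ∃ n ∈ Yg T, ∀ i < 21, n * T (pc21 (nu i)) * n⁻¹ = T (pc21 i) := by
  obtain ⟨n, -, k⟩ := C.fs.exists_elt (p := 561628265087868501319023585589954592) (by decide +kernel)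
  exact ⟨n, mem_Yg.2 ⟨commute_iff_conj.2 (k 3 (by decide +kernel)), commute_iff_conj.2 (k 5 (by decide +kernel))⟩,
    fun i hi => let ⟨_, m, _, e⟩ := chk_nu i hi; k m e⟩

theorem δ_facts (hj : j < 45) : δ j ∈ C1[z] ∧ δ j * x = x * δ j ∧ δ j ∈ Dg z T ∧ ¬IsConj z (δ j * z) := by
  obtain ⟨-, k, a, b, c, e⟩ := C.dl j hj
  obtain ⟨n, n1, n2⟩ := C.exists_n
  rw [e]
  refine ⟨mul_mem (mul_mem a (S.A_le (C.mem _))) (inv_mem a), Commute.mul_left (Commute.mul_left b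
    (C.Tx (by omega) rfl)) (Commute.inv_left b), Dg_conj (C.memY a b c) ⟨n, n1, C.Tz ▸ n2 1 (by omega)⟩, fun h => ?_⟩
  rw [← commute_iff_conj.1 (S.z_comm a), conj_mul, S.z_comm a, mul_inv_cancel_right, ← C.Tz, ← C.mul, C.Tz] at h
  exact (C.fs.cls _ (by decide) (by decide)).2 (by decide +kernel) (h.trans (isConj_iff.2 ⟨k, rfl⟩).symm)

theorem δ_eq (hj : j < 45) (h1 : y ∈ C1[z]) (h2 : y * x = x * y) (h3 : code (r y) = rh j) (h4 : IsConj z y) :
    y = δ j := by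
  obtain ⟨a, b, -, d⟩ := C.δ_facts hj
  exact (C.eqx a h1 b h2 (gc.inj ((C.dl j hj).1.trans h3.symm))).resolve_right fun e => d (e ▸ h4)

theorem δ_ax (hj : j < 5) : δ j = T (ax5 j) := by
  obtain ⟨a, b, c, d, e⟩ := chk_ax j hj
  exact (C.δ_eq (by omega) (S.A_le (C.mem _)) (C.Tx a b) (by rw [C.rT a, code_ag (dec11 a).2.2, c])
    (not_not.1 (mt (C.fs.cls _ a d).1 (by simp [e])))).symm

theorem D_sq (hy : y ∈ Dg z T) : y * y = 1 := let ⟨_, _, b⟩ := hy; by rw [← b, conj_mul, S.zz]; simp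

theorem plane {i : P} (hi : (i : ℕ) < 21) : tp3 z c σ δ i = T (pc21 i) := by
  by_cases h : i = 0
  · rw [h, tp3, show trn (0 : P) = 0 by decide +kernel, show trb (0 : P) = 45 by decide +kernel,
      S.σ_zero C.toLX C.qs, show pc21 (0 : P) = 1024 from rfl, C.Tz]
    simp [bs]
  obtain ⟨a, b⟩ := chk_pl i hi fun e => h (Fin.ext e)
  rw [tp3, bs, if_pos (by omega), C.δ_ax a, C.conj_Q (C.qs.mem _) (chk_ax _ a).1, C.qs.pi, cd_dc', b]

theorem tp0 : tp3 z c σ δ 0 = z := (C.plane (by decide)).trans C.Tz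

variable (hc : c ∈ Yg T ∧ ∀ j ∈ [0, 1, 2, 5, 6], Commute c (δ j))
include hc

theorem cmb_sound {b : ℕ} (h : cmb b m = true) : Commute (σ m) (bs z c δ b) := by
  simp only [cmb, bif'_eq, Nat.ble_eq, Nat.beq_eq, bor_eq, lany_iff, Bool.or_eq_true, Bool.ite_eq_true_distrib] at h
  rw [bs]
  split_ifs with h1 h2
  · obtain ⟨a, b, -⟩ := C.δ_facts h1
    rw [if_pos (by omega)] at h
    exact (commute_iff_conj.2 (by rw [S.σ_conj C.toLX C.qs a b, (C.dl _ h1).1, h])).symm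
  · exact (S.zc _ (C.qs.mem m)).symm
  · rw [if_neg (by omega)] at h
    obtain ⟨n, a, rfl⟩ := h.resolve_left h2
    obtain ⟨p, b, rfl⟩ := (show ∀ n ∈ [0, 5, 10, 15], ∃ p < 4, pl p = n by decide +kernel) _ a
    exact C.Tσ (show p < 64 by omega) ▸ (C.commT hc.1 b).symm

theorem eqv_sound {b n' : ℕ} (h : eqv n n' b = true) :
    σ n * bs z c δ b * (σ n)⁻¹ = σ n' * bs z c δ b * (σ n')⁻¹ := by
  have k : ∀ m, qm n m = n' → cmb b m = true → _ := fun m e f => (by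
    rw [← e, ← S.σ_mul C.toLX C.qs, mul_assoc (σ n) (σ m), (C.cmb_sound hc f).eq]; group :
    σ n * bs z c δ b * (σ n)⁻¹ = σ n' * bs z c δ b * (σ n')⁻¹)
  simp only [eqv, force_eq, bor_eq, band_eq, Bool.or_eq_true, Bool.and_eq_true, Nat.beq_eq] at h
  exact h.elim (fun h => k _ h.1 h.2) fun h => k _ h.1 h.2

theorem δ_bs {g b : ℕ} (hg : g ∈ [0, 1, 2, 5, 6]) (hb : b ≤ 46) : δ g * bs z c δ b * (δ g)⁻¹ = bs z c δ (st g b) := by
  have := (lall_iff _ _).1 chk_st g hg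
  simp only [band_eq, Bool.and_eq_true, Nat.beq_eq, nall_iff, Nat.ble_eq] at this
  have g1 : g < 45 := by simp at hg; omega
  obtain ⟨a1, a2, a3, -⟩ := C.δ_facts g1
  obtain h | rfl | rfl : b < 45 ∨ b = 45 ∨ b = 46 := by omega
  · obtain ⟨b1, b2, b3, -⟩ := C.δ_facts h
    obtain ⟨d, e⟩ := this.2 b h
    rw [bs, bs, if_pos h, if_pos (by omega)]
    exact C.δ_eq (by omega) (mul_mem (mul_mem a1 b1) (inv_mem a1)) (Commute.mul_left (Commute.mul_left a2 b2)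
      (Commute.inv_left a2)) (by rw [S.r_conj a1 b1, gc.code_mul, gc.code_mul, gc.code_inv, (C.dl _ g1).1,
        (C.dl _ h).1, e]) (Dg_isConj (Dg_conj (C.DY a3) b3))
  · rw [this.1.1]; exact commute_iff_conj.1 (S.z_comm a1)
  · rw [this.1.2]; exact commute_iff_conj.1 (hc.2 g hg).symm

theorem good0 : (0 : P) ∈ Good (tp3 z c σ δ) := by
  rw [Good, Set.mem_ofPred_eq, C.tp0]
  refine ⟨S.zz, fun j => ?_⟩
  have := forallP chk_Z0 j
  simp only [force_eq, band_eq, Bool.and_eq_true, Nat.beq_eq] at this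
  have e := C.eqv_sound hc this.2
  rw [← S.σ_mul C.toLX C.qs, S.σ_z C.toLX C.qs] at e
  rw [tp3, tp3, op_val, this.1.2, show ((0 : P) : ℕ) = 0 from rfl, ← e, mul_inv_rev, S.toES.inv]
  group

theorem goodP {n1 g : ℕ} {i : P} (h : chkP n n1 g i = true)
    (e : g ∈ [0, 1, 2, 5, 6] ∧ qm n n1 = 0 ∧ trn i = n ∧ trb i = g) : i ∈ Good (tp3 z c σ δ) := by
  obtain ⟨hg, e1, rfl, e3⟩ := e
  have g1 : g < 45 := by simp at hg; omega
  obtain ⟨a1, a2, a3, -⟩ := C.δ_facts g1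
  have t : tp3 z c σ δ i = σ (trn i) * δ g * (σ (trn i))⁻¹ := by rw [tp3, e3, bs, if_pos g1]
  have s : tp3 z c σ δ i * tp3 z c σ δ i = 1 := by rw [t, conj_mul, C.D_sq a3]; simp
  refine ⟨s, fun j => ?_⟩
  have := forallP h j
  have l := forallP chk_Z0 j
  simp only [force_eq, band_eq, Bool.and_eq_true, Nat.beq_eq, Nat.ble_eq] at this l
  have e := C.eqv_sound hc this.2
  have u : (σ (trn i))⁻¹ = σ n1 := inv_eq_of_mul_eq_one_right (by
    rw [S.σ_mul C.toLX C.qs, e1, S.σ_zero C.toLX C.qs])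
  rw [← S.σ_mul C.toLX C.qs, ← (C.dl g g1).1, ← S.σ_conj C.toLX C.qs a1 a2, ← S.σ_mul C.toLX C.qs, ← u] at e
  conv_lhs => enter [2]; rw [← inv_of_sq s]
  rw [t, tp3, tp3, op_val, ← e, ← this.1, ← C.δ_bs hc hg (by omega)]
  group

theorem good {i : P} (h : perp 0 i) : i ∈ Good (tp3 z c σ δ) := by
  have := reach2_sound good_op ce0 (inM_lm (L := [1, 5, 7, 27, 133, 0, 2]) (S := Good (tp3 z c σ δ)) (by
    simp only [List.forall_mem_cons]
    exact ⟨C.goodP hc (chk_Pt (0, 0, 0, 1) (by simp)) (by decide +kernel),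
      C.goodP hc (chk_Pt (0, 0, 1, 5) (by simp)) (by decide +kernel),
      C.goodP hc (chk_Pt (0, 0, 2, 7) (by simp)) (by decide +kernel),
      C.goodP hc (chk_Pt (0, 0, 5, 27) (by simp)) (by decide +kernel),
      C.goodP hc (chk_Pt (0, 0, 6, 133) (by simp)) (by decide +kernel), C.good0 hc,
      C.goodP hc (chk_Pt (512, 4608, 0, 2) (by simp)) (by decide +kernel), by simp⟩))
  rw [show reach2 ce0 _ = mP0 by decide +kernel] at this
  exact this.mem ((mP0_iff i).2 h)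

end UD

end Cfsg.Agent.LF
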