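import Cfsg.Agent.LF.U6a

/-! # Groups of large Fischer type: the centraliser `2² · U₆(2)` -/

set_option autoImplicit false
set_option maxRecDepth 100000

namespace Cfsg.Agent.LF

open Cfsg.Agent.M24 Cfsg.Agent.GT Cfsg.Agent.TT Cfsg.Agent.TT2 Cfsg.Agent.Cl Subgroup

theorem good45 {G : Type*} [Group G] {τ : P → G} (h0 : ∀ i, perp 0 i → i ∈ Good τ) (h1 : τ 45 * τ 45 = 1)
    (h2 : ∀ g ∈ ([1, 5, 7, 27, 133] : List P), Commute (τ 45) (τ g))
    (h3 : ∀ g ∈ ([0, 2] : List P), τ 45 * τ g * τ 45 = τ g * τ 45 * τ g) (i : P) : i ∈ Good τ := by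
  let S : Set P := {j | τ 45 * τ j * τ 45 = τ (op 45 j)}
  have p : ∀ g ∈ ([1, 5, 7, 27, 133] : List P), perp 0 g ∧ op 45 g = g := by decide +kernel
  have q : ∀ g ∈ ([0, 2] : List P), perp 0 g ∧ op g 45 = op 45 g := by decide +kernel
  have c1 : ∀ g ∈ {g | g ∈ ([45, 1, 5, 7, 27, 133] : List P)}, ∀ a ∈ S, op g a ∈ S := fun g hg a ha => by
    rcases List.mem_cons.1 hg with rfl | hg
    · change _ = τ _
      rw [op_op, ← show _ = τ _ from ha, ← mul_assoc, ← mul_assoc, h1, one_mul, mul_assoc, h1, mul_one]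
    · change _ = τ _
      rw [op_distrib, (p g hg).2, ← (h0 g (p g hg).1).2, ← (h0 g (p g hg).1).2, ← show _ = τ _ from ha]
      calc _ = τ 45 * τ g * τ a * (τ g * τ 45) := by group
        _ = _ := by rw [← (h2 g hg).eq, ← mul_assoc, (h2 g hg).eq]; group
  have c2 : ∀ g ∈ ([0, 2] : List P), ∀ a ∈ S, op g a ∈ S → op 45 (op g (op 45 a)) = op g (op 45 (op g a)) →
      op g (op 45 a) ∈ S := fun g hg a ha hb e => by
    change _ = τ _
    rw [e, ← (h0 g (q g hg).1).2, ← (h0 g (q g hg).1).2, ← show _ = τ _ from ha, ← show _ = τ _ from hb,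
      ← (h0 g (q g hg).1).2]
    calc _ = τ 45 * τ g * τ 45 * τ a * (τ 45 * τ g * τ 45) := by group
      _ = _ := by rw [h3 g hg]; group
  have g1 := inM_lm (L := [45, 1, 5, 7, 27, 133]) (S := {g | g ∈ ([45, 1, 5, 7, 27, 133] : List P)}) fun _ h => h
  have r1 := reach_sound c1 g1 ce1 (inM_lm (L := 45 :: ([1, 5, 7, 27, 133] ++ [0, 2])) (S := S) fun g hg => by
    rcases List.mem_cons.1 hg with rfl | hg
    · change _ = τ _
      rw [h1, one_mul, show op 45 45 = 45 from perp_refl _]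
    rcases List.mem_append.1 hg with hg | hg <;> change _ = τ _
    · rw [(p g hg).2, (h2 g hg).eq, mul_assoc, h1, mul_one]
    · rw [h3 g hg, (h0 g (q g hg).1).2, (q g hg).2])
  have r2 := reach_sound c1 g1 ce2 (r1.add (c2 0 (by simp) 2 (r1.mem (by decide +kernel)) (r1.mem (by decide +kernel))
    (by decide +kernel)))
  have r3 := reach_sound c1 g1 ce3 (r2.add (c2 2 (by simp) 109 (r2.mem (by decide +kernel))
    (r2.mem (by decide +kernel)) (by decide +kernel)))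
  rw [show reach _ ce3 _ = 2 ^ 693 - 1 by decide +kernel] at r3
  have r4 := reach2_sound good_op [3117, 331857, 2093, 503916, 119853, 348268, 45, 553006]
    ((inM_of (m := mP0) (by decide +kernel) fun i hi => h0 i ((mP0_iff i).1 hi)).add (i := 45) ⟨h1, fun j =>
      r3.mem (by rw [tb_eq, Nat.testBit_two_pow_sub_one]; simp)⟩)
  exact gens_closed good_op (fun j hj => r4.mem ((by decide +kernel : ∀ j ∈ gensL, tb _ (j : ℕ) = true) j hj)) i

/-- The four-group. -/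
def Eg {G : Type*} [Group G] (T : ℕ → G) : Subgroup G := closure {T 1, T 2}

theorem cent_Eg {G : Type*} [Group G] (T : ℕ → G) : C[Eg T] = Yg T := by
  ext g
  rw [Eg, centralizer_closure, mem_Yg, mem_centralizer_iff]
  simp [eq_comm, commute_iff_eq]

namespace UD

variable {G : Type*} [Group G] [Finite G] {Q : Subgroup G} {z : G} {π : G → V} {r : G → Γ} {S : LB Q z π r}
  {a b c g h k q x y : G} {T : ℕ → G} {μ : N[S.A] →* M24} {σ δ : ℕ → G} {m n : ℕ} {i j : P}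
  (C : UD S x T μ σ δ)
include C

theorem tδ (e : trn i = 0 ∧ trb i < 45) : tp3 z c σ δ i = δ (trb i) := by
  rw [tp3, e.1, S.σ_zero C.toLX C.qs, bs, if_pos e.2]; simp

theorem comm_z (c : G) : Commute y z ↔ Commute y (tp3 z c σ δ 0) := by rw [C.tp0]

theorem σY (i : P) : σ (trn i) ∈ Yg T := (C.memYQ (C.qs.mem _)).2 (mem_U1p.2 (by
  rw [C.qs.pi, cd_dc']; exact forallP (f := fun i => inU (lo (trn i))) (by decide +kernel) i))

theorem tp_mem (h : c ∈ Dg z T ∨ perp 0 i) : tp3 z c σ δ i ∈ Dg z T := by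
  refine Dg_conj (C.σY i) ?_
  rw [bs]
  split_ifs with h1 h2
  exacts [(C.δ_facts h1).2.2.1, z_Dg, h.resolve_right fun h => by
    have := forallP chk_loc i
    simp only [(pp_iff 0 i).2 h, show pp 0 i = pp (0 : P) i from rfl, bor_eq, band_eq, Bool.not_true, Bool.false_or,
      Bool.or_eq_true, Nat.beq_eq, Bool.and_eq_true, Nat.ble_eq] at this
    exact this.elim (fun e => h2 (by rw [e]; decide +kernel)) fun e => h1 (by omega)]

theorem tp_loc (h : perp 0 i) (h0 : i ≠ 0) : trb i < 45 ∧ tp3 z c σ δ i = σ (trn i) * δ (trb i) * (σ (trn i))⁻¹ ∧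
    code (r (tp3 z c σ δ i)) = rh (trb i) := by
  have := forallP chk_loc i
  simp only [(pp_iff 0 i).2 h, show pp 0 i = pp (0 : P) i from rfl, bor_eq, band_eq, Bool.not_true, Bool.false_or,
    Bool.or_eq_true, Nat.beq_eq, Bool.and_eq_true, Nat.ble_eq] at this
  have a : trb i < 45 := Nat.lt_succ_of_le (this.resolve_left fun e => h0 (Fin.ext e)).1
  rw [tp3, bs, if_pos a, S.r_conj (S.le (C.qs.mem _)) (C.δ_facts a).1, S.r_Q (C.qs.mem _), one_mul, inv_one, mul_one]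
  exact ⟨a, rfl, (C.dl _ a).1⟩

theorem inj0 (hi : perp 0 i) (hj : perp 0 j) (e : tp3 z c σ δ i = tp3 z c σ δ j) : i = j := by
  have k : ∀ i, perp 0 i → i ≠ 0 → tp3 z c σ δ 0 ≠ tp3 z c σ δ i := fun i a b e => by
    obtain ⟨a1, -, a3⟩ := C.tp_loc (c := c) a b
    have := (nall_iff _ _).1 chk_rh _ a1
    rw [← a3, ← e, C.tp0, S.r_Q S.mem, gc.code_one] at this
    simp at this
  by_cases a : i = 0
  · exact a.trans (by_contra fun b => k j hj (Ne.symm b) (a ▸ e))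
  by_cases b : j = 0
  · exact absurd (b ▸ e.symm) (k i hi a)
  obtain ⟨a1, a2, a3⟩ := C.tp_loc (c := c) hi a
  obtain ⟨b1, b2, b3⟩ := C.tp_loc (c := c) hj b
  have s : trb j = trb i := by
    have := (nall_iff _ _).1 chk_rh _ b1
    simp only [band_eq, Bool.and_eq_true, nall_iff, bor_eq, Bool.or_eq_true, Nat.beq_eq] at this
    exact (this.2 _ a1).resolve_right (by rw [← a3, ← b3, e]; simp)
  have := forallP chk_inj i
  simp only [force_eq, bor_eq, Bool.or_eq_true, Nat.ble_eq, nall_iff, Nat.beq_eq] at this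
  rcases this.resolve_left (by omega) j j.2 with h | h | h
  · simp [s] at h
  · exact Fin.ext h
  have u := mul_mem (inv_mem (C.qs.mem (trn j))) (C.qs.mem (trn i))
  have v := S.act _ (C.δ_facts a1).1 _ u
  rw [a2, b2, s] at e
  rw [show δ (trb i) * ((σ (trn j))⁻¹ * σ (trn i)) * (δ (trb i))⁻¹ = (σ (trn j))⁻¹ * σ (trn i) by
    rw [mul_inv_eq_iff_eq_mul, mul_assoc _ (σ _), mul_inv_eq_iff_eq_mul.1 e]; group,
    S.mul _ (inv_mem (C.qs.mem _)) _ (C.qs.mem _), S.π_inv (C.qs.mem _), C.qs.pi, C.qs.pi, ← dc_xor] at v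
  rw [Nat.xor_eq, ← cd_dc', ← (C.dl _ a1).1, mm_code, ← v] at h
  simp at h

theorem into_A (hh : h ∈ C1[z]) (hY : h ∈ Yg T) (h2 : h * h = 1) : ∃ g ∈ C1[z], g ∈ Yg T ∧ g * h * g⁻¹ ∈ S.A := by
  obtain ⟨κ, a, u, b, d⟩ := exists_into_A0 (C.rY hh hY) (by rw [← S.rmul _ hh _ hh, h2, S.r_one])
  obtain ⟨k, k1, rfl, k2⟩ := S.cent_lift C.toLX a.1
  have k3 := C.memY k1 k2 a
  have m1 : k * h * k⁻¹ ∈ C1[z] := mul_mem (mul_mem k1 hh) (inv_mem k1)
  have m2 := S.A_le (C.mem (64 * u))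
  obtain ⟨t1, t2⟩ := C.Tc u b
  have m3 : k * h * k⁻¹ * T (64 * u) ∈ Q := (S.r_eq_one (mul_mem m1 m2)).1 (by
    rw [S.rmul _ m1 _ m2, S.r_conj k1 hh, d, t1, ag_sq b])
  obtain ⟨n, e⟩ := S.exists_σ C.toLX C.qs m3
  have m4 := (C.memYQ m3).1 (mul_mem (mul_mem (mul_mem k3 hY) (inv_mem k3)) (C.TY _))
  have e' : k * h * k⁻¹ = σ n * T (64 * u) := by rw [← e, mul_assoc _ (T _), C.co.sq, mul_one]
  have s : σ n * (T (64 * u) * σ n * (T (64 * u))⁻¹) = 1 := by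
    rw [inv_of_sq (C.co.sq _), ← mul_assoc, ← mul_assoc, mul_assoc, ← e', conj_mul, h2]; simp
  have s1 : ag u (π (σ n)) = π (σ n) := by
    have := congrArg π s
    rwa [S.mul _ (C.qs.mem _) _ (S.conj_mem m2 (C.qs.mem _)), S.act _ m2 _ (C.qs.mem _), t1, S.π_one,
      V_add_eq_zero, eq_comm] at this
  rw [S.σ_eq C.toLX C.qs (n := n) (S.conj_mem m2 (C.qs.mem n)) (by
    rw [S.act _ m2 _ (C.qs.mem _), t1, s1, C.qs.pi]) (by
    rw [N3_conj t2.symm, C.qs.nm, (zp_comm m2 _).eq, mul_inv_cancel_right])] at s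
  obtain ⟨κ, a', b', u', c', d'⟩ := exists_into_P0 b (mem_U1p.1 (e ▸ m4)) ((S.sq' _ (C.qs.mem n)).1 s) s1
  obtain ⟨l, l1, rfl, l2⟩ := S.cent_lift C.toLX a'.1
  refine ⟨l * k, mul_mem l1 k1, mul_mem (C.memY l1 l2 a') k3, ?_⟩
  rw [show l * k * h * (l * k)⁻¹ = l * (k * h * k⁻¹) * l⁻¹ by group, e', ← conj_mul]
  refine mul_mem (S.Ph_le ⟨S.conj_mem l1 (C.qs.mem n), by rw [S.act _ l1 _ (C.qs.mem n)]; exact b'⟩) ?_
  rcases C.eqx (S.A_le (C.mem (64 * u'))) (mul_mem (mul_mem l1 m2) (inv_mem l1)) (C.Tc u' c').2.symm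
    (Commute.mul_left (Commute.mul_left l2 t2.symm) (Commute.inv_left l2))
    (by rw [S.r_conj l1 m2, t1, d', (C.Tc u' c').1]) with f | f <;> rw [f]
  exacts [C.mem _, mul_mem (C.mem _) S.z_A]

theorem D_A (hy : y ∈ Dg z T) (hA : y ∈ S.A) : ∃ i : P, (i : ℕ) < 21 ∧ y = T (pc21 i) := by
  obtain ⟨n, a, rfl⟩ := C.co.surj y hA
  have b := Dg_isConj hy
  have c : n ≠ 0 := by rintro rfl; exact S.ne (isConj_one_right.1 (C.zero ▸ b.symm))
  have := ball_zero chk_pat n a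
  simp only [bor_eq, Bool.or_eq_true, Nat.beq_eq, lany_iff, band_eq, Bool.and_eq_true, Bool.not_eq_true',
    List.mem_range] at this
  rcases this with h | h | ⟨e, e1, e2, e3⟩ | ⟨i, i1, i2⟩
  · exact absurd h c
  · exact absurd b ((C.fs.cls n a c).2 h)
  · obtain ⟨g, g1, g2⟩ := hy
    obtain ⟨f1, f2, f3⟩ := (show ∀ e ∈ [1, 2, 3], e < 4 ∧ 1024 ^^^ e < 2048 ∧ 1024 ^^^ e ≠ 0 ∧ dq (1024 ^^^ e) = true by
      decide +kernel) e e1
    have := not_not.1 (mt (C.fs.cls _ (Nat.xor_lt_two_pow (n := 11) a (show e < 2 ^ 11 by omega))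
      fun h => by simp [h] at e2).1 (by simpa using e3))
    rw [C.mul, ← g2, ← commute_iff_conj.1 (C.commT g1 f1), conj_mul, ← C.Tz, ← C.mul, C.Tz] at this
    exact absurd (this.trans (isConj_iff.2 ⟨g, rfl⟩).symm) ((C.fs.cls _ f2 f3.1).2 f3.2)
  · exact ⟨⟨i, by omega⟩, i1, congrArg T i2.symm⟩

section
variable (hc : c ∈ Yg T ∧ ∀ j ∈ [0, 1, 2, 5, 6], Commute c (δ j))
include hc

theorem comm0 (hi : perp 0 i) (hj : perp 0 j) : Commute (tp3 z c σ δ i) (tp3 z c σ δ j) ↔ perp i j := by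
  refine ⟨fun h => by_contra fun e => e ?_, fun h => commute_iff_conj.2 ((good_conj (C.good hc hi) j).trans
    (congrArg _ h))⟩
  rw [C.inj0 hi hj (eq_of_braid (C.good hc hi) (C.good hc hj) e h)]; exact perp_refl j

theorem normW (hk : k ∈ C1[z]) (e : k * x = x * k) (h : r k ∈ St K0 (dc 5)) (hi : perp 0 i) :
    ∃ j, perp 0 j ∧ k * tp3 z c σ δ i * k⁻¹ = tp3 z c σ δ j := by
  have w : ∀ g, perp 0 g → ∀ i, perp 0 i → ∃ j, perp 0 j ∧ tp3 z c σ δ g * tp3 z c σ δ i * (tp3 z c σ δ g)⁻¹ =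
      tp3 z c σ δ j := fun g a i b => ⟨_, by
    have := Aut.perp (tp_mem_Aut g) b
    rwa [tp_apply, tp_apply, show op g 0 = 0 from a.symm] at this, good_conj (C.good hc a) i⟩
  have : ∀ κ ∈ gen code (gensOf cX2), ∀ k ∈ C1[z], k * x = x * k → r k = κ → ∀ i, perp 0 i →
      ∃ j, perp 0 j ∧ k * tp3 z c σ δ i * k⁻¹ = tp3 z c σ δ j := fun κ hκ => by
    suffices ∃ l ∈ C1[z], l * x = x * l ∧ r l = κ ∧ ∀ i, perp 0 i →
        ∃ j, perp 0 j ∧ l * tp3 z c σ δ i * l⁻¹ = tp3 z c σ δ j by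
      obtain ⟨l, l1, l2, rfl, l3⟩ := this
      intro k k1 k2 k3 i hi
      rcases C.eqx l1 k1 l2 k2 k3.symm with rfl | rfl
      · exact l3 i hi
      · obtain ⟨j, a, b⟩ := w 0 (perp_refl _) i hi
        obtain ⟨j', a', b'⟩ := l3 j a
        exact ⟨j', a', by rw [← b', ← b, C.tp0]; group⟩
    induction hκ using closure_induction_left with
    | one => exact ⟨1, one_mem _, by simp, S.r_one, fun i hi => ⟨i, hi, by simp⟩⟩
    | mul_left κ hκ κ' _ ih | inv_mul_cancel κ hκ κ' _ ih =>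
      obtain ⟨g, a, b, d⟩ := (show ∀ p ∈ gensOf cX2, ∃ g ∈ ([1, 5, 7, 27, 133] : List P), perp 0 g ∧
        (trn g = 0 ∧ trb g < 45) ∧ rh (trb g) = p ∧ inv p = p by decide +kernel) _ hκ
      obtain ⟨l, l1, l2, rfl, l3⟩ := ih
      obtain ⟨d1, d2, -⟩ := C.δ_facts d.1.2
      refine ⟨δ (trb g) * l, mul_mem d1 l1, Commute.mul_left d2 l2, by
        rw [S.rmul _ d1 _ l1]; exact congrArg (· * _) (gc.inj (by
          simp only [gc.code_inv, (C.dl _ d.1.2).1, d.2.1, d.2.2])), fun i hi => ?_⟩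
      obtain ⟨j, a, e⟩ := l3 i hi
      obtain ⟨j', a', e'⟩ := w g b j a
      exact ⟨j', a', by rw [← e', ← e, C.tδ d.1]; group⟩
  exact this _ (X2_eq.ge h) k hk e rfl i hi

theorem loc (hy : y ∈ Dg z T) (h : Commute z y) : ∃ i, perp 0 i ∧ tp3 z c σ δ i = y := by
  obtain ⟨g, g1, g2, g3⟩ := C.into_A (mem_cent1.2 h.symm) (C.DY hy) (C.D_sq hy)
  obtain ⟨i, i1, i2⟩ := C.D_A (Dg_conj g2 hy) g3
  by_cases o : i = 0
  · refine ⟨0, perp_refl _, ?_⟩
    rw [o, show pc21 (0 : P) = 1024 from rfl, C.Tz, ← commute_iff_conj.1 (S.z_comm g1)] at i2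
    simpa [C.tp0] using i2.symm
  obtain ⟨a, b, -⟩ := C.tp_loc (c := c) (perp_of_lt (by decide) i1) o
  obtain ⟨-, k, k1, k2, k3, k4⟩ := C.dl _ a
  rw [← C.plane (c := c) i1, b, k4] at i2
  have m1 : g⁻¹ * σ (trn i) * k ∈ C1[z] := mul_mem (mul_mem (inv_mem g1) (S.le (C.qs.mem _))) k1
  have m2 : g⁻¹ * σ (trn i) * k ∈ Yg T := mul_mem (mul_mem (inv_mem g2) (C.σY i)) (C.memY k1 k2 k3)
  obtain ⟨l, l1, l2, l3, l4, l5⟩ := C.decY m1 m2
  have := forall_V chk_n2 (π (l⁻¹ * (g⁻¹ * σ (trn i) * k)))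
  simp only [mem_U1p.1 ((C.memYQ l5).1 (mul_mem (inv_mem l4) m2)), bor_eq, Bool.not_true, Bool.false_or, force_eq,
    lany_iff, Nat.beq_eq] at this
  obtain ⟨j, j1, j2⟩ := this
  have j3 : j < 21 := by simp at j1; omega
  obtain ⟨j', e1, e2⟩ := C.normW hc l1 l2 (l3 ▸ C.rY m1 m2) (perp_of_lt (i := 0) (j := ⟨j, by omega⟩) (by decide) j3)
  refine ⟨j', e1, ?_⟩
  rw [← e2, C.plane j3, j2, ← C.conj_Q l5 (by omega), ← mul_right_inj g, ← mul_left_inj g⁻¹, i2]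
  group

theorem frame : ∃ n ∈ Yg T, (∀ a b : P, (a : ℕ) < 21 ∧ nu a = b → n * tp3 z c σ δ b * n⁻¹ = tp3 z c σ δ a) ∧
    ∀ y ∈ Dg z T, Commute y (tp3 z c σ δ 1) → ∃ i, perp 0 i ∧ n * tp3 z c σ δ i * n⁻¹ = y := by
  obtain ⟨n, n1, n2⟩ := C.exists_n
  have k : ∀ a b : P, (a : ℕ) < 21 ∧ nu a = b → n * tp3 z c σ δ b * n⁻¹ = tp3 z c σ δ a := fun a b h => by
    rw [C.plane h.1, C.plane (h.2 ▸ (chk_nu a h.1).1), ← h.2, n2 _ h.1]
  refine ⟨n, n1, k, fun y a b => ?_⟩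
  obtain ⟨i, i1, i2⟩ := C.loc hc (Dg_conj (inv_mem n1) a) ((commute_conj_iff n).1 (by
    rw [← k 1 0 (by decide), C.tp0] at b; simpa [mul_assoc] using b.symm))
  exact ⟨i, i1, by rw [i2]; group⟩

theorem xact (e : trb i < 45 ∧ trb j = trb i ∧ eqv (qk cW (trn i)) (trn j) (trb i) = true) :
    x * tp3 z c σ δ i * x⁻¹ = tp3 z c σ δ j := by
  have := C.eqv_sound hc e.2.2
  rw [show cW = code (r x) from C.rx ▸ code_W.symm, ← S.σ_conj C.toLX C.qs C.xH rfl] at this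
  rw [tp3, tp3, e.2.1, ← this, bs, if_pos e.1, ← commute_iff_conj.1 (C.δ_facts e.1).2.1.symm]
  conv_lhs => rw [commute_iff_conj.1 (C.δ_facts e.1).2.1.symm]
  group

theorem step (hy : y ∈ Dg z T) (h1 : Commute y x) (h2 : ¬Commute y z) (h3 : Commute y (tp3 z c σ δ 1)) :
    Commute y (tp3 z c σ δ 5) ∧ ∀ g ∈ ([0, 2] : List P),
      y * tp3 z c σ δ g * y = tp3 z c σ δ g * y * tp3 z c σ δ g := by
  obtain ⟨n, -, n2, n3⟩ := C.frame hc
  obtain ⟨i, i1, rfl⟩ := n3 y hy h3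
  have k : ∀ a b : P, (a : ℕ) < 21 ∧ nu a = b → (Commute (n * tp3 z c σ δ i * n⁻¹) (tp3 z c σ δ a) ↔
      pp i b = true) := fun a b h => by
    rw [← n2 a b h, commute_conj_iff, C.comm0 hc i1 (perp_of_lt (by decide) (h.2 ▸ (chk_nu a h.1).1)), pp_iff]
  have w : ∀ a b : P, x * tp3 z c σ δ a * x⁻¹ = tp3 z c σ δ b → Commute (n * tp3 z c σ δ i * n⁻¹) (tp3 z c σ δ a) →
      Commute (n * tp3 z c σ δ i * n⁻¹) (tp3 z c σ δ b) := fun a b e h =>
    e ▸ (h1.mul_right h).mul_right h1.inv_right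
  have w1 := w 6 9 (C.xact hc (by decide +kernel))
  have w2 := w 9 10 (C.xact hc (by decide +kernel))
  have w3 := w 10 6 (C.xact hc (by decide +kernel))
  rw [k 6 7 (by decide), k 9 13 (by decide)] at w1
  rw [k 9 13 (by decide), k 10 15 (by decide)] at w2
  rw [k 10 15 (by decide), k 6 7 (by decide)] at w3
  rw [C.comm_z c, k 0 1 (by decide)] at h2
  have := forallP chk_step i
  rw [show pp 0 i = true from (pp_iff 0 i).2 i1, show pp i 1 = false from Bool.eq_false_iff.2 h2] at this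
  have u : pp i (5 : P) = true ∧ ¬pp i (2 : P) = true := by
    change pp i 5 = true ∧ ¬pp i 2 = true
    change pp i 7 = true → pp i 13 = true at w1
    change pp i 13 = true → pp i 15 = true at w2
    change pp i 15 = true → pp i 7 = true at w3
    revert this w1 w2 w3
    cases pp i 2 <;> cases pp i 5 <;> cases pp i 7 <;> cases pp i 13 <;> cases pp i 15 <;> simp
  have v : ∀ a b : P, (a : ℕ) < 21 ∧ nu a = b → ¬pp i b = true → n * tp3 z c σ δ i * n⁻¹ * tp3 z c σ δ a *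
      (n * tp3 z c σ δ i * n⁻¹) = tp3 z c σ δ a * (n * tp3 z c σ δ i * n⁻¹) * tp3 z c σ δ a := fun a b h e => by
    rw [← n2 a b h, conj_mul, conj_mul, conj_mul, conj_mul, (C.good hc i1).2,
      (C.good hc (perp_of_lt (by decide) (h.2 ▸ (chk_nu a h.1).1))).2, op_comm (mt (pp_iff i b).2 e)]
  exact ⟨(k 5 5 (by decide)).2 u.1, by simpa using ⟨v 0 1 (by decide) h2, v 2 2 (by decide) u.2⟩⟩

theorem stepw (w : List P) (hw : ∀ g ∈ w, perp 0 g ∧ trn g = 0 ∧ trb g < 45) (hy : y ∈ Dg z T) (h1 : Commute y x)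
    (h2 : ¬Commute y z) (h3 : Commute y (tp3 z c σ δ (wact w 1))) : Commute y (tp3 z c σ δ (wact w 5)) := by
  induction w generalizing y with
  | nil => exact (C.step hc hy h1 h2 h3).1
  | cons g w ih =>
    obtain ⟨a, b⟩ := hw g List.mem_cons_self
    obtain ⟨d1, d2, d3, -⟩ := C.δ_facts b.2
    have e : ∀ j, Commute y (tp3 z c σ δ (wact (g :: w) j)) ↔
        Commute ((δ (trb g))⁻¹ * y * (δ (trb g))⁻¹⁻¹) (tp3 z c σ δ (wact w j)) := fun j => by
      rw [← commute_conj_iff (δ (trb g))⁻¹, show wact (g :: w) j = op g (wact w j) from rfl,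
        ← good_conj (C.good hc a), C.tδ b]
      simp [mul_assoc]
    have f : ∀ u, Commute (δ (trb g)) u → (Commute ((δ (trb g))⁻¹ * y * (δ (trb g))⁻¹⁻¹) u ↔ Commute y u) :=
      fun u h => by rw [← commute_conj_iff (δ (trb g)), commute_iff_conj.1 h]; simp [mul_assoc]
    exact (e 5).2 (ih (fun g h => hw g (List.mem_cons_of_mem _ h)) (Dg_conj (inv_mem (C.DY d3)) hy)
      ((f x d2).2 h1) (mt (f z (S.z_comm d1)).1 h2) ((e 1).1 h3))

end

theorem x_D (hy : y ∈ Dg z T) : x * y * x⁻¹ ∈ Dg z T := by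
  obtain ⟨g, a, rfl⟩ := hy
  have k : ∀ m n, m < 4 ∧ n < 4 ∧ qk cW (pl m) = pl n → Commute (x * g * x⁻¹) (T n) := fun m n h => by
    rw [C.Tσ (by omega), ← h.2.2, show cW = code (r x) from C.rx ▸ code_W.symm, ← S.σ_conj C.toLX C.qs C.xH rfl,
      ← C.Tσ (by omega), commute_conj_iff]
    exact C.commT a h.1
  refine ⟨_, mem_Yg.2 ⟨k 3 1 (by decide +kernel), k 1 2 (by decide +kernel)⟩, ?_⟩
  conv_lhs => rw [← commute_iff_conj.1 (S.z_comm C.xH)]
  group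

theorem exists_c : ∃ c ∈ Dg z T, (∀ j ∈ [0, 1, 2, 5, 6], Commute c (δ j)) ∧ ∀ i, i ∈ Good (tp3 z c σ δ) := by
  have hc : (1 : G) ∈ Yg T ∧ ∀ j ∈ [0, 1, 2, 5, 6], Commute 1 (δ j) := ⟨one_mem _, fun _ _ => Commute.one_left _⟩
  obtain ⟨n, n1, n2, n3⟩ := C.frame hc
  have : Fact (Nat.Prime 3) := ⟨Nat.prime_three⟩
  have t1 : tp3 z 1 σ δ 1 = δ 0 := C.tδ (by decide +kernel)
  have := ncard_modEq_fix (p := 3) (g := x) (S := {y | y ∈ Dg z T ∧ Commute y (tp3 z 1 σ δ 1) ∧ ¬Commute y z})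
    (by rw [pow_three', C.x3]) fun y h => ⟨C.x_D h.1, by
      rw [t1, ← commute_iff_conj.1 (C.δ_facts (j := 0) (by omega)).2.1.symm, commute_conj_iff, ← t1]
      exact h.2.1, by rw [← commute_iff_conj.1 (S.z_comm C.xH), commute_conj_iff]; exact h.2.2⟩
  have cZ : {y | y ∈ Dg z T ∧ Commute y (tp3 z 1 σ δ 1) ∧ ¬Commute y z}.ncard = 128 := by
   rw [show {y | y ∈ Dg z T ∧ Commute y (tp3 z 1 σ δ 1) ∧ ¬Commute y z} =
      (fun i => n * tp3 z 1 σ δ i * n⁻¹) '' {i | perp 0 i ∧ ¬perp i 1} from Set.ext fun y => ⟨fun h => by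
      obtain ⟨i, a, rfl⟩ := n3 y h.1 h.2.1
      refine ⟨i, ⟨a, fun e => h.2.2 ?_⟩, rfl⟩
      rw [C.comm_z 1, ← n2 0 1 (by decide), commute_conj_iff, C.comm0 hc a (by decide)]
      exact e, by
      rintro ⟨i, ⟨a, b⟩, rfl⟩
      refine ⟨Dg_conj n1 (C.tp_mem (.inr a)), ?_, ?_⟩
      · rw [← n2 1 0 (by decide), commute_conj_iff, C.comm0 hc a (by decide)]; exact a.symm
      · rwa [C.comm_z 1, ← n2 0 1 (by decide), commute_conj_iff, C.comm0 hc a (by decide)]⟩,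
    Set.InjOn.ncard_image fun i a j b e => C.inj0 a.1 b.1 (by simpa using e),
    ncard_eq_bsum (fun i => band (pp 0 i) (!pp i 1)) _ fun i => by
      rw [band_eq, Bool.and_eq_true, Bool.not_eq_true', ← Bool.not_eq_true]
      exact and_congr (pp_iff 0 i).symm (pp_iff i 1).symm.not]
   decide +kernel
  rw [cZ] at this
  obtain ⟨c, ⟨c1, c2, c3⟩, c4⟩ := Set.nonempty_of_ncard_ne_zero fun e => by rw [e] at this; exact absurd this (by decide)
  have c5 : Commute c x := Eq.symm c4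
  have w := fun w hw => C.stepw hc w hw c1 c5 c3
  have a5 := w [] (by simp) c2
  have a7 : Commute c (tp3 z 1 σ δ 7) := by
    simpa only [show wact [619, 421] 5 = 7 by decide +kernel] using w [619, 421] (by decide +kernel)
      (by rwa [show wact [619, 421] 1 = 1 by decide +kernel])
  have a27 : Commute c (tp3 z 1 σ δ 27) := by
    simpa only [show wact [623, 253, 35] 5 = 27 by decide +kernel] using w [623, 253, 35] (by decide +kernel)
      (by rwa [show wact [623, 253, 35] 1 = 7 by decide +kernel])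
  have a435 := w [613] (by decide +kernel) (by rwa [show wact [613] 1 = 1 by decide +kernel])
  have a133 : Commute c (tp3 z 1 σ δ 133) := by
    simpa only [show wact [359, 141] 5 = 133 by decide +kernel] using w [359, 141] (by decide +kernel)
      (by rwa [show wact [359, 141] 1 = wact [613] 5 by decide +kernel])
  have u : ∀ g ∈ ([1, 5, 7, 27, 133] : List P), Commute c (δ (trb g)) := fun g hg => by
    rw [← C.tδ (c := 1) ((by decide +kernel : ∀ g ∈ ([1, 5, 7, 27, 133] : List P), trn g = 0 ∧ trb g < 45) g hg)]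
    revert g
    simpa using ⟨c2, a5, a7, a27, a133⟩
  have hc' : c ∈ Yg T ∧ ∀ j ∈ [0, 1, 2, 5, 6], Commute c (δ j) := ⟨C.DY c1, fun j hj => by
    obtain ⟨g, a, rfl⟩ := (by decide +kernel : ∀ j ∈ [0, 1, 2, 5, 6], ∃ g ∈ ([1, 5, 7, 27, 133] : List P), trb g = j) j hj
    exact u g a⟩
  have t45 : tp3 z c σ δ 45 = c := by
    rw [tp3, show trn (45 : P) = 0 by decide +kernel, show trb (45 : P) = 46 by decide +kernel, S.σ_zero C.toLX C.qs]
    simp [bs]
  refine ⟨c, c1, hc'.2, good45 (fun _ => C.good hc') (by rw [t45]; exact C.D_sq c1) (fun g hg => ?_) fun g hg => ?_⟩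
  · rw [t45, C.tδ ((by decide +kernel : ∀ g ∈ ([1, 5, 7, 27, 133] : List P), trn g = 0 ∧ trb g < 45) g hg)]
    exact u g hg
  · have e := (C.step hc c1 c5 c3 c2).2 g hg
    have l := (by decide : ∀ g ∈ ([0, 2] : List P), (g : ℕ) < 21) g hg
    rwa [t45, C.plane l, ← C.plane (c := 1) l]

theorem exists_UL : ∃ τ : P → Yg T, UL {y | y.1 ∈ Dg z T} τ ∧ ∀ i : P, (i : ℕ) < 21 → (τ i).1 = T (pc21 i) := by
  obtain ⟨c, c1, c2, c3⟩ := C.exists_c
  have hc : c ∈ Yg T ∧ _ := ⟨C.DY c1, c2⟩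
  have R := rep_of_good c3 fun j a b => (C.inj0 (perp_refl _) a b).symm
  refine ⟨fun i => ⟨_, C.DY (C.tp_mem (i := i) (.inl c1))⟩, ⟨⟨fun i j e => R.inj (congrArg Subtype.val e),
    fun i => Subtype.ext (R.sq i), fun i j => Subtype.ext (R.conj i j)⟩, Subtype.ext ?_, fun i => C.tp_mem (.inl c1),
    fun g a ha => Dg_conj g.2 ha, fun a ⟨g, h, e⟩ => ⟨⟨g, h⟩, Subtype.ext (by simpa [C.tp0] using e)⟩,
    fun y hy h => ?_⟩, fun i => C.plane⟩
  · simp only [List.map_cons, List.map_nil, List.prod_cons, List.prod_nil, coe_mul, coe_one]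
    rw [C.plane (by decide), C.plane (by decide), C.plane (by decide), C.plane (by decide), C.plane (by decide),
      mul_one, ← C.mul, ← C.mul, ← C.mul, ← C.mul]
    exact (congrArg T (by decide +kernel)).trans C.zero
  · obtain ⟨i, -, e⟩ := C.loc hc hy (by simpa [C.tp0] using h.map (Yg T).subtype)
    exact ⟨i, Subtype.ext e⟩

theorem mem_Eg : y ∈ Eg T ↔ ∃ n < 4, T n = y := by
  refine ⟨fun h => ?_, ?_⟩
  · induction h using closure_induction with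
    | mem a h => rcases h with rfl | rfl; exacts [⟨1, by omega, rfl⟩, ⟨2, by omega, rfl⟩]
    | one => exact ⟨0, by omega, C.zero⟩
    | mul _ _ _ _ a b =>
      obtain ⟨m, a, rfl⟩ := a
      obtain ⟨n, b, rfl⟩ := b
      exact ⟨_, Nat.xor_lt_two_pow (n := 2) a b, C.mul m n⟩
    | inv _ _ a => obtain ⟨m, a, rfl⟩ := a; exact ⟨m, a, (inv_of_sq (C.co.sq m)).symm⟩
  · rintro ⟨n, a, rfl⟩
    have b : T 1 ∈ Eg T := subset_closure (by simp)
    have c : T 2 ∈ Eg T := subset_closure (by simp)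
    interval_cases n
    exacts [C.zero ▸ one_mem _, b, c, C.mul 1 2 ▸ mul_mem b c]

theorem card_Eg : Nat.card (Eg T) = 4 := by
  rw [← Nat.card_fin 4]
  exact (Nat.card_eq_of_bijective (fun n : Fin 4 => (⟨T n, C.mem_Eg.2 ⟨n, n.2, rfl⟩⟩ : Eg T)) ⟨fun a b e =>
    Fin.ext (C.co.eq (by omega) (by omega) (congrArg Subtype.val e)), fun y =>
      let ⟨n, a, b⟩ := C.mem_Eg.1 y.2; ⟨⟨n, a⟩, Subtype.ext b⟩⟩).symm

theorem Eg_le : Eg T ≤ Yg T := fun _ h => let ⟨n, _, b⟩ := C.mem_Eg.1 h; b ▸ C.TY n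

theorem card_H1 : Nat.card ↥(C1[z] ⊓ Yg T) ≤ 4 * 13271040 := by
  have a : Nat.card ↥(C1[z] ⊓ Yg T ⊓ Q) ≤ _ := card_le_of_le (K := S.pq U1p) fun q h => ⟨h.2, (C.memYQ h.2).1 h.1.2⟩
  have b : Nat.card (S.im (C1[z] ⊓ Yg T)) ≤ _ := card_le_of_le (K := St K0 (dc 5)) fun g h =>
    let ⟨_, a, _, b⟩ := S.mem_im.1 h; b ▸ C.rY a.1 a.2
  rw [S.card_pq, card_U1p] at a
  rw [card_X2] at b
  rw [S.card_im inf_le_left]
  exact (Nat.mul_le_mul a b).trans (by norm_num)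

theorem u6 {X : Type*} [Group X] {t : P → X} (U : U6 t) :
    ∃ τ : P → Yg T, UL {y | y.1 ∈ Dg z T} τ ∧ (∀ i : P, (i : ℕ) < 21 → (τ i).1 = T (pc21 i)) ∧
      center (Yg T) = (Eg T).subgroupOf (Yg T) ∧ Group.IsPerfect (Yg T) ∧ closure (Set.range τ) = ⊤ ∧
      ∃ ψ : Yg T →* X, Function.Surjective ψ ∧ ψ.ker = (Eg T).subgroupOf (Yg T) ∧ ∀ i, ψ (τ i) = t i := by
  obtain ⟨τ, H, e⟩ := C.exists_UL
  refine ⟨τ, H, e, H.main (fun y h => mem_center_iff.2 fun g => ?_) ?_ (fun y h => ?_) ?_ U⟩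
  · obtain ⟨n, a, b⟩ := C.mem_Eg.1 h
    exact Subtype.ext ((show T n = y from b) ▸ C.commT g.2 a : Commute (g : G) y)
  · rw [Nat.card_congr (subgroupOfEquivOfLe C.Eg_le).toEquiv, C.card_Eg]
  · have k : ∀ L : List P, (∀ i ∈ L, (i : ℕ) < 21) →
        ((L.map τ).prod : G) = T (L.foldr (fun (i : P) n => pc21 i ^^^ n) 0) := fun L hL => by
      induction L with
      | nil => exact C.zero.symm
      | cons i L ih => rw [List.map_cons, List.prod_cons, coe_mul, e i (hL i List.mem_cons_self),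
          ih fun j h => hL j (List.mem_cons_of_mem _ h), List.foldr_cons, C.mul]
    obtain ⟨n, a, b⟩ := C.mem_Eg.1 h
    obtain ⟨L, -, c, d⟩ := (by decide +kernel : ∀ n < 4, ∃ L ∈ [] :: hypL, (∀ i : P, i ∈ L → (i : ℕ) < 21) ∧
      L.foldr (fun (i : P) n => pc21 i ^^^ n) 0 = n) n a
    rw [show y = (L.map τ).prod from Subtype.ext (by rw [k L c, d, b]; rfl), ← Set.image_univ]
    exact prod_mem_closure fun _ _ => trivial
  · refine le_trans (Nat.card_le_card_of_injective (fun g : C1[τ 0] => (⟨g.1.1, mem_cent1.2 ?_, g.1.2⟩ :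
      ↥(C1[z] ⊓ Yg T))) fun a b h => Subtype.ext (Subtype.ext (Subtype.mk.inj h))) C.card_H1
    rw [← C.Tz]
    exact (e 0 (by decide)) ▸ congrArg Subtype.val (mem_cent1.1 g.2)

theorem quasi : IsQuasisimple (Yg T) ∧ center (Yg T) = (Eg T).subgroupOf (Yg T) ∧
    ∃ ψ : Yg T →* PSU 6 K4 2, Function.Surjective ψ ∧ ψ.ker = (Eg T).subgroupOf (Yg T) := by
  obtain ⟨t, U⟩ := exists_U6 card_K4
  obtain ⟨-, -, -, a, b, -, ψ, c, d, -⟩ := C.u6 U
  have := frob4.simple_psu (n := 6) (by omega) (by omega)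
  exact ⟨⟨b, ((QuotientGroup.quotientMulEquivOfEq (a.trans d.symm)).trans
    (QuotientGroup.quotientKerEquivOfSurjective ψ c)).isSimpleGroup⟩, a, ψ, c, d⟩

theorem T_ncj (h : n < 2048 ∧ n ≠ 0 ∧ dq n = true) : orderOf (T n) = 2 ∧ ¬IsConj z (T n) :=
  ⟨orderOf_eq_two (C.co.sq n) fun e => h.2.1 (C.co.inj n h.1 e), (C.fs.cls n h.1 h.2.1).2 h.2.2⟩

end UD

end Cfsg.Agent.LF
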