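import Cfsg.Agent.LF.Ext

/-! # Uniqueness of the `12`-dimensional orthogonal module of `3.U4(3)` -/

set_option autoImplicit false

namespace Cfsg.Agent.LF

open Cfsg.Agent.M24 Cfsg.Agent.Cl Cfsg.Agent.Leech Equiv Subgroup

/-- Transport of automorphisms. -/
def trG {V1 : Type*} [AddCommGroup V1] [Module (ZMod 2) V1] (e : V1 ≃ₗ[ZMod 2] V) :
    (V1 ≃ₗ[ZMod 2] V1) ≃* Γ where
  toFun g := e.symm.trans (g.trans e)
  invFun g := e.trans (g.trans e.symm)
  left_inv _ := LinearEquiv.ext fun v => by simp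
  right_inv _ := LinearEquiv.ext fun v => by simp
  map_mul' _ _ := LinearEquiv.ext fun v => by simp

theorem trG_apply {V1 : Type*} [AddCommGroup V1] [Module (ZMod 2) V1] (e : V1 ≃ₗ[ZMod 2] V)
    (g : V1 ≃ₗ[ZMod 2] V1) (v : V1) : trG e g (e v) = e (g v) := by simp [trG]

theorem trG_eq {V1 : Type*} [AddCommGroup V1] [Module (ZMod 2) V1] {e : V1 ≃ₗ[ZMod 2] V}
    {g : V1 ≃ₗ[ZMod 2] V1} {h : Γ} (H : ∀ v, e (g v) = h (e v)) : trG e g = h :=
  LinearEquiv.ext fun v => by obtain ⟨v, rfl⟩ := e.surjective v; rw [trG_apply, H]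

theorem eq_Q0 {Q : QuadraticForm (ZMod 2) V} (hB : Orth.BNondeg Q) (h : ∀ g ∈ PM ⊥, ∀ v, Q (g v) = Q v)
    (v : V) : Q v = Q0 v := by
  have hb : ∀ g ∈ PM ⊥, ∀ u v, Orth.B Q (g u) (g v) = Orth.B Q u v := fun g hg u v => by
    rw [B_eq, B_eq, ← g.map_add, h g hg, h g hg, h g hg]
  have h1 : ∀ i j : Fin 6, i ≠ j → ∀ a b : K4, Orth.B Q (Pi.single i a) (Pi.single j b) = 0 := by
    intro i j hij a b
    obtain ⟨k, h1, h2⟩ := (show ∀ i j : Fin 6, ∃ k, i ≠ k ∧ j ≠ k by decide) i j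
    have e : ∀ b : K4, Orth.B Q (Pi.single i a) (Pi.single j (om * b)) =
        Orth.B Q (Pi.single i a) (Pi.single j b) := fun b => by
      rw [← hb _ (dd_mem j k ⊥) (Pi.single i a) (Pi.single j b)]
      congr 2 <;> funext l <;> simp only [mon_apply, inv_one, Perm.one_apply, Pi.single_apply, dd] <;>
        split_ifs <;> simp_all [omu, om]
    rw [(show ∀ b : K4, b = om * b + om * (om * b) by decide) b, Pi.single_add, map_add, e (om * b)]
    exact CharTwo.add_self_eq_zero _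
  have h2 : ∀ (i : Fin 6) (a : K4), Q (Pi.single i a) = nm a := fun i => by
    have e : ∀ b : K4, Q (Pi.single i (om * b)) = Q (Pi.single i b) := fun b => by
      rw [← h _ (zW_le ⊥ (mem_zpowers W)) (Pi.single i b), W_apply, ← Pi.single_smul, smul_eq_mul]
    have e1 : Q (Pi.single i om) = Q (Pi.single i 1) := by rw [← e 1, mul_one]
    have e2 : Q (Pi.single i (om + 1)) = Q (Pi.single i 1) := by rw [← e1, ← e om]; rfl
    have e3 : Q (Pi.single i 1) = 1 := by
      refine (show ∀ a : ZMod 2, a ≠ 0 → a = 1 by decide) _ fun e0 => ?_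
      have e4 : ∀ a : K4, Q (Pi.single i a) = 0 := fun a => by
        rcases K4_cases a with rfl | rfl | rfl | rfl <;> simp [e0, e1, e2]
      have := hB (Pi.single i 1) fun u => by
        rw [← Finset.univ_sum_single u, map_sum, LinearMap.sum_apply]
        refine Finset.sum_eq_zero fun j _ => ?_
        by_cases hj : j = i
        · rw [hj, B_eq, ← Pi.single_add, e4, e4, e4]; rfl
        · exact h1 j i hj _ _
      simpa using congrFun this i
    intro a
    rcases K4_cases a with rfl | rfl | rfl | rfl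
    · simp; rfl
    · exact e3
    · exact e1.trans e3
    · exact e2.trans e3
  have : ∀ s : Finset (Fin 6), Q (∑ j ∈ s, Pi.single j (v j)) = ∑ j ∈ s, nm (v j) := fun s => by
    induction s using Finset.induction_on with
    | empty => simp
    | insert i s hi ih =>
      rw [Finset.sum_insert hi, Finset.sum_insert hi, Orth.Q_add, ih, h2, map_sum,
        Finset.sum_eq_zero fun j hj => h1 i j (by rintro rfl; exact hi hj) _ _, add_zero]
  rw [Q0_apply, ← this, Finset.univ_sum_single]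

/-- A diagonal map of determinant `ω`. -/
def dw : Γ := mon ![omu, 1, 1, 1, 1, 1] 1

theorem code_dw : code dw = nat_lit 0x800400200100080040020010008004001003800400200100080040020010008004003002 := by decide +kernel

theorem K0_le_res : K0 ≤ res.range := fun _ hg => exists_res (K0_smul hg) (N0_Q0 (K0_le_N0 hg))

theorem card_UG0 : Nat.card UG0 = 82771476480 := (frob4.card_UG 6).trans (by decide)

theorem seven_dvd {G : Subgroup Γ} (h1 : G ≤ res.range) (h2 : 7 ∣ Nat.card G) :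
    7 ∣ (MulAction.orbit G (dc 5)).ncard := by
  have e1 : MulAction.orbit res.range (dc 5) = {v | ty (cd v) = 1 ∨ ty (cd v) = 2} := by
    refine Set.Subset.antisymm ?_ ?_
    · rintro _ ⟨⟨_, u, rfl⟩, rfl⟩
      have a : ty (cd (res u (dc 5))) ≠ 3 := Q0_eq_zero.1 ((res_Q0 u _).trans (by decide))
      have b : ty (cd (res u (dc 5))) ≠ 0 := fun e =>
        absurd ((res u).map_eq_zero_iff.1 (ty_eq_zero.1 e)) (by decide)
      have := ty_lt (cd (res u (dc 5)))
      change ty (cd (res u (dc 5))) = 1 ∨ ty (cd (res u (dc 5))) = 2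
      omega
    · rintro v (h | h)
      · obtain ⟨g, a, b⟩ := K0_trans (u := dc 5) (v := v) (by rw [h]; decide +kernel)
        exact ⟨⟨g, K0_le_res a⟩, b⟩
      · obtain ⟨g, a, b⟩ := K0_trans (u := dw (dc 1365)) (v := v) (by rw [h]; decide +kernel)
        obtain ⟨k, c, d⟩ := K0_trans (u := dc 5) (v := dc 1365) (by decide +kernel)
        exact ⟨⟨g * dw * k, mul_mem (mul_mem (K0_le_res a) ⟨_, rfl⟩) (K0_le_res c)⟩, by
          change g (dw (k (dc 5))) = v; rw [d, b]⟩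
  have e2 := (MulAction.stabilizer res.range (dc 5)).card_mul_index
  rw [MulAction.index_stabilizer, e1, ncard_V (f := fun n => Nat.beq (ty n) 1 || Nat.beq (ty n) 2)
    (fun v => by simp), ← Nat.card_congr (MonoidHom.ofInjective res_inj).toEquiv, card_UG0,
    show bsum _ 12 0 = 2079 by decide +kernel] at e2
  have e3 := (MulAction.stabilizer G (dc 5)).card_mul_index
  rw [MulAction.index_stabilizer] at e3
  rw [← e3] at h2
  refine ((by norm_num : Nat.Prime 7).dvd_mul.1 h2).resolve_left fun h => ?_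
  have := h.trans (card_dvd_of_injective (α := MulAction.stabilizer G (dc 5))
    (H := MulAction.stabilizer res.range (dc 5))
    (((inclusion h1).comp (MulAction.stabilizer G (dc 5)).subtype).codRestrict _ fun g => g.2) fun a b e =>
      Subtype.ext (Subtype.ext (congrArg (fun g => g.1.1) e)))
  omega

/-- Unions of orbits of the monomial group. -/
def clU (b2 b3 b4 b5 : Bool) (n : ℕ) : Bool :=
  [false, true, b2, b3, b4, b5].getD (clP n) false

theorem ty_congr {u v : V} (h0 : u = 0 ↔ v = 0) (h1 : ty (cd u) = 1 ↔ ty (cd v) = 1) (h3 : Q0 u = Q0 v) :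
    ty (cd u) = ty (cd v) := by
  have a : ty (cd u) = 3 ↔ ty (cd v) = 3 := by rw [← Q0_eq_one, ← Q0_eq_one, h3]
  rw [← ty_eq_zero, ← ty_eq_zero] at h0
  have := ty_lt (cd u)
  have := ty_lt (cd v)
  omega

theorem exists_conj_le {G : Subgroup Γ} (h1 : G ≤ res.range) (h2 : PM (alternatingGroup (Fin 6)) ≤ G)
    (h3 : Nat.card G = 9797760) : ∃ i : ℕ, ∀ g ∈ G, dw ^ i * g * (dw ^ i)⁻¹ ∈ N0 := by
  classical
  have hQ : ∀ g ∈ G, ∀ v, Q0 (g v) = Q0 v := fun g hg v => by obtain ⟨u, rfl⟩ := h1 hg; exact res_Q0 u v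
  let Ω := MulAction.orbit G (dc 5)
  have a : ∀ u v, clP (cd u) = clP (cd v) → u ∈ Ω → v ∈ Ω := fun u v e hu => by
    obtain ⟨g, b, rfl⟩ := PM_trans e
    exact MulAction.mapsTo_smul_orbit (⟨g, h2 b⟩ : G) _ hu
  have b : ∀ v, v ∈ Ω ↔ clU (dc 85 ∈ Ω) (dc 1365 ∈ Ω) (dc 1366 ∈ Ω) (dc 1367 ∈ Ω) (cd v) = true := fun v => by
    have c : ∀ n < 4096, clP n = clP (cd v) → (v ∈ Ω ↔ dc n ∈ Ω) := fun n hn e =>
      ⟨a _ _ (by rw [cd_dc hn, e]), a _ _ (by rw [cd_dc hn, e])⟩
    have d := forall_V (f := fun n => decide (clP n < 9 ∧ (clP n = 0 ∨ 6 ≤ clP n → ty n = 0 ∨ ty n = 3)))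
      (by decide +kernel) v
    have e : v ∈ Ω → ¬(ty (cd v) = 0 ∨ ty (cd v) = 3) := by
      rintro ⟨g, rfl⟩ (e | e)
      · exact absurd (g.1.map_eq_zero_iff.1 (ty_eq_zero.1 e)) (by decide)
      · exact absurd ((hQ g g.2 _).symm.trans (Q0_eq_one.2 e)) (by decide)
    obtain ⟨d1, d2⟩ := of_decide_eq_true d
    unfold clU
    generalize hm : clP (cd v) = m at c d1 d2
    interval_cases m
    · exact iff_of_false (fun h => e h (d2 (by omega))) Bool.false_ne_true
    · exact iff_of_true ((c 5 (by omega) (by decide +kernel)).2 (MulAction.mem_orbit_self _)) rfl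
    · exact (c 85 (by omega) (by decide +kernel)).trans decide_eq_true_iff.symm
    · exact (c 1365 (by omega) (by decide +kernel)).trans decide_eq_true_iff.symm
    · exact (c 1366 (by omega) (by decide +kernel)).trans decide_eq_true_iff.symm
    · exact (c 1367 (by omega) (by decide +kernel)).trans decide_eq_true_iff.symm
    all_goals exact iff_of_false (fun h => e h (d2 (by omega))) Bool.false_ne_true
  have c := seven_dvd h1 (by rw [h3]; decide)
  have d : Ω.ncard ∣ 9797760 := by rw [← h3, ← MulAction.index_stabilizer]; exact index_dvd_card _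
  have e : Ω.ncard = _ := ncard_V b
  rw [e] at d
  rw [show MulAction.orbit G (dc 5) = Ω from rfl, e] at c
  have f : ∃ i : ℕ, ∀ v, v ∈ Ω ↔ ty (cd ((dw ^ i) v)) = 1 := by
    refine (?_ : ∃ i : ℕ, ∀ v : V, _ ↔ ty (mm (code (dw ^ i)) (cd v)) = 1).imp fun i h v => by
      rw [b, ← mm_code]; exact h v
    generalize decide (dc 85 ∈ Ω) = b2, decide (dc 1365 ∈ Ω) = b3, decide (dc 1366 ∈ Ω) = b4,
      decide (dc 1367 ∈ Ω) = b5 at c d
    rw [(show ∀ b2 b3 b4 b5 : Bool, bsum (fun n => b2n (clU b2 b3 b4 b5 n)) 12 0 =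
      135 + 1215 * b2n b2 + 243 * (b2n b3 + b2n b4 + b2n b5) by decide +kernel)] at c d
    have k : ∀ {b2 b3 b4 b5 : Bool} {i p : ℕ}, code (dw ^ i) = p → ball (fun n => clU b2 b3 b4 b5 n ==
        Nat.beq (ty (mm p n)) 1) 12 0 = true → ∃ i : ℕ, ∀ v : V, clU b2 b3 b4 b5 (cd v) = true ↔
        ty (mm (code (dw ^ i)) (cd v)) = 1 := fun {_ _ _ _ i p} e h => ⟨i, fun v => by
      rw [e, beq_iff_eq.1 (forall_V h v), Nat.beq_eq]⟩
    cases b2 <;> cases b3 <;> cases b4 <;> cases b5 <;>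
      first | exact absurd c (by decide) | exact absurd d (by decide) | skip
    · exact k (i := 1) (by rw [pow_one, code_dw]) (by decide +kernel)
    · exact k (i := 2) (by rw [pow_two, gc.code_mul, code_dw]) (by decide +kernel)
    · exact k (i := 0) gc.code_one (by decide +kernel)
  obtain ⟨i, hi⟩ := f
  refine ⟨i, fun g hg => mem_N0.2 fun v => ?_⟩
  obtain ⟨u, rfl⟩ := (dw ^ i).surjective v
  rw [← LinearEquiv.mul_apply, inv_mul_cancel_right, LinearEquiv.mul_apply]
  have hd : ∀ v, Q0 ((dw ^ i) v) = Q0 v := fun v => by rw [dw, mon, ← map_pow, res_Q0]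
  refine ty_congr (by simp) ?_ (by rw [hd, hd, hQ g hg])
  rw [← hi, ← hi]
  exact ⟨fun h => inv_smul_smul (⟨g, hg⟩ : G) u ▸ MulAction.mem_orbit_of_mem_orbit (⟨g, hg⟩ : G)⁻¹ h,
    MulAction.mem_orbit_of_mem_orbit (⟨g, hg⟩ : G)⟩

theorem card_N0 : Nat.card N0 = 4 * 9797760 := (chk_sound chk_N).2.2.1.trans (by decide +kernel)

namespace Ext3

variable {K U : Type*} [Group K] [Group U] {φ : K →* U} {θ : K0 →* U} {x : K} (E : Ext3 φ θ x)
include E

theorem range_eq_K0 {ρ : K →* Γ} (hρ : Function.Injective ρ) (hx : ρ x = W) (h : ∀ k, ρ k ∈ N0) :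
    ρ.range = K0 := by
  have : (K0.subgroupOf N0).Normal := ⟨fun k hk g => N0_norm g.2 hk⟩
  refine eq_of_le_of_card_ge ?_ (by
    rw [card_K0, ← E.cardK, Nat.card_congr (MonoidHom.ofInjective hρ).toEquiv])
  rintro _ ⟨k, rfl⟩
  refine (QuotientGroup.eq_one_iff (N := K0.subgroupOf N0) ⟨ρ k, h k⟩).1
    (E.hom_triv ((QuotientGroup.mk' _).comp (ρ.codRestrict N0 h))
      ((QuotientGroup.eq_one_iff _).2 (by change ρ x ∈ K0; rw [hx]; exact W_mem)) ?_ k)
  have := (K0.subgroupOf N0).card_mul_index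
  rw [Nat.card_congr (subgroupOfEquivOfLe K0_le_N0).toEquiv, card_K0, card_N0, index] at this
  omega

theorem frame {V1 : Type*} [AddCommGroup V1] [Module (ZMod 2) V1] (hV : Nat.card V1 = 4096)
    {ρ : K →* (V1 ≃ₗ[ZMod 2] V1)} (hρ : Function.Injective ρ) :
    ∃ e : V1 ≃ₗ[ZMod 2] V, trG e (ρ x) = W ∧ (∀ g ∈ PM ⊥, ∃ k, trG e (ρ k) = g) ∧
      ∀ n ∈ pre φ θ (PM (alternatingGroup (Fin 6))), ∃ d, ∃ σ ∈ alternatingGroup (Fin 6),
        trG e (ρ n) = mon d σ := by
  have := E.finite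
  choose L hL using fun i => E.R_ex (PM_bot_le (dd_mem i 5 _))
  let N := pre φ θ (PM (alternatingGroup (Fin 6)))
  have hle : pre φ θ (PM ⊥) ≤ N := fun k hk =>
    let ⟨g, a, b⟩ := mem_pre.1 hk; mem_pre.2 ⟨g, PM_mono bot_le a, b⟩
  let A := (pre φ θ (PM ⊥)).subgroupOf N
  have : A.Normal := ⟨fun a ha n => A_conj n.2 ha⟩
  have cA : Nat.card (pre φ θ (PM ⊥)) = 243 := by rw [E.card_pre (zW_le _) PM_bot_le, card_PM, card_bot]
  let ι : pre φ θ (PM ⊥) →* A := (subgroupOfEquivOfLe hle).symm.toMonoidHom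
  obtain ⟨e, π, h1, h2, h3, h4⟩ := exists_frame (A := A) (ρ := ρ.comp N.subtype) hV
    (hρ.comp N.subtype_injective) (fun a b => Subtype.ext (Subtype.ext (E.A_comm hL a.2 b.2)))
    (fun a => Subtype.ext (Subtype.ext (E.A_cube hL a.2))) (ι ⟨x, E.x_mem _⟩)
    (fun n => Subtype.ext (E.comm_x n)) (by
      rw [Nat.card_congr (subgroupOfEquivOfLe hle).toEquiv, cA, E.card_pre (zW_le _) PM_le, card_PM,
        Nat.card_eq_fintype_card, card_alternatingGroup]; rfl)
    (fun n h => E.A_cent n.2 fun a ha => congrArg Subtype.val (h ⟨a, hle ha⟩ ha)) (fun χ hx h1 => by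
      let c : Fin 6 → K4ˣ := fun i => χ.toHomUnits (ι ⟨L i, L_mem hL i⟩)
      have hz : ∀ z (h : z ∈ zpowers x), χ.toHomUnits (ι ⟨z, zpowers_le.2 (E.x_mem _) h⟩) = 1 := by
        rintro _ ⟨n, rfl⟩
        have : χ.toHomUnits (ι ⟨x, E.x_mem _⟩) = 1 := Units.ext hx
        exact (map_zpow (χ.toHomUnits.comp ι) ⟨x, E.x_mem _⟩ n).trans ((congrArg (· ^ n) this).trans (one_zpow n))
      refine (evl_many c (hz _ (E.L5 hL)) ?_ fun e => h1 ?_).trans ?_
      · have := hz _ ((E.R_z ((((((hL 0).mul (hL 1)).mul (hL 2)).mul (hL 3)).mul (hL 4)).mul (hL 5))).2 (by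
          simp only [mon_mul_one]; exact mem_zW.2 ⟨omu, congrArg (mon · 1) (by decide +kernel)⟩))
        rw [← this, Fin.prod_univ_six]
        simp only [c, ← map_mul]; rfl
      · refine MonoidHom.ext fun a => ?_
        obtain ⟨a, rfl⟩ := (subgroupOfEquivOfLe hle).symm.surjective a
        obtain ⟨b, b1, b2⟩ := E.pre_le hL (Z := (χ.comp ι).ker.map (Subgroup.subtype _)) ⟨⟨x, _⟩, hx, rfl⟩
          (fun i => ⟨⟨L i, L_mem hL i⟩, congrArg Units.val (congrFun e i), rfl⟩) a.2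
        obtain rfl : b = a := Subtype.ext b2
        exact b1
      · have : Finite (A →* K4) := Finite.of_injective _ DFunLike.coe_injective
        rw [← Set.ncard_coe_finset]
        refine (Set.ncard_le_ncard (fun f hf => ?_) (Set.toFinite _)).trans (Set.ncard_image_le
          (f := fun (ψ : A →* K4) i => ψ.toHomUnits (ι ⟨L i, L_mem hL i⟩)) (Set.toFinite _))
        obtain ⟨σ, a, rfl⟩ := List.mem_map.1 (List.mem_toFinset.1 hf)
        obtain ⟨n, hn⟩ := E.R_ex (PM_le (perm_mem_PM (evl_sign σ a)))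
        refine ⟨_, ⟨(⟨n, mem_pre.2 ⟨_, perm_mem_PM (evl_sign σ a), hn⟩⟩ : N)⁻¹, rfl⟩, funext fun i => ?_⟩
        obtain ⟨z, z1, z2⟩ := E.L_conj hL hn i
        rw [← mul_one (_ * _), ← hz z z1]
        simp only [c, ← map_mul, ← map_inv]
        exact Units.ext (congrArg χ (Subtype.ext (Subtype.ext (by simpa [ι] using z2)))))
  have h5 : ∀ n : N, ∃ d, trG e (ρ n) = mon d (π n) := fun n => (h3 n).imp fun _ => trG_eq
  have h6 : trG e (ρ x) = W := trG_eq h4
  let τ := (trG e).toMonoidHom.comp ρ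
  refine ⟨e, h6, fun g hg => ?_, fun n hn => (h5 ⟨n, hn⟩).imp fun d h => ⟨_, h1.le ⟨_, rfl⟩, h⟩⟩
  have h7 : (pre φ θ (PM ⊥)).map τ = PM ⊥ := by
    refine eq_of_le_of_card_ge (map_le_iff_le_comap.2 (E.pre_le hL ?_ fun i => ?_)) (by
      rw [card_map_of_injective ((trG e).injective.comp hρ), cA, card_PM, card_bot])
    · exact (congrArg (· ∈ PM ⊥) h6).mpr (zW_le _ (mem_zpowers W))
    · obtain ⟨c, hc⟩ := h5 ⟨L i, hle (L_mem hL i)⟩
      rw [h2 _ (L_mem hL i)] at hc
      obtain ⟨n, hn, z, ⟨m, rfl⟩, e1⟩ := E.L_inv hL i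
      obtain ⟨d, hd⟩ := h5 ⟨n, hn⟩
      obtain ⟨t, ht⟩ := mem_zW.1 (zpow_mem_zpowers W m)
      have := congrArg τ e1
      rw [map_mul, map_mul, map_mul, map_inv, map_inv, map_zpow, show τ n = _ from hd, show τ (L i) = _ from hc,
        show τ x = _ from h6, ht, mon_conj, mon_inv, inv_one, mon_mul_one] at this
      have := congrArg (∏ i, · i) (mon_inj this).1
      simp only [Equiv.prod_comp _ c, Pi.mul_apply, Finset.prod_mul_distrib, Perm.one_apply,
        Finset.prod_inv_distrib, Finset.prod_const] at this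
      exact mem_PM_bot.2 ⟨c, (show ∀ a t : K4ˣ, a = a⁻¹ * t ^ 6 → a = 1 by decide) _ t this, hc⟩
  obtain ⟨k, -, hk⟩ := h7.ge hg
  exact ⟨k, hk⟩

theorem uniq {V1 : Type*} [AddCommGroup V1] [Module (ZMod 2) V1] (hV : Nat.card V1 = 4096)
    {ρ : K →* (V1 ≃ₗ[ZMod 2] V1)} (hρ : Function.Injective ρ) {Q : QuadraticForm (ZMod 2) V1}
    (hB : Orth.BNondeg Q) (hQ : ∀ k v, Q (ρ k v) = Q v) :
    ∃ e : V1 ≃ₗ[ZMod 2] V, (∀ v, Q0 (e v) = Q v) ∧ trG e (ρ x) = W ∧
      ((trG e).toMonoidHom.comp ρ).range = K0 := by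
  have := E.finite
  obtain ⟨e, h1, h2, h3⟩ := E.frame hV hρ
  let τ := (trG e).toMonoidHom.comp ρ
  have hτ : Function.Injective τ := (trG e).injective.comp hρ
  have h4 : ∀ v, Q0 (e v) = Q v := fun v => by
    rw [← eq_Q0 (Q := Q.comp e.symm.toLinearMap) (Orth.BNondeg.congr e.symm (fun _ => rfl) hB) fun g hg v => by
      obtain ⟨k, rfl⟩ := h2 g hg
      simp [trG, hQ]]
    simp
  have h5 : τ.range ≤ res.range := by
    rintro _ ⟨k, rfl⟩
    refine exists_res (fun v => ?_) fun v => ?_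
    · rw [← W_apply, ← W_apply, ← h1, ← LinearEquiv.mul_apply, ← LinearEquiv.mul_apply]
      change (τ k * τ x) v = (τ x * τ k) v
      rw [← map_mul, E.comm_x, map_mul]
    · obtain ⟨v, rfl⟩ := e.surjective v
      exact (congrArg Q0 (trG_apply e _ v)).trans (by rw [h4, h4, hQ])
  let ψ : K →* UG0 := (MonoidHom.ofInjective res_inj).symm.toMonoidHom.comp
    (τ.codRestrict _ fun k => h5 ⟨k, rfl⟩)
  have hψ : ∀ k d σ, τ k = mon d σ → Uni.udet _ (ψ k) = ∏ i, d i := fun k d σ h => by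
    rw [← udet_monU d σ]
    exact congrArg _ (res_inj ((MonoidHom.apply_ofInjective_symm res_inj _).trans h))
  have h6 : (pre φ θ (PM (alternatingGroup (Fin 6)))).map τ = PM (alternatingGroup (Fin 6)) := by
    refine eq_of_le_of_card_ge ?_ (by rw [card_map_of_injective hτ, E.card_pre (zW_le _) PM_le])
    rintro _ ⟨n, hn, rfl⟩
    obtain ⟨d, σ, a, b⟩ := h3 n hn
    exact ⟨d, σ, (hψ n d σ b).symm.trans (E.hom_triv ((Uni.udet _).comp ψ) ((hψ x _ _ h1).trans (by decide))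
      (by rw [card_K4u]; omega) n), a, b⟩
  obtain ⟨i, hi⟩ := exists_conj_le h5 (h6.ge.trans (map_le_range _ _))
    (by rw [← E.cardK, Nat.card_congr (MonoidHom.ofInjective hτ).toEquiv])
  have h7 : ∀ g, trG (e.trans (dw ^ i)) g = dw ^ i * trG e g * (dw ^ i)⁻¹ := fun _ => rfl
  have h8 : trG (e.trans (dw ^ i)) (ρ x) = W := by
    rw [h7, h1, dw, mon, ← map_pow, res_W, mul_inv_cancel_right]
  refine ⟨e.trans (dw ^ i), fun v => ?_, h8,
    E.range_eq_K0 ((trG _).injective.comp hρ) h8 fun k => hi _ ⟨k, rfl⟩⟩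
  rw [LinearEquiv.trans_apply, dw, mon, ← map_pow, res_Q0, h4]

end Ext3

end Cfsg.Agent.LF
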